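import Mathlib
import Cfsg.Agent.Base
import Cfsg.Agent.Lib.Co3M.St2
import Cfsg.Agent.Lib.Co3M.P13
import Cfsg.Agent.Lib.Co3S.Sig

/-!
# Standard subgroups of type `M₁₂`: the configurations (helper30)
-/

set_option autoImplicit false

namespace H30.CS

open Subgroup H69 Cfsg H70.TM H30.CM

/-- the action of the outer element on the frame -/
structure GR {G : Type*} [Group G] (a b s u x y g : G) : Prop where
  gs : g * s * g⁻¹ = s
  gx : g * x * g⁻¹ = x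
  ga : g * a * g⁻¹ = a * (b * b)
  gb : g * b * g⁻¹ = b * (a * a * (b * b))
  gu : g * u * g⁻¹ = u * s
  gy : g * y * g⁻¹ = b * y * b⁻¹

/-- the model of the automorphism group of `M₁₂` -/
structure MX0 {X : Type} [Group X] (J : Subgroup X) (a b s u x y g h : X) : Prop
    extends XR a b s u x, GR a b s u x y g where
  r2 : E2.Rel 1 a b s u y
  gg : g * g = 1
  gen : J = closure {a, b, s, u, x, y}
  gJ : g ∉ J
  idx : J.index = 2
  iso : Nonempty (J ≃* Spor.M12)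
  ct : Nat.card ↥(J ⊓ 𝐂₀(a * a)) = 192
  cs : Nat.card ↥(J ⊓ 𝐂₀(s)) = 240
  cg0 : Nat.card ↥(J ⊓ 𝐂₀(g)) = 120
  hJ : h ∈ J
  h5 : h ^ 5 = 1
  hs : h * s = s * h
  hg : h * g = g * h
  ht : (h * (a * a)) ^ 3 = 1
  hv : (h * (b * b)) ^ 2 = 1
  hx : (h * x⁻¹) ^ 3 = 1
  uh : u * h * u = x * h
  fh : a * a * u * x * h * (a * a * u * x)⁻¹ = h * h
  aut : ∀ φ : MulAut J, ∃ r : X, ∀ j : J, (φ j : X) = r * j * r⁻¹
  cen : ∀ r, (∀ j ∈ J, r * j = j * r) → r = 1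

/-- the model with the facts on centralisers -/
structure MX {X : Type} [Group X] (J : Subgroup X) (a b s u x y g h : X) : Prop
    extends MX0 J a b s u x y g h where
  inv : ∀ w, w * w = 1 → w ≠ 1 →
    ∃ j ∈ J, j * w * j⁻¹ = a * a ∨ j * w * j⁻¹ = s ∨ j * w * j⁻¹ = g
  c64 : ∀ P : Subgroup X, IsPGroup 2 P → 64 ≤ Nat.card P → ∀ o, Odd (orderOf o) →
    (∀ r ∈ P, r * o = o * r) → o = 1
  c5 : ∀ k f m n : X, k ^ 5 = 1 → k ≠ 1 → f * k * f⁻¹ = k * k → m * k = k * m → m * f = f * m →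
    n * k = k * n → n * f = f * n → m * n = n * m → m ^ 4 = 1 → n ^ 4 = 1 → m ≠ 1 → n ≠ 1 → m = n
  c3 : ∀ k f c m n : X, k * k * k = 1 → f * f = 1 → f * k * f = k⁻¹ → c * c = 1 → f * c = c * f →
    c * (k * c * k⁻¹) = k * c * k⁻¹ * c → k * c ≠ c * k → m * k = k * m → m * f = f * m →
    m * c = c * m → n * k = k * n → n * f = f * n → n * c = c * n → m * n = n * m → m ^ 4 = 1 →
    n ^ 4 = 1 → m ≠ 1 → n ≠ 1 → m = n

/-- the centraliser of `e` modulo its core -/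
structure GQ {G H : Type*} [Group G] [Group H] (e : G) (O N : Subgroup G) (π : N →* H) (e' : H) :
    Prop where
  ee : e * e = 1
  ne : e ≠ 1
  hN : N = 𝐍(O)
  eN : ∀ g, g * e = e * g → g ∈ N
  pe : ∀ h : e ∈ N, π ⟨e, h⟩ = e'
  Oe : ∀ o ∈ O, o * e = e * o
  odd : ∀ o ∈ O, Odd (orderOf o)
  sur : Function.Surjective π
  ker : ∀ n : N, π n = 1 ↔ (n : G) ∈ O

/-- the images of the conjugates of `e` -/
def Cl {G H : Type*} [Group G] [Group H] (e : G) {N : Subgroup G} (π : N →* H) (w : H) : Prop :=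
  ∃ n : N, π n = w ∧ Cj e (n : G)

/-- what the local analysis uses of the simple group -/
structure FD {H : Type*} [Group H] (e : H) (C : H → Prop) (n m : ℕ) : Prop where
  self : C e
  cj : ∀ w g, C w → C (g * w * g⁻¹)
  sq : ∀ w, C w → w * w = 1 ∧ w ≠ 1
  tr : ∀ w, C w → ∀ P : Subgroup H, IsPGroup 2 P → ∀ hw : w ∈ P, (∀ p ∈ P, p * w = w * p) →
    ∃ f : P →* H, Function.Injective f ∧ f ⟨w, hw⟩ = e
  odd : Odd m
  dvd : Nat.card H ∣ n
  par : ∀ P : Subgroup H, IsPGroup 2 P → ∃ f i, i * Nat.card P = n ∧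
    f * Nat.card P = Set.ncard {w | w ∈ P ∧ C w} * Nat.card 𝐂₀(e) * m ∧ f % 4 = i % 4
  syl : ∀ S : Subgroup H, IsSylowIn 2 S 𝐂₀(e) →
    (∀ w ∈ S, (∀ p ∈ S, p * w = w * p) → C w → w = e) → ∃ k, Odd k ∧ k * Nat.card S = n
  tr4 : ∀ S M : Subgroup H, IsPGroup 2 S → (∃ k, Odd k ∧ k * Nat.card S = n) → M ≤ S →
    M.relIndex S = 2 → (∀ w ∈ S, w * w = 1 → w ∈ M) → ∀ g, g * g = e → ∃ c ∈ M, C (c * c)

/-- the frame when `C(e)` induces an outer automorphism on `L` -/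
structure Fo {H : Type*} [Group H] (L : Subgroup H) (e a b s u x y g : H) : Prop
    extends XR a b s u x, GR a b s u x y g where
  r2 : E2.Rel e a b s u y
  ne : a * a ≠ 1
  mem : ∀ z ∈ [a, b, s, u, x, y], z ∈ L
  eL : e ∉ L
  Le : ∀ l ∈ L, l * e = e * l
  ge : g * e = e * g
  gL : ∀ l ∈ L, g * l * g⁻¹ ∈ L
  gn : g ∉ L ∧ g * e ∉ L
  gg : g * g = 1 ∨ g * g = e
  ce : ∀ h, h * e = e * h → ∃ l ∈ L, h = l ∨ h = l * e ∨ h = l * g ∨ h = l * g * e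
  cL : Nat.card L = 95040
  ct : Nat.card ↥(L ⊓ 𝐂₀(a * a)) ≤ 192

/-- what the construction of `p` and `q` uses -/
structure F3 {H : Type*} [Group H] (φ : E2.E →* H) (x : H) : Prop
    extends XR (φ E2.a) (φ E2.b) (φ E2.s) (φ E2.u) x where
  xe : x * φ E2.e = φ E2.e * x
  inj : Function.Injective φ
  nct : ¬ Cj (φ E2.e) (φ (E2.a * E2.a))
  nm : ∀ r, Act φ r E2.e (E2.e * (E2.a * E2.a)) → Act φ r (E2.a * E2.a) (E2.a * E2.a) →
    ∀ w, ∃ w', Act φ r w w'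
  ran : ∀ r, Act φ r E2.e E2.e → Act φ r E2.a E2.a → ∃ w, φ w = r
  third : ∀ r B, B = E2.b ∨ B = E2.b * (E2.a * E2.a) → List.Forall₂ (Act φ r) [E2.e, E2.a, E2.b, E2.s]
    [E2.e * (E2.a * E2.a), E2.b * E2.b * E2.a⁻¹, B, E2.s] →
    ∃ r', Act φ r' E2.e (E2.e * (E2.a * E2.a)) ∧ Act φ r' E2.a (E2.a * (E2.a * E2.a)) ∧
      Act φ r' (E2.b * E2.b) (E2.b * E2.b)

/-- the outer case with the two new generators -/
structure OQ {H : Type*} [Group H] (L : Subgroup H) (e a b s u x y g p q : H) (μ κ : ℕ) : Prop where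
  fo : Fo L e a b s u x y g
  pq : PQ e a b s u x y p q μ κ
  gg : g * g = 1
  gp : g * p = p * g
  gq : g * q = q * g

/-- the action of `ι = y q y⁻¹` -/
structure OI {H : Type*} [Group H] (e a b s u g p q ι c A S B Q Γ : H) : Prop where
  ii : ι * ι = c
  iu : ι * u = u * ι
  ie : ι * e * ι⁻¹ = s * a⁻¹ * e
  ia : ι * a * ι⁻¹ = A
  ib : ι * b * ι⁻¹ = B
  is : ι * s * ι⁻¹ = S
  ip : ι * p * ι⁻¹ = p
  iq : ι * q * ι⁻¹ = Q
  ig : ι * g * ι⁻¹ = Γ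

open P in
/-- the configuration of the third Conway group times a group of odd order -/
structure CO {G : Type*} [Group G] (φ : P.E →* G) (y : G) (O : Subgroup G) : Prop where
  inj : Function.Injective φ
  yO : List.Forall₂ (Act φ y) [e, a, s, u, v, p, f, i]
    [e, a * s * u * v, u, s * u, a * s, p * s * u, i, i * q⁻¹ * p⁻¹ * b * e]
  cO : ∀ o ∈ O, ∀ z, o * φ z = φ z * o
  cy : ∀ o ∈ O, o * y = y * o
  odd : ∀ o ∈ O, Odd (orderOf o)
  nsq : ∀ g, g * g ≠ φ e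
  m2 : ∃ χ : E2.E →* G, Function.Injective χ ∧ χ E2.e = φ e ∧ χ E2.a = φ a ∧ χ E2.b = φ b ∧
    χ E2.s = φ s ∧ χ E2.u = φ u ∧ χ E2.y = y ∧
    ∀ g, g * φ e = φ e * g → g * φ t = φ t * g → ∃ z, ∃ o ∈ O, g = χ z * o

theorem eqns_CSDefs : True := by
  have := @Cl.eq_1.{0, 0}
  trivial

end H30.CS
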