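import Mathlib
import Cfsg.Agent.Base
import Cfsg.Agent.Lib.Co3S.Defs
import Cfsg.Agent.Lib.Co3M.C2

/-!
# The centraliser of the four-group, up to a central factor of odd order (helper40, plan by helper30)
-/

set_option autoImplicit false
set_option maxRecDepth 100000
set_option linter.unusedSectionVars false

namespace H30.CS

open Subgroup H69 Cfsg H70.TM H30.CM

variable {G : Type*} [Group G] [Finite G] {φ : P.E →* G} {y : G} {O : Subgroup G}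

namespace CvO

open P

theorem zen : ∀ W : E, W * e = e * W → W * a = a * W → W * s = s * W → W * b = b * W →
    W * p = p * W → W * q = q * W → W * W = 1 := by decide +kernel

theorem fy : e * e = 1 ∧ a * a ≠ 1 ∧ a * a * (a * a) = 1 := by decide +kernel

theorem r4 : ∀ r : R11.E, r * r * (r * r) = 1 := by decide +kernel

theorem odd_two {o : G} (ho : Odd (orderOf o)) {k : ℕ} (h : o ^ 2 ^ k = 1) : o = 1 :=
  orderOf_eq_one_iff.1 (((Nat.coprime_two_right.2 ho).pow_right k).eq_one_of_dvd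
    (orderOf_dvd_of_pow_eq_one h))

theorem inv2 {w x o : G} (c : x * o = o * x) (ho : Odd (orderOf o)) {k : ℕ} (hx : x ^ 2 ^ k = 1)
    (h : w * (x * o) * w⁻¹ = (x * o)⁻¹) : w * x * w⁻¹ = x⁻¹ := by
  have k1 : (x * o) ^ orderOf o = x ^ orderOf o := by
    rw [Commute.mul_pow c, pow_orderOf_eq_one, mul_one]
  obtain ⟨m, hm⟩ := exists_pow_eq_self_of_coprime (x := x) (n := orderOf o)
    (Nat.Coprime.coprime_dvd_right (orderOf_dvd_of_pow_eq_one hx)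
      ((Nat.coprime_two_right.2 ho).pow_right k))
  rw [← hm, ← k1, ← conj_pow, ← conj_pow, h, inv_pow, inv_pow]

theorem cancel {g o z : G} (h : g * o * z = z * (g * o)) (c : o * z = z * o) : g * z = z * g := by
  rw [mul_assoc, c, ← mul_assoc, ← mul_assoc] at h
  exact mul_right_cancel h

end CvO

/-- a `2`-element of `range × O` lies in the range -/
theorem CO.two (C : CO φ y O) {z : P.E} {o : G} (ho : o ∈ O) {k : ℕ} (h : (φ z * o) ^ 2 ^ k = 1) :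
    o = 1 := by
  rw [Commute.mul_pow (C.cO o ho z).symm, ← map_pow, mul_eq_one_iff_eq_inv] at h
  have c : ∀ g, z ^ 2 ^ k * g = g * z ^ 2 ^ k := fun g => C.inj (by
    rw [map_mul, map_mul, h]; exact C.cO _ (inv_mem (pow_mem ho _)) g)
  have := congrArg φ (CvO.zen _ (c _) (c _) (c _) (c _) (c _) (c _))
  rw [map_mul, map_one, h, ← mul_inv_rev, inv_eq_one, ← pow_add, ← mul_two, ← pow_succ] at this
  exact CvO.odd_two (C.odd o ho) this

theorem CO.not_cj (C : CO φ y O) : ¬ Cj (φ P.e) (φ P.t) ∧ ¬ Cj (φ P.e) (φ P.v) := by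
  rw [P.defs.1, P.defs.2.1, map_mul, map_mul]
  exact ⟨fun ⟨k, c⟩ => C.nsq (k⁻¹ * φ P.a * k⁻¹⁻¹) (by rw [conj_mul]; exact cj_symm c),
    fun ⟨k, c⟩ => C.nsq (k⁻¹ * φ P.b * k⁻¹⁻¹) (by rw [conj_mul]; exact cj_symm c)⟩

namespace CvO

open P C2

/-- the product of the range and the group of odd order -/
def Yy (C : CO φ y O) : Subgroup G where
  carrier := {g | ∃ z, ∃ o ∈ O, g = φ z * o}
  one_mem' := ⟨1, 1, one_mem _, by simp⟩
  mul_mem' := by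
    rintro _ _ ⟨z, o, ho, rfl⟩ ⟨z', o', ho', rfl⟩
    exact ⟨z * z', o * o', mul_mem ho ho', by
      rw [map_mul, mul_assoc, ← mul_assoc o, C.cO o ho, mul_assoc, mul_assoc]⟩
  inv_mem' := by
    rintro _ ⟨z, o, ho, rfl⟩
    exact ⟨z⁻¹, o⁻¹, inv_mem ho, by rw [mul_inv_rev, ← map_inv, C.cO _ (inv_mem ho)]⟩

variable (C : CO φ y O)
include C

theorem le_Y : φ.range ≤ Yy C := by
  rintro _ ⟨z, rfl⟩
  exact ⟨z, 1, one_mem _, (mul_one _).symm⟩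

theorem mY (k : E) : φ k ∈ Yy C := le_Y C (mr k)

theorem inR {g : G} (hg : g ∈ Yy C) {k : ℕ} (h : g ^ 2 ^ k = 1) : g ∈ φ.range := by
  obtain ⟨z, o, ho, rfl⟩ := hg
  rw [C.two ho h, mul_one]
  exact mr z

theorem ee : φ e * φ e = 1 := by rw [← map_mul, fy.1, map_one]

theorem nsq' {g : G} : ¬ Cj (φ e) (g * g) := fun ⟨k, c⟩ =>
  C.nsq (k⁻¹ * g * k⁻¹⁻¹) (by rw [conj_mul]; exact cj_symm c)

theorem o_cj {o m : G} (ho : o ∈ O) (hm : m ∈ φ.range) : o * m * o⁻¹ = m := by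
  obtain ⟨z, rfl⟩ := hm
  exact cj_iff.2 (C.cO o ho z)

theorem Y_cj {h m : G} (hh : h ∈ Yy C) (hm : m ∈ Rr φ) : h * m * h⁻¹ ∈ Rr φ := by
  obtain ⟨z, o, ho, rfl⟩ := hh
  rw [cj_trans (o_cj C ho (R_le' hm)) rfl]
  exact R_cj (mr z) hm

theorem ofm {k : E} (h : φ k ∈ Cv φ) : k * v = v * k :=
  C.inj (by rw [map_mul, map_mul]; exact mem_c.1 h.2)

theorem ofV {r : R11.E} (h : φ (inl α r) ∈ Vv φ) : inV r := by
  obtain ⟨r', hr, d⟩ := h
  obtain rfl : r' = r := congrArg SE.r (C.inj d)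
  exact hr

theorem G0 {h : G} (hh : h ∈ Cv φ) (he : h * φ e = φ e * h) : h ∈ Yy C := by
  obtain ⟨χ, ci, k1, k2, k3, k4, -, -, k⟩ := C.m2
  obtain ⟨w, o, ho, rfl⟩ := k h he (mem_c.1 hh.1)
  have k5 : χ (E2.b * E2.b) = φ v := by rw [defs.2.1, map_mul, map_mul, k3]
  refine mul_mem (le_Y C ?_) ⟨1, o, ho, by simp⟩
  rw [← E2.inD_of w (ci (by
    rw [map_mul, map_mul _ _ w, k5]; exact cancel (mem_c.1 hh.2) (C.cO o ho v)))]
  exact evw_rel (R := fun w (_ : E2.E) => χ w ∈ φ.range) (.cons (k1 ▸ mr _) (.cons (k2 ▸ mr _)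
    (.cons (k3 ▸ mr _) (.cons (k4 ▸ mr _) .nil)))) (l' := [1, 1, 1, 1]) (map_one χ ▸ one_mem _)
    (fun _ _ _ _ h k => map_mul χ _ _ ▸ mul_mem h k) _ _

theorem G1 {h : G} (hh : h ∈ Cv φ) (he : h * φ e * h⁻¹ ∈ Rr φ) : h ∈ Yy C := by
  obtain ⟨r, he⟩ := he
  have he : h * φ e * h⁻¹ = φ (inl α r) := he.symm
  have c : Cj (φ e) (φ (inl α r)) := ⟨h, he⟩
  rcases fa r (C.inj (by rw [map_mul, map_one]; exact c.sq (ee C))) with d | d | d
  · obtain ⟨g, rfl⟩ := (fV r d).2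
    rw [map_mul, map_mul] at c
    exact absurd c (nsq' C)
  · obtain ⟨k1, k2⟩ := fO r d
    exact (mul_mem_cancel_left (inv_mem (mY C _))).1 (G0 C (mul_mem (inv_mem (mem_Cv k1)) hh)
      (cj_iff.1 (cj_trans he (Act.of_cj φ k2).symm.eq)))
  · exact absurd ((c.trans (Act.of_cj φ d).cj.symm).trans
      (act_w C.yO 0x5 (u := v) (by decide +kernel)).cj.symm) C.not_cj.2

theorem ceni {g : G} (hg : g ∈ Cv φ) (hi : g * φ i = φ i * g) {j : ℕ} (h2 : g ^ 2 ^ j = 1) :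
    g * g = 1 ∧ g ∈ φ.range := by
  obtain ⟨χ, ci, k1, k2, k3, k4, -, -, k⟩ := C.m2
  have a1 : Act φ (y * φ (b * q * p * s * d)) e i := (Act.of_cj φ (by decide +kernel)).trans
    (act_w C.yO 0x7 (u := f) (by decide +kernel))
  have a2 : Act φ (y * φ (b * q * p * s * d)) t t := (Act.of_cj φ (by decide +kernel)).trans
    (act_w C.yO 0x22 (u := t) (by decide +kernel))
  have a3 : Act φ (y * φ (b * q * p * s * d)) v (a * s) :=
    (Act.of_cj φ (by decide +kernel)).trans (act_w C.yO 0x5 (u := v) (by decide +kernel))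
  have a4 : Act φ (y * φ (b * q * p * s * d)) (s * b * a) v :=
    (Act.of_cj φ (by decide +kernel)).trans
      (act_w C.yO 0x45432 (u := a * s * u * v * u) (by decide +kernel))
  have a5 : ∀ o ∈ O, o * (y * φ (b * q * p * s * d)) = y * φ (b * q * p * s * d) * o :=
    fun o ho => comm_mul (C.cy o ho) (C.cO o ho _)
  generalize y * φ (b * q * p * s * d) = m at a1 a2 a3 a4 a5
  have cm : ∀ {p q}, Act φ m p q → g * φ q = φ q * g →
      m⁻¹ * g * m⁻¹⁻¹ * φ p = φ p * (m⁻¹ * g * m⁻¹⁻¹) := fun h c => by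
    rw [← h.symm.eq]; exact cj_comm _ c
  obtain ⟨W, o, ho, hW⟩ := k (m⁻¹ * g * m⁻¹⁻¹) (cm a1 hi) (cm a2 (mem_c.1 hg.1))
  have k5 : χ (E2.s * E2.b * E2.a) = φ (s * b * a) := by simp only [map_mul, k2, k3, k4]
  obtain ⟨w1, w2⟩ := cW W (ci (by
    rw [map_mul, map_mul _ _ W, k5]
    exact cancel (hW ▸ cm a4 (mem_c.1 hg.2)) (C.cO o ho _)))
  have gm : m * χ W * m⁻¹ * o = g := by
    rw [mul_assoc, inv_comm (a5 o ho).symm, ← mul_assoc, mul_assoc m, ← hW]; group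
  have mm : ∀ {p q w}, Act φ m p q → χ w = φ p →
      w ∈ (φ.range.comap (MulAut.conj m).toMonoidHom).comap χ := fun {p q w} h c =>
    show m * χ w * m⁻¹ ∈ φ.range from c ▸ ⟨q, h.eq.symm⟩
  obtain ⟨Z, hZ⟩ : m * χ W * m⁻¹ ∈ φ.range :=
    sp_mem (mm a1 k1) (sp_mem (mm a2 (by rw [defs.1, map_mul, map_mul, k2]))
    (sp_mem (mm a3 (by rw [defs.2.1, map_mul, map_mul, k3])) (List.forall_mem_cons.2
      ⟨one_mem _, List.forall_mem_cons.2 ⟨mm a4 k5, fun _ h => absurd h List.not_mem_nil⟩⟩))) W w2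
  rw [C.two ho (z := Z) (k := j) (by rw [hZ, gm, h2]), mul_one] at gm
  exact ⟨by rw [← gm]; exact cj_sq _ (by rw [← map_mul, w1, map_one]), Z, hZ.trans gm⟩

theorem G2 {h : G} (hh : h ∈ Cv φ) (he : h * φ e * h⁻¹ ∈ Yy C) : h * φ e * h⁻¹ ∈ Rr φ := by
  obtain ⟨Z, he⟩ := inR C he (k := 1) (by rw [pow_one, sq]; exact cj_sq _ (ee C))
  by_cases c : Z.k = 1
  · exact ⟨Z.r, he ▸ congrArg φ (eq_inl c).symm⟩
  obtain ⟨k, k1, k2⟩ := cls (ofm C (he ▸ mul_mem (mul_mem hh (R_le e_mem)) (inv_mem hh))) c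
    (C.inj (by rw [map_mul, map_one, he]; exact cj_sq _ (ee C)))
  have m1 := mul_mem (inv_mem (mem_Cv (φ := φ) k1)) hh
  have m2 := cj_trans he.symm (Act.of_cj φ k2).symm.eq
  generalize (φ k)⁻¹ * h = m at m1 m2
  have := (ceni C (mul_mem (mul_mem m1 (mem_Cv fx.2.2.2.2.2.1)) (inv_mem m1)) (by
    rw [← m2]; exact cj_comm m (by rw [← map_mul, ← map_mul, fx.2.2.2.2.2.2])) (j := 2) (by
    rw [conj_pow, conj_eq_one_iff, ← map_pow, ← map_one φ, ← fy.2.2]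
    exact congrArg φ (show a ^ 4 = _ by simp only [pow_succ, pow_zero, one_mul, mul_assoc]))).1
  rw [conj_mul, conj_eq_one_iff, ← map_mul, map_eq_one_iff φ C.inj] at this
  exact absurd this fy.2.1

theorem mmR {z h h' : G} (hz : z ∈ Cv φ) (hh : h ∈ Cv φ) (hh' : h' ∈ Cv φ)
    (hx : h * φ e * h⁻¹ ∈ Rr φ) (z2 : z * z ∈ Rr φ)
    (e2 : z * (h * φ e * h⁻¹) * z⁻¹ = z * z * (h * φ e * h⁻¹))
    (e3 : z * (h * φ e * h⁻¹) = h' * φ e * h'⁻¹) : z ∈ Rr φ := by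
  have h1 : z ∈ Yy C := (mul_mem_cancel_right (G1 C hh hx)).1
    (G1 C (mul_mem hz hh) (cj_trans rfl e2 ▸ mul_mem z2 hx))
  exact (mul_mem_cancel_right hx).1 (e3 ▸ G2 C hh' (e3 ▸ mul_mem h1 (le_Y C (R_le' hx))))

theorem fin {g : G} (hg : g ∈ Cv φ) : g ∈ Yy C := by
  by_contra ng
  obtain ⟨U, mU⟩ : ∃ U : Subgroup G, ∀ {m}, m ∈ U ↔ m ∈ Rr φ ∧ g⁻¹ * m * g⁻¹⁻¹ ∈ Rr φ :=
    ⟨Rr φ ⊓ (Rr φ).comap (MulAut.conj g⁻¹).toMonoidHom, Iff.rfl⟩
  have VU : Vv φ ≤ U := fun m hm => mU.2 ⟨V_le hm, by rw [cV (inv_mem hg) hm]; exact V_le hm⟩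
  have U0 : ∀ h ∈ Cv φ, h * φ e * h⁻¹ ∉ U := fun h hh c => ng (inv_mem_iff.1
    ((mul_mem_cancel_right (G1 C hh (mU.1 c).1)).1
      (G1 C (mul_mem (inv_mem hg) hh) (by rw [cj_trans (g := h) (k := g⁻¹) rfl rfl]; exact (mU.1 c).2))))
  have U1 : ∀ r, φ (inl α r) ∈ U → ¬ inO r := fun r c d =>
    U0 _ (mem_Cv (fO r d).1) ((Act.of_cj φ (fO r d).2).eq ▸ c)
  have RK : Rr φ ≤ KU φ U := fun h hh => ⟨R_le hh, fun m hm => R_comm hh (mU.1 hm).1⟩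
  have OK : O ≤ KU φ U := fun o ho => ⟨⟨mem_c.2 (C.cO o ho _), mem_c.2 (C.cO o ho _)⟩, fun m hm => by
    rw [o_cj C ho (R_le' (mU.1 hm).1), mul_inv_cancel]; exact one_mem _⟩
  have yC := mul_mem (mul_mem hg (R_le (φ := φ) e_mem)) (inv_mem hg)
  have yK : g * φ e * g⁻¹ ∈ KU φ U := ⟨yC, fun m hm => by
    have := R_comm e_mem (mU.1 hm).2
    rw [← cV hg this] at this
    convert this using 1
    group⟩
  have D : ∀ k ∈ Cv φ, k * φ e * k⁻¹ ∈ Rr φ → ∃ w ∈ KU φ U, w * w = 1 ∧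
      w * (k * φ e * k⁻¹) * w⁻¹ * (g * φ e * g⁻¹) ∈ U := fun k hk hx => by
    rcases dih (cj_sq k (ee C)) (cj_sq g (ee C)) U with ⟨w, w1, w2⟩ |
      ⟨z, z1, z2, z3, z4, z5, ⟨g1, a1, b1⟩, g2, a2, b2⟩
    · exact ⟨w, w1 _ (RK hx) yK, w2⟩
    have zC := z1 _ (R_le hx) yC
    have a1 := a1 _ (R_le hx) yC
    have a2 := a2 _ (R_le hx) yC
    have cc : ∀ {g' u}, g' ∈ Cv φ → u = g' * (k * φ e * k⁻¹) * g'⁻¹ ∨
        u = g' * (g * φ e * g⁻¹) * g'⁻¹ → ∃ h ∈ Cv φ, u = h * φ e * h⁻¹ := fun a b =>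
      b.elim (fun b => ⟨_, mul_mem a hk, (cj_trans rfl b.symm).symm⟩)
        fun b => ⟨_, mul_mem a hg, (cj_trans rfl b.symm).symm⟩
    obtain ⟨h1, c1, d1⟩ := cc a1 b1
    obtain ⟨h2, c2, d2⟩ := cc a2 b2
    refine absurd (mU.2 ⟨mmR C zC hk c1 hx (mU.1 z3).1 z4 d1, mmR C (h := 1) (h' := g⁻¹ * h2)
      (mul_mem (mul_mem (inv_mem hg) zC) (inv_mem (inv_mem hg))) (one_mem _)
      (mul_mem (inv_mem hg) c2) (by simpa using e_mem) (by rw [conj_mul]; exact (mU.1 z3).2) ?_ ?_⟩) z2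
    · calc _ = g⁻¹ * (z * (g * φ e * g⁻¹) * z⁻¹) * g := by group
        _ = _ := by rw [z5]; group
    · calc _ = g⁻¹ * (z * (g * φ e * g⁻¹)) * g := by group
        _ = _ := by rw [d2]; group
  obtain ⟨w, wK, w2, wU⟩ := D 1 (one_mem _) (by simpa using e_mem)
  rw [one_mul, inv_one, mul_one] at wU
  have wi : w⁻¹ = w := inv_eq_of_mul_eq_one_right w2
  have D2 : ∀ r, inO r → ∃ Z : E, φ Z ∈ KU φ U ∧ (∃ o ∈ O, w * (φ Z * o) * w⁻¹ = (φ Z * o)⁻¹) ∧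
      φ (inl α (Z.r * α.act Z.k R11.e * Z.r⁻¹ * r)) ∈ U := fun r hr => by
    have k := (Act.of_cj φ (fO r hr).2).eq
    obtain ⟨w', wK', w2', wU'⟩ := D _ (mem_Cv (fO r hr).1) ⟨r, k.symm⟩
    have r2 := cj_sq (φ (cjt r)) (ee C)
    rw [k] at wU' r2
    have wi' : w'⁻¹ = w' := inv_eq_of_mul_eq_one_right w2'
    have m := mul_mem wU (inv_mem wU')
    have m' := mul_mem (VU (wK'.2 _ m)) m
    have m'' : w' * w * φ e * (w' * w)⁻¹ * φ (inl α r) ∈ U := by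
      convert m' using 1
      nth_rewrite 1 [← inv_eq_of_mul_eq_one_right r2]
      calc _ = w' * w * φ e * w⁻¹ * w'⁻¹ * (φ (inl α r))⁻¹ * (w' * w')⁻¹ := by rw [w2']; group
        _ = w' * w * φ e * w⁻¹ * w' * (φ (inl α r))⁻¹ * (w' * w')⁻¹ := by rw [wi']
        _ = _ := by group
    obtain ⟨Z, o, ho, hZ⟩ := G1 C (mul_mem wK' wK).1
      ((mul_mem_cancel_right (show _ ∈ Rr φ from ⟨r, rfl⟩)).1 (mU.1 m'').1)
    refine ⟨Z, (mul_mem_cancel_right (OK ho)).1 (hZ ▸ mul_mem wK' wK), ⟨o, ho, by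
      rw [← hZ, mul_inv_rev, wi', wi, ← mul_assoc, mul_assoc, w2, mul_one]⟩, ?_⟩
    rw [hZ, cj_trans (o_cj C ho (mr e)) rfl] at m''
    rwa [map_mul, ← cj_inl, map_mul, map_mul, map_mul, map_inv]
  have UV : U ≤ Vv φ := fun m hm => by
    obtain ⟨r, rfl⟩ := (mU.1 hm).1
    obtain ⟨Z, z1, -, z3⟩ := D2 _ fx.1
    have k : ∀ u, φ (inl α u) ∈ U → inV (α.act Z.k u * u⁻¹) := fun u hu => red (r := Z.r) (ofV C (by
      rw [map_mul, ← cj_inl, map_inv, map_mul, map_mul, map_mul, map_inv, map_inv]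
      exact z1.2 _ hu))
    rcases fUV Z.k (fK Z (ofm C z1.1)) _ (by
      rw [mul_assoc]; exact red (r := Z.r) (by rw [← mul_assoc, mul_inv_cancel]; exact fx.2.2.2.1))
      (k _ z3) with d | d
    · exact absurd d (U1 _ z3)
    rcases d r (k r hm) with d | d | d
    · exact ⟨r, d, rfl⟩
    · exact absurd d (U1 _ hm)
    · exact absurd d (U1 _ (by rw [map_mul, map_mul]; exact mul_mem hm z3))
  obtain ⟨Z, z1, ⟨o, ho, z2⟩, z3⟩ := D2 _ fx.2.1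
  have zk := fn Z.k (fK Z (ofm C z1.1)) (red (ofV C (UV z3)))
  have zz : Z * Z = inl α (Z * Z).r := eq_inl (show Z.k * Z.k = 1 by rw [zk]; exact fx.2.2.1)
  have z8 : φ Z ^ 2 ^ 3 = 1 := by
    have := congrArg (inl α) (r4 (Z * Z).r)
    rw [map_mul, map_mul, map_one, ← zz] at this
    rw [← map_pow, ← map_one φ, ← this]
    exact congrArg φ (show Z ^ 8 = _ by simp only [pow_succ, pow_zero, one_mul, mul_assoc])
  replace z2 := inv2 (C.cO o ho Z).symm (C.odd o ho) z8 z2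
  have zR : φ (Z * Z) ∈ Rr φ := ⟨_, congrArg φ zz.symm⟩
  have gw : g⁻¹ * w ∈ Yy C := G1 C (mul_mem (inv_mem hg) wK.1) (by
    have := mul_mem (mU.1 wU).2 (inv_mem e_mem)
    convert this using 1
    group)
  have zU : φ (Z * Z) ∈ U := mU.2 ⟨zR, by
    have := Y_cj C gw (inv_mem zR)
    convert this using 1
    have k : φ (Z * Z) = w * (φ (Z * Z))⁻¹ * w⁻¹ := by
      rw [← conj_inv, map_mul, ← conj_mul, z2, mul_inv_rev, inv_inv]
    nth_rewrite 1 [k]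
    group⟩
  obtain ⟨m, hm⟩ := cls2 zk (ofV C (UV (zz ▸ zU)))
  have z4 : φ Z * φ Z = 1 := by rw [← map_mul, ← hm, cj_sq _ fx.2.2.2.2.1, map_one]
  rw [inv_eq_of_mul_eq_one_right z4] at z2
  have mC := mem_Cv (φ := φ) (fcv m)
  have := (ceni C (mul_mem (mul_mem (inv_mem mC) wK.1) (inv_mem (inv_mem mC))) (by
    rw [← (Act.of_cj φ hm).symm.eq]; exact cj_comm _ (cj_iff.1 z2)) (j := 1)
    (by rw [pow_one, sq]; exact cj_sq _ w2)).2
  exact ng (inv_mem_iff.1 ((mul_mem_cancel_right (le_Y C ((mul_mem_cancel_left (inv_mem (mr _))).1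
    ((mul_mem_cancel_right (inv_mem (inv_mem (mr _)))).1 this)))).1 gw))

end CvO

theorem CO.cv (C : CO φ y O) {g : G} (h1 : g * φ P.t = φ P.t * g) (h2 : g * φ P.v = φ P.v * g) :
    ∃ z, ∃ o ∈ O, g = φ z * o :=
  CvO.fin C ⟨mem_c.2 h1, mem_c.2 h2⟩

theorem eqns_CSC2 : True := by
  have := @CvO.Yy.eq_1.{0}
  trivial

end H30.CS
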