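import Mathlib
import Cfsg.Agent.Base
import Cfsg.Agent.Lib.Co3S.Defs
import Cfsg.Agent.Lib.Co3M.CA

/-! The group of order 9216, keeping track of `e`. -/

set_option autoImplicit false
set_option maxRecDepth 100000
set_option linter.unusedSectionVars false

namespace H30.CS

open Subgroup H69 Cfsg H70.TM H30.CM

section
open R11 H1

variable {G : Type*} [Group G] [Finite G] {ψ : E →* G} {u x y : G} (F : Pre ψ u x y)
include F

theorem ca2 (hB : Act ψ (y * ψ (q * b * a) * y⁻¹) b (q⁻¹ * a * e))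
    (hQ : Act ψ (y * ψ (q * b * a) * y⁻¹) q (p⁻¹ * s * b * a * e)) :
    ∃ (φ : P.E →* G) (x y : G), CA φ x y ∧ φ P.e = ψ e := by
  obtain ⟨ku, B, Q, L, -⟩ := F.ai
  obtain ⟨-, -, -, -, hu⟩ := F.modH
  have ii : y * ψ (q * b * a) * y⁻¹ * (y * ψ (q * b * a) * y⁻¹) = 1 :=
    cj_sq _ (by rw [← map_mul, show q * b * a * (q * b * a) = 1 by decide +kernel, map_one])
  generalize hi : y * ψ (q * b * a) * y⁻¹ = i at *
  have L' := L
  simp only [List.forall₂_cons] at L'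
  obtain rfl := act_inj F.inj hB L'.2.2.1
  obtain rfl := act_inj F.inj hQ L'.2.2.2.2.2.1
  have ai : ∀ r, Act ψ i r (gi r) := fun r => (act_ap L r).to (maps r).1
  have i1 : i⁻¹ = i := inv_eq_of_mul_eq_one_right ii
  have aj : ∀ r, Act ψ (i * (x * (i * x⁻¹))) r (gj r) := fun r =>
    (((F.aX r).trans (ai _)).trans (F.ax' _)).trans (ai _)
  have ak : ∀ r, Act ψ (i * (x⁻¹ * (i * x))) r (gk r) := fun r =>
    (((F.ax' r).trans (ai _)).trans (F.aX _)).trans (ai _)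
  have V2 : ∀ z ∈ [1, a * a, b * b, a * a * (b * b)], z * z = 1 ∧ gj z = z ∧ gk z = z ∧ gi z = z := by
    decide +kernel
  have c3 : ∀ {g : G} {f : E → E}, (∀ r, Act ψ g r (f r)) → (∀ r, f (f (f r)) = r) →
      g * g * (g * g) * (g * g) = 1 := fun {g f} h c => by
    obtain ⟨z, hz, k⟩ := F.cenR fun r => (((h r).trans (h _)).trans (h _)).to (c r)
    calc _ = g * (g * g) * (g * (g * g)) := by simp only [mul_assoc]
      _ = 1 := by rw [← k, ← map_mul, (V2 z hz).1, map_one]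
  have inv : ∀ {j : G}, j * j = 1 → (∀ z ∈ [1, a * a, b * b, a * a * (b * b)], Act ψ (i * j) z z) →
      i * ψ (b * b) * (i * j * (i * j)) * (i * ψ (b * b)) = (i * j * (i * j))⁻¹ := fun {j} jj h => by
    have h1 := (h (b * b) (by simp)).fix
    have h2 := ((ai (b * b)).to (V2 _ (by simp)).2.2.2).fix
    have h3 : ψ (b * b) * ψ (b * b) = 1 := by rw [← map_mul, (V2 _ (by simp)).1, map_one]
    rw [mul_assoc i, ← mul_comm' h1 h1, mul_assoc, mul_assoc _ (ψ _), ← mul_assoc (ψ _), ← h2,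
      mul_assoc i (ψ _), h3, mul_one, mul_inv_rev, mul_inv_rev, i1, inv_eq_of_mul_eq_one_right jj]
    simp only [← mul_assoc, ii, one_mul]
  have hj := inv (j := x * (i * x⁻¹)) (by rw [← mul_assoc x]; exact cj_sq _ ii)
    fun z hz => (aj z).to (V2 z hz).2.1
  have hk := inv (j := x⁻¹ * (i * x)) (by simpa only [inv_inv, mul_assoc] using cj_sq x⁻¹ ii)
    fun z hz => (ak z).to (V2 z hz).2.2.1
  have ww : u * ψ e * (u * ψ e) = 1 := by
    rw [mul_assoc, ← mul_assoc (ψ e), F.fr.r2.2.2.2.2.2.2.2.2.2.2.2.2.2.2.1, mul_assoc, F.fr.ee, mul_one, F.uu]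
  have w1 : (u * ψ e)⁻¹ = u * ψ e := inv_eq_of_mul_eq_one_right ww
  have wi : u * ψ e * i * (u * ψ e)⁻¹ = i * ψ (a * a) := by
    have : i * (u * ψ e) * i⁻¹ = u * ψ e * ψ (a * a) := by
      rw [← conj_mul, ku, (ai e).eq, mul_assoc, mul_assoc, ← map_mul, ← map_mul]
      exact congrArg (u * ψ ·) (by decide +kernel)
    rw [w1, mul_assoc, ← mul_inv_cancel_right (i * (u * ψ e)) i⁻¹, this, ← mul_assoc, ← mul_assoc, ww,
      one_mul, inv_inv, ((ai _).to (V2 _ (by simp)).2.2.2).fix]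
  have wx : u * ψ e * x * (u * ψ e)⁻¹ = x⁻¹ := by
    rw [mul_assoc u, ← F.fr.xe, mul_inv_rev, F.ui, ← F.fr.ux]; group
  have hw : u * ψ e * (i * (x * (i * x⁻¹)) * (i * (x * (i * x⁻¹)))) * (u * ψ e) =
      i * (x⁻¹ * (i * x)) * (i * (x⁻¹ * (i * x))) := by
    have k1 : u * ψ e * (i * (x * (i * x⁻¹))) * (u * ψ e)⁻¹ = ψ (b * b) * (i * (x⁻¹ * (i * x))) := by
      have k2 := ((F.aX (a * a)).to (show _ = a * a * (b * b) by decide +kernel)).eq
      have k3 := ((ai _).to (V2 (a * a) (by simp)).2.2.2).fix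
      have k4 := ((ak _).to (V2 (a * a * (b * b)) (by simp)).2.2.1).fix
      rw [← conj_mul, ← conj_mul, ← conj_mul, ← conj_inv, wi, wx, k3]
      calc _ = ψ (a * a) * (i * (x⁻¹ * (ψ (a * a) * i * x))) := by simp only [mul_assoc, inv_inv]
        _ = ψ (a * a) * (i * (x⁻¹ * (i * x)) * (x⁻¹ * ψ (a * a) * x⁻¹⁻¹)) := by rw [← k3]; group
        _ = _ := by
          rw [k2, k4, ← mul_assoc, ← map_mul]
          exact congrArg (ψ · * _) (by decide +kernel)
    have k5 := ((ak _).to (V2 (b * b) (by simp)).2.2.1).fix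
    nth_rewrite 2 [← w1]
    rw [← conj_mul, k1, mul_assoc, ← mul_assoc (i * _), k5, mul_assoc (ψ _), ← mul_assoc (ψ _), ← map_mul,
      (V2 _ (by simp)).1, map_one, one_mul]
  have hcd : i * (x * (i * x⁻¹)) * (i * (x * (i * x⁻¹))) * (i * (x⁻¹ * (i * x)) * (i * (x⁻¹ * (i * x)))) =
      i * (x⁻¹ * (i * x)) * (i * (x⁻¹ * (i * x))) * (i * (x * (i * x⁻¹)) * (i * (x * (i * x⁻¹)))) := by
    have k3 := c3 ak fun r => (rows r).2.2.2.2.2
    have ac := fun r => (aj r).trans (aj _)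
    have ad := fun r => (ak r).trans (ak _)
    generalize i * (x * (i * x⁻¹)) * (i * (x * (i * x⁻¹))) = c at *
    generalize i * (x⁻¹ * (i * x)) * (i * (x⁻¹ * (i * x))) = d at *
    obtain ⟨z, hz, k⟩ := F.cenR (g := (d * c)⁻¹ * (c * d)) fun r => ((ad r).trans (ac _)).trans
      (((ac r).trans (ad _)).to ((by decide +kernel : ∀ r, gk (gk (gj (gj r))) = gj (gj (gk (gk r)))) r)).symm
    have k1 : Commute (ψ z) d := ((ad z).to (by rw [(V2 z hz).2.2.1, (V2 z hz).2.2.1])).fix.symm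
    have k2 : Commute (ψ z) c := ((ac z).to (by rw [(V2 z hz).2.1, (V2 z hz).2.1])).fix.symm
    have k4 : c * d * c⁻¹ = ψ z * d := by
      rw [mul_inv_eq_iff_eq_mul, mul_assoc, (k1.mul_right k2).eq, k]; group
    have k5 : ψ z * ψ z = 1 := by rw [← map_mul, (V2 z hz).1, map_one]
    have k6 : (ψ z * d) ^ 3 = 1 := by rw [← k4, conj_pow, pow_three', k3]; simp
    rw [k1.mul_pow, pow_three' d, k3, mul_one, pow_three', k5, one_mul] at k6
    rw [k6, one_mul] at k4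
    exact cj_iff.1 k4
  have nv := ((ai (b * b)).to (V2 _ (by simp)).2.2.2).fix
  have vv : ψ (b * b) * ψ (b * b) = 1 := by rw [← map_mul, (V2 _ (by simp)).1, map_one]
  obtain ⟨g, g1, g2, g3, g4⟩ := K36.model (n' := i * ψ (b * b)) (w' := u * ψ e) ⟨by
      rw [mul_assoc, ← mul_assoc (ψ _), ← nv, mul_assoc, vv, mul_one, ii], ww, by
      refine (cj_iff.1 ?_).symm
      rw [← conj_mul, wi, ((Act.self ψ e (b * b)).trans (hu _)).eq, mul_assoc, ← map_mul]
      exact congrArg (i * ψ ·) (by decide +kernel),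
    c3 aj fun r => (rows r).2.2.2.2.1, c3 ak fun r => (rows r).2.2.2.2.2, hcd, hj, hk, hw⟩
  have c := compat (α := P.α) (f := ψ) (g := g) (List.forall_mem_cons.2 ⟨fun r _ =>
    g1.symm ▸ ((Act.self ψ _ _).trans (ai _)).to (rows _).1, List.forall_mem_cons.2 ⟨fun r _ =>
    g2.symm ▸ ((Act.self ψ _ _).trans (hu _)).to (rows _).2.1, List.forall_mem_cons.2 ⟨fun r _ =>
    g3.symm ▸ ((aj _).trans (aj _)).to (rows _).2.2.1, List.forall_mem_cons.2 ⟨fun r _ =>
    g4.symm ▸ ((ak _).trans (ak _)).to (rows _).2.2.2.1, fun _ h => absurd h List.not_mem_nil⟩⟩⟩⟩)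
  have h1 : ∀ r, lift P.α ψ g c ⟨r, 1⟩ = ψ r := lift_inl c
  have h2 : ∀ k, lift P.α ψ g c ⟨1, k⟩ = g k := lift_inr c
  generalize lift P.α ψ g c = φ at h1 h2
  have hu' : φ P.u = u := by
    rw [P.defs.2.2.1, map_mul, P.w, P.e, h1, h2, g2, mul_assoc, F.fr.ee, mul_one]
  refine ⟨φ, x, y, ⟨(injective_iff_map_eq_one φ).2 fun z hz => ?_, ?_, ?_, ?_⟩, h1 _⟩
  · have m : ∀ r, z * ⟨r, 1⟩ = ⟨r, 1⟩ * z := fun r => cj_iff.1 (by
      have k := eq_inl (u := z * ⟨r, 1⟩ * z⁻¹) (show z.k * 1 * z.k⁻¹ = 1 by simp)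
      rw [k]
      refine congrArg (inl P.α) (F.inj ((h1 _).symm.trans ((congrArg φ k.symm).trans ?_)))
      rw [map_mul, map_mul, map_inv, hz, h1]; simp)
    have := eq_inl (faith z (m _) (m _) (m _) (m _) (m _) (m _))
    rw [this] at hz ⊢
    rw [F.inj (((h1 _).symm.trans hz).trans (map_one ψ).symm), map_one]
  · rw [hu', P.e, P.a, P.b, P.s, h1, h1, h1, h1]; exact F.fr
  · rw [Act, map_mul, map_mul, hu', P.p, P.s, h1, h1, F.yp, map_mul]
  · rw [Act, P.defs.2.2.2.1, P.defs.2.2.2.2]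
    simp only [map_mul, P.q, P.b, P.a, P.n, h1, h2, g1]
    simp only [← map_mul]
    rw [hi, mul_assoc, vv, mul_one]

theorem swap2 (hB : Act ψ (y * ψ (q * b * a) * y⁻¹) b (q⁻¹ * a⁻¹ * e))
    (hQ : Act ψ (y * ψ (q * b * a) * y⁻¹) q (p * s * b * a * e)) :
    ∃ (φ : P.E →* G) (x y : G), CA φ x y ∧ φ P.e = ψ e := by
  obtain ⟨-, B, Q, L, -⟩ := F.ai
  obtain ⟨χ, h1, h2, hJ, hu⟩ := F.modH
  have L' := L
  simp only [List.forall₂_cons] at L'
  obtain rfl := act_inj F.inj hB L'.2.2.1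
  obtain rfl := act_inj F.inj hQ L'.2.2.2.2.2.1
  obtain ⟨σ, s1, s2, s3, s4, s5, s6⟩ := model (e' := e) (a' := a * (b * b)) (b' := a * a * (b * b) * b)
    (s' := s) (p' := p) (q' := q) (by decide +kernel)
  have k : ∀ {g : G} {r z r' z'}, Act ψ g r' z' → σ r = r' ∧ σ z = z' → Act (ψ.comp σ) g r z :=
    fun h c => by rwa [← c.1, ← c.2] at h
  have us : ∀ r, Act ψ (u * ψ s) r (α.act K4.w (s * r * s⁻¹)) := fun r => (Act.self ψ s r).trans (hu _)
  have yt : Act ψ y (a * a) (a * a) := by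
    have := act_w hJ 0x22 (u := ι (a * a)) (w := ι (a * a)) (by decide +kernel)
    rwa [Act, h1] at this
  have ye : y * ψ e = ψ e * y := F.fr.r2.2.2.2.2.2.2.2.2.2.2.2.2.2.2.2.2.2.2.2.2.2
  have F' : Pre (ψ.comp σ) (u * ψ s) x (ψ b * y * (ψ b)⁻¹) := by
    refine ⟨?_, k (us p) ?_, k (us q) ?_, k F.xp ⟨s5, s6⟩, k F.xq ⟨s6, ?_⟩, ?_⟩
    · simp only [MonoidHom.comp_apply, s1, s2, s3, s4]
      have aa : ψ (a * (b * b)) * ψ (a * (b * b)) = ψ a * ψ a := by
        simp only [← map_mul]; exact congrArg ψ (by decide +kernel)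
      refine ⟨⟨F.fr.x3, (F.ax' _).to (by decide +kernel), ?_, F.fr.xs, ?_⟩, ?_, F.fr.xe, aa ▸ F.fr.ne,
        F.fr.nsq, F.fr.c1, aa ▸ F.fr.c2⟩
      · rw [← map_inv, ← map_inv, ← map_mul]; exact (F.ax' _).to (by decide +kernel)
      · rw [mul_assoc u, ← F.fr.xs, F.fr.r2.2.2.2.2.2.2.2.2.2.1, ← F.fr.ux]
        simp only [mul_assoc]
        rw [← mul_assoc (ψ s), F.fr.r2.2.2.2.1, one_mul]
      · obtain ⟨θ, -, t1, t2, t3, t4, t5, t6, -⟩ := F.fr.mod2
        simp only [map_mul]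
        rw [← t1, ← t2, ← t3, ← t4, ← t5, ← t6]
        open E2 in simpa only [map_mul, map_inv] using (show E2.Rel E2.e (E2.a * (E2.b * E2.b))
          (E2.a * E2.a * (E2.b * E2.b) * E2.b) E2.s (E2.u * E2.s) (E2.b * E2.y * E2.b⁻¹) by
            decide +kernel).map θ
    · rw [s5]; decide +kernel
    · rw [map_mul, map_inv, map_inv, s5, s6]; decide +kernel
    · rw [map_mul, map_inv, map_inv, s5, s6]
    · have := ((Act.self χ (ι b)⁻¹ (ι p)).trans (act_w hJ 0x1561 (w := ι (p * a) * H1.u)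
        (by decide +kernel))).trans (Act.of_cj χ (show ι b * _ * _ = ι (p * s) * (H1.u * ι s) by
          decide +kernel))
      simp only [Act, map_mul, map_inv, h1, h2] at this
      simp only [MonoidHom.comp_apply, map_mul, s4, s5]
      rwa [mul_assoc (ψ b) y]
  have e1 : ψ b * y * (ψ b)⁻¹ * ψ.comp σ (q * b * a) * (ψ b * y * (ψ b)⁻¹)⁻¹ =
      ψ (b * e) * (y * ψ (q * b * a) * y⁻¹ * ψ (a * a)) * (ψ (b * e))⁻¹ := by
    have : ψ.comp σ (q * b * a) = ψ b * (ψ e * (ψ (q * b * a) * ψ (a * a)) * (ψ e)⁻¹) * (ψ b)⁻¹ := by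
      simp only [MonoidHom.comp_apply, map_mul σ, s2, s3, s6, ← map_inv, ← map_mul ψ]
      exact congrArg ψ (by decide +kernel)
    rw [this, map_mul ψ b]
    nth_rewrite 2 [← yt.eq]
    calc _ = ψ b * (y * ψ e * (ψ (q * b * a) * ψ (a * a)) * (y * ψ e)⁻¹) * (ψ b)⁻¹ := by group
      _ = _ := by rw [ye]; group
  have e2 := fun r => (((Act.self ψ (b * e)⁻¹ r).trans (Act.self ψ (a * a) _)).trans
    (act_ap L _)).trans (Act.self ψ (b * e) _)
  simp only [map_inv, ← mul_assoc] at e2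
  rw [show ψ e = ψ.comp σ e from congrArg ψ s1.symm]
  refine ca2 F' ?_ ?_ <;> rw [e1] <;> simp only [← mul_assoc] <;> refine k (e2 _) ⟨rfl, ?_⟩ <;>
    simp only [map_mul, map_inv, s1, s2, s3, s4, s5, s6] <;> decide +kernel

end

variable {H : Type*} [Group H] [Finite H] {L : Subgroup H} {e a b s u x y g p q : H}
  {C : H → Prop} {n m : ℕ}

theorem exists_ca2 (F : Fr e a b s u x y) (hP : PQ e a b s u x y p q 1 1) :
    ∃ (φ : P.E →* H) (x y : H), CA φ x y ∧ φ P.e = e := by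
  obtain ⟨r0, r1, r2, r3, r4, r5, uu, -, -, us, r6, r7, r8, r9, -, -, -, -, -, yu, -⟩ := F.r2
  obtain ⟨ψ, rfl, rfl, rfl, rfl, rfl, rfl⟩ := R11.model ⟨r0, r1, r2, r3, r4, r5, r6, r7, r8, r9,
    hP.pe, hP.ps, by simpa only [pow_one] using hP.pa,
    by simpa only [pow_one] using hP.pb, by simpa only [pow_one] using hP.pp, hP.qe, hP.qs,
    by simpa only [pow_one] using hP.qa, by simpa only [pow_one] using hP.qb,
    by simpa only [pow_one] using hP.qq, hP.pq⟩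
  have ui : u⁻¹ = u := inv_eq_of_mul_eq_one_right uu
  have up : u * ψ R11.p = ψ R11.p * u := cj_iff.1 (ui.symm ▸ hP.up)
  have H0 : Pre ψ u x y := ⟨F, act_of_comm up, by simpa only [Act, ui, map_mul, map_inv] using hP.uq,
    hP.xp, by simpa only [Act, map_mul, map_inv] using hP.xq, by
      have := hP.py
      rw [pow_one, mul_inv_eq_iff_eq_mul] at this
      have k : ψ R11.s * u * (y * ψ R11.p * y⁻¹) = ψ R11.p := by
        rw [← yu, conj_mul, ← mul_assoc, ← this, mul_inv_cancel_right]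
      rw [eq_inv_mul_of_mul_eq k, mul_inv_rev, ui, inv_eq_of_mul_eq_one_right r3, map_mul, us,
        mul_assoc, up, ← mul_assoc, ← hP.ps]⟩
  obtain ⟨-, B, Q, L, h⟩ := H0.ai
  simp only [List.forall₂_cons] at L
  rcases h with ⟨rfl, rfl⟩ | ⟨rfl, rfl⟩
  exacts [ca2 H0 L.2.2.1 L.2.2.2.2.2.1, swap2 H0 L.2.2.1 L.2.2.2.2.2.1]

end H30.CS
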