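import Mathlib
import Cfsg.Agent.Base
import Cfsg.Agent.Lib.Co3S.Defs
import Cfsg.Agent.Lib.Inv73.Transfer
import Cfsg.Agent.Lib.Invol.Dihedral
import Cfsg.Agent.Lib.Transfer.Control

/-!
# What the local analysis uses of the simple group (helper22, for helper30's project)
-/

set_option autoImplicit false
set_option maxRecDepth 100000
set_option linter.unusedSectionVars false

namespace H30.CS

open Subgroup H69 Cfsg H70.TM H30.CM

theorem fd_one_of_odd {G : Type*} [Group G] {z : G} (ho : Odd (orderOf z)) {k : ℕ}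
    (h : z ^ 2 ^ k = 1) : z = 1 := by
  have h1 := orderOf_dvd_of_pow_eq_one h
  have h2 : Nat.Coprime (orderOf z) (2 ^ k) := (Nat.coprime_two_right.2 ho).pow_right k
  exact orderOf_eq_one_iff.1 (h2.eq_one_of_dvd h1)

namespace GQ

variable {G H : Type*} [Group G] [Finite G] [Group H] [Finite H] {e : G} {O N : Subgroup G}
  {π : N →* H} {e' : H} (Q : GQ e O N π e')
include Q

theorem eN' : e ∈ N := Q.eN e rfl

theorem ON : O ≤ N := by
  rw [Q.hN]; exact le_normalizer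

theorem one_of_two {n : N} (h : π n = 1) {k : ℕ} (h2 : n ^ 2 ^ k = 1) : n = 1 := by
  have := fd_one_of_odd (Q.odd _ ((Q.ker n).1 h)) (k := k) (by rw [← coe_pow, h2, coe_one])
  exact Subtype.ext this

theorem ee' : e' * e' = 1 := by
  rw [← Q.pe Q.eN', ← map_mul]
  rw [show (⟨e, Q.eN'⟩ : N) * ⟨e, Q.eN'⟩ = 1 from Subtype.ext Q.ee, map_one]

theorem inv_eq {n : N} (h : π n = e') (h2 : (n : G) * n = 1) : (n : G) = e := by
  have h1 : π (n * ⟨e, Q.eN'⟩) = 1 := by rw [map_mul, h, Q.pe, Q.ee']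
  have h3 : (n : G) * e * e = e * (n * e) := Q.Oe _ ((Q.ker _).1 h1)
  have h4 : (n : G) * e = 1 := by
    refine fd_one_of_odd (Q.odd _ ((Q.ker _).1 h1)) (k := 1) ?_
    show ((n : G) * e) ^ 2 ^ 1 = 1
    rw [pow_one, pow_two, mul_assoc, ← h3, mul_assoc (n : G) e e, Q.ee, mul_one, h2]
  rw [← mul_left_inj e, h4, Q.ee]

theorem comm_iff (n : N) : π n * e' = e' * π n ↔ (n : G) * e = e * n := by
  constructor
  · intro h
    have h1 : π (n * ⟨e, Q.eN'⟩ * n⁻¹) = e' := by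
      rw [map_mul, map_mul, map_inv, Q.pe, h, mul_inv_cancel_right]
    exact cj_iff.1 (Q.inv_eq h1 (cj_sq _ Q.ee))
  · intro h
    rw [← Q.pe Q.eN', ← map_mul, ← map_mul]
    exact congrArg π (Subtype.ext h)

theorem lift {P : Subgroup H} (hP : IsPGroup 2 P) {n : N} (hn : π n ∈ P) {k : ℕ}
    (h2 : n ^ 2 ^ k = 1) : ∃ σ : P →* N, (∀ p, π (σ p) = p) ∧ σ ⟨π n, hn⟩ = n := by
  have hz : IsPGroup 2 (zpowers n) := isP_of_pow k (by
    rintro _ ⟨j, rfl⟩
    show (n ^ j) ^ 2 ^ k = 1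
    rw [← zpow_natCast, ← zpow_mul, mul_comm, zpow_mul, zpow_natCast, h2, one_zpow])
  obtain ⟨R, hR, hl⟩ := exists_isSylowIn_le hz (L := P.comap π) (zpowers_le.2 hn)
  have h1 := hR.map π
  rw [map_comap_eq_self_of_surjective Q.sur] at h1
  have h3 : P = R.map π := h1.max P h1.le le_rfl hP
  let f : R →* P := (π.comp R.subtype).codRestrict P fun r => hR.le r.2
  have fb : Function.Bijective f := by
    constructor
    · rw [injective_iff_map_eq_one]
      intro r hr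
      obtain ⟨j, hj⟩ := hR.isP r
      exact Subtype.ext (Q.one_of_two (congrArg Subtype.val hr) (k := j)
        (by rw [← coe_pow, hj, coe_one]))
    · rintro ⟨p, hp⟩
      obtain ⟨r, hr, rfl⟩ := h3.le hp
      exact ⟨⟨r, hr⟩, rfl⟩
  let E := MulEquiv.ofBijective f fb
  refine ⟨R.subtype.comp E.symm.toMonoidHom, fun p => ?_, ?_⟩
  · exact congrArg Subtype.val (E.apply_symm_apply p)
  · exact congrArg Subtype.val (E.symm_apply_apply ⟨n, hl (mem_zpowers n)⟩)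

theorem lift1 {P : Subgroup H} (hP : IsPGroup 2 P) : ∃ σ : P →* N, ∀ p, π (σ p) = p :=
  let ⟨σ, h, _⟩ := Q.lift hP (n := 1) (by rw [map_one]; exact one_mem P) (k := 0) (one_pow _)
  ⟨σ, h⟩

theorem lifte {P : Subgroup H} (hP : IsPGroup 2 P) (he : e' ∈ P) :
    ∃ σ : P →* N, (∀ p, π (σ p) = p) ∧ (σ ⟨e', he⟩ : G) = e := by
  obtain ⟨σ, h⟩ := Q.lift1 hP
  refine ⟨σ, h, Q.inv_eq (h _) ?_⟩
  rw [← coe_mul, ← map_mul, show (⟨e', he⟩ : P) * ⟨e', he⟩ = 1 from Subtype.ext Q.ee', map_one,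
    coe_one]

omit Q in
theorem inj_of_sec {P : Subgroup H} {σ : P →* N} (h : ∀ p, π (σ p) = p) :
    Function.Injective (N.subtype.comp σ) := fun p q c =>
  Subtype.ext (by rw [← h p, ← h q, show σ p = σ q from Subtype.ext c])

theorem cj_of_eq {n m : N} (h : π n = π m) (hn : (n : G) * n = 1) (hm : (m : G) * m = 1) :
    Cj (n : G) m := by
  have h1 : π (n * m) = 1 := by
    rw [map_mul, h, ← map_mul, show m * m = 1 from Subtype.ext hm, map_one]
  exact isConj_iff.1 (H9.isConj_of_odd hn hm (Q.odd _ ((Q.ker _).1 h1)))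

theorem cl_sq {w : H} (h : Cl e π w) : w * w = 1 ∧ w ≠ 1 := by
  obtain ⟨n, rfl, c⟩ := h
  have h1 : n * n = 1 := Subtype.ext (c.sq Q.ee)
  refine ⟨by rw [← map_mul, h1, map_one], fun h => c.ne Q.ne ?_⟩
  rw [Q.one_of_two h (k := 1) (by rw [pow_one, pow_two, h1]), coe_one]

theorem card_cent : Nat.card 𝐂₀(e) = Nat.card 𝐂₀(e') * Nat.card O := by
  have l : 𝐂₀(e) ≤ N := fun g hg => Q.eN g (mem_c.1 hg)
  have l2 : O ≤ 𝐂₀(e) := fun o ho => mem_c.2 (Q.Oe o ho)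
  let ρ : 𝐂₀(e) →* H := π.comp (inclusion l)
  have r : ρ.range = 𝐂₀(e') := by
    ext h
    constructor
    · rintro ⟨g, rfl⟩
      exact mem_c.2 ((Q.comm_iff _).2 (mem_c.1 g.2))
    · intro hh
      obtain ⟨n, rfl⟩ := Q.sur h
      exact ⟨⟨n, mem_c.2 ((Q.comm_iff _).1 (mem_c.1 hh))⟩, rfl⟩
  have k : ρ.ker = O.subgroupOf 𝐂₀(e) := by
    ext g
    exact Q.ker _
  rw [← r, ← index_ker, ← Nat.card_congr (subgroupOfEquivOfLe l2).toEquiv, ← k, index_mul_card]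

theorem tr (w : H) (hC : Cl e π w) (P : Subgroup H) (hP : IsPGroup 2 P) (hw : w ∈ P)
    (hc : ∀ p ∈ P, p * w = w * p) : ∃ f : P →* H, Function.Injective f ∧ f ⟨w, hw⟩ = e' := by
  obtain ⟨n, rfl, k, hk⟩ := hC
  obtain ⟨σ, h1, h2⟩ := Q.lift hP hw (k := 1) (by
    rw [pow_one, pow_two]; exact Subtype.ext (Cj.sq ⟨k, hk⟩ Q.ee))
  let τ : P →* G := (MulAut.conj k⁻¹).toMonoidHom.comp (N.subtype.comp σ)
  have t : ∀ p, τ p = k⁻¹ * σ p * k⁻¹⁻¹ := fun p => rfl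
  have m : ∀ p, τ p ∈ N := fun p => Q.eN _ (by
    rw [t, ← cj_symm hk, ← h2]
    refine cj_comm _ ?_
    rw [← coe_mul, ← coe_mul, ← map_mul, ← map_mul]
    exact congrArg (fun z => (σ z : G)) (Subtype.ext (hc p p.2)))
  refine ⟨π.comp (τ.codRestrict N m), ?_, ?_⟩
  · rw [injective_iff_map_eq_one]
    intro p hp
    obtain ⟨j, hj⟩ := hP p
    have := Q.one_of_two hp (k := j) (by rw [← map_pow, hj, map_one])
    exact ((MulAut.conj k⁻¹).injective.comp (inj_of_sec h1))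
      ((congrArg Subtype.val this).trans (map_one τ).symm)
  · rw [← Q.pe Q.eN']
    refine congrArg π (Subtype.ext ?_)
    show τ _ = e
    rw [t, h2, cj_symm hk]

theorem par (hO : e ∈ pResidual 2 G) (P : Subgroup H) (hP : IsPGroup 2 P) :
    ∃ f i, i * Nat.card P = Nat.card G ∧
    f * Nat.card P = Set.ncard {w | w ∈ P ∧ Cl e π w} * Nat.card 𝐂₀(e') * Nat.card O ∧
    f % 4 = i % 4 := by
  obtain ⟨σ, h1⟩ := Q.lift1 hP
  have i := inj_of_sec h1
  obtain ⟨f, h2, h3⟩ := parity hO Q.ee (N.subtype.comp σ).range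
  have c : Nat.card (N.subtype.comp σ).range = Nat.card P :=
    (Nat.card_congr (MonoidHom.ofInjective i).toEquiv).symm
  refine ⟨f, _, by rw [← c, index_mul_card], ?_, h3⟩
  rw [← c, h2, Q.card_cent, mul_assoc]
  congr 1
  symm
  refine Set.ncard_congr (fun w hw => (σ ⟨w, hw.1⟩ : G)) (fun w hw => ⟨⟨_, rfl⟩, ?_⟩)
    (fun w w' hw hw' c => congrArg Subtype.val (i c)) ?_
  · obtain ⟨hw, n, rfl, c⟩ := hw
    refine c.trans (Q.cj_of_eq (h1 ⟨_, hw⟩).symm (c.sq Q.ee) ?_)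
    rw [← coe_mul, ← map_mul, show (⟨π n, hw⟩ : P) * ⟨π n, hw⟩ = 1 from
      Subtype.ext (Q.cl_sq ⟨n, rfl, c⟩).1, map_one, coe_one]
  · rintro _ ⟨⟨p, rfl⟩, c⟩
    exact ⟨p, ⟨p.2, σ p, h1 p, c⟩, rfl⟩

theorem syl (S : Subgroup H) (hS : IsSylowIn 2 S 𝐂₀(e'))
    (hz : ∀ w ∈ S, (∀ p ∈ S, p * w = w * p) → Cl e π w → w = e') :
    ∃ k, Odd k ∧ k * Nat.card S = Nat.card G := by
  have he : e' ∈ S := by
    refine hS.le_of_le_normalizer (R := zpowers e') (isP_of_pow 1 ?_)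
      (zpowers_le.2 (mem_c.2 rfl)) ?_ (mem_zpowers e')
    · rintro _ ⟨j, rfl⟩
      show (e' ^ j) ^ 2 ^ 1 = 1
      rw [← zpow_natCast, ← zpow_mul, mul_comm, zpow_mul, zpow_natCast, pow_one, pow_two, Q.ee',
        one_zpow]
    · refine le_trans ?_ (centralizer_le_normalizer _)
      intro p hp
      rw [mem_centralizer_iff]
      rintro _ ⟨j, rfl⟩
      exact (Commute.zpow_left (show Commute e' p from (mem_c.1 (hS.le hp)).symm) j).eq
  obtain ⟨σ, h1, h2⟩ := Q.lifte hS.isP he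
  have i := inj_of_sec h1
  have c : Nat.card (N.subtype.comp σ).range = Nat.card S :=
    (Nat.card_congr (MonoidHom.ofInjective i).toEquiv).symm
  have l : (N.subtype.comp σ).range ≤ 𝐂₀(e) := by
    rintro _ ⟨p, rfl⟩
    exact mem_c.2 ((Q.comm_iff _).1 (by rw [h1]; exact mem_c.1 (hS.le p.2)))
  have hp : IsPGroup 2 (N.subtype.comp σ).range := hS.isP.of_surjective _
    (N.subtype.comp σ).rangeRestrict_surjective
  have s1 : IsSylowIn 2 (N.subtype.comp σ).range 𝐂₀(e) := by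
    refine ⟨l, hp, fun R r1 r2 r3 => le_antisymm (fun r hr => ?_) r1⟩
    have a1 : (R.subgroupOf N).map π = S := by
      refine hS.max _ (fun p hp => ⟨σ ⟨p, hp⟩, r1 ⟨_, rfl⟩, h1 _⟩) ?_
        ((r3.comap_of_injective _ N.subtype_injective).map _)
      rintro _ ⟨n, hn, rfl⟩
      exact mem_c.2 ((Q.comm_iff _).2 (mem_c.1 (r2 hn)))
    have rN : r ∈ N := Q.eN r (mem_c.1 (r2 hr))
    have a2 : π ⟨r, rN⟩ ∈ S := a1.le ⟨_, hr, rfl⟩
    have a3 : r * (σ ⟨_, a2⟩ : G)⁻¹ ∈ R := mul_mem hr (inv_mem (r1 ⟨_, rfl⟩))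
    obtain ⟨j, hj⟩ := r3 ⟨_, a3⟩
    have a4 := Q.one_of_two (n := ⟨r, rN⟩ * (σ ⟨_, a2⟩)⁻¹) (k := j)
      (by rw [map_mul, map_inv, h1, mul_inv_cancel]) (Subtype.ext (congrArg (Subtype.val : R → G) hj))
    exact ⟨⟨_, a2⟩, (congrArg Subtype.val (mul_inv_eq_one.1 a4)).symm⟩
  have s2 : IsSylowIn 2 (N.subtype.comp σ).range ⊤ := by
    refine isSylowIn_of_normalizer le_top (s1.mono (le_inf le_top le_normalizer) ?_)
    rintro g ⟨-, hg⟩
    obtain ⟨w, hw⟩ := (mem_normalizer_iff.1 hg e).1 ⟨⟨e', he⟩, h2⟩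
    have a1 : (w : H) = e' := by
      refine hz w w.2 (fun p hp => ?_) ⟨σ w, h1 w, g, hw.symm⟩
      have a2 := l ((mem_normalizer_iff.1 (inv_mem hg) _).1 ⟨⟨p, hp⟩, rfl⟩)
      have a3 := cj_comm g (mem_c.1 a2)
      rw [← hw] at a3
      refine congrArg Subtype.val (i (a₁ := ⟨p, hp⟩ * w) (a₂ := w * ⟨p, hp⟩) ?_)
      rw [map_mul, map_mul]
      simpa only [inv_inv, mul_assoc, mul_inv_cancel_left, mul_inv_cancel, mul_one] using a3
    rw [show w = ⟨e', he⟩ from Subtype.ext a1] at hw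
    exact mem_c.2 (cj_iff.1 (hw.symm.trans h2))
  refine ⟨(N.subtype.comp σ).range.index, ?_, by rw [← c, index_mul_card]⟩
  have := s2.not_dvd_relIndex
  rw [relIndex_top_right] at this
  exact Nat.not_even_iff_odd.1 fun c => this c.two_dvd

theorem tr4 [IsSimpleGroup G] (S M : Subgroup H) (hS : IsPGroup 2 S)
    (hk : ∃ k, Odd k ∧ k * Nat.card S = Nat.card G) (hM : M.relIndex S = 2)
    (hi : ∀ w ∈ S, w * w = 1 → w ∈ M) (g : H) (hg : g * g = e') : ∃ c ∈ M, Cl e π (c * c) := by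
  by_contra hc
  have hz : IsPGroup 2 (zpowers g) := isP_of_pow 2 (by
    rintro _ ⟨j, rfl⟩
    show (g ^ j) ^ 2 ^ 2 = 1
    rw [← zpow_natCast, ← zpow_mul, mul_comm, zpow_mul, zpow_natCast,
      show 2 ^ 2 = 2 * 2 from rfl, pow_mul, pow_two, pow_two, hg, Q.ee', one_zpow])
  obtain ⟨σ1, -, h2⟩ := Q.lifte hz (hg ▸ mul_mem (mem_zpowers g) (mem_zpowers g))
  obtain ⟨x, hx⟩ : ∃ x : G, x * x = e := ⟨σ1 ⟨g, mem_zpowers g⟩, by
    rw [← h2, ← coe_mul, ← map_mul]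
    exact congrArg (fun z => (σ1 z : G)) (Subtype.ext hg)⟩
  have x4 : x ^ 2 ^ 2 = 1 := by
    rw [show 2 ^ 2 = 2 * 2 from rfl, pow_mul, pow_two, pow_two, hx, Q.ee]
  have ox : orderOf x = 2 ^ 2 := orderOf_eq_prime_pow (by rw [pow_one, pow_two, hx]; exact Q.ne) x4
  obtain ⟨σ, h1⟩ := Q.lift1 hS
  have i := inj_of_sec h1
  have c : Nat.card (N.subtype.comp σ).range = Nat.card S :=
    (Nat.card_congr (MonoidHom.ofInjective i).toEquiv).symm
  obtain ⟨k, ko, hk⟩ := hk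
  have o : Odd (N.subtype.comp σ).range.index := by
    rw [← c, ← (N.subtype.comp σ).range.index_mul_card] at hk
    rwa [← Nat.eq_of_mul_eq_mul_right Nat.card_pos hk]
  have r : ((M.subgroupOf S).map (N.subtype.comp σ)).relIndex (N.subtype.comp σ).range = 2 := by
    rw [MonoidHom.range_eq_map, relIndex_map_map_of_injective _ _ i, relIndex_top_right]
    exact hM
  obtain ⟨K, k1, k2, -⟩ := H73.exists_index_two_of_transfer _ _ o r x ox (by
    rintro d ⟨p, hp, hd⟩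
    refine hc ⟨p, hp, σ p * σ p, by rw [map_mul, h1], d, ?_⟩
    rw [coe_mul, show (σ p : G) = d * x * d⁻¹ from hd, conj_mul, hx]) (by
    rintro d j j1 - ⟨p, hp⟩ -
    refine ⟨p, hi p p.2 (congrArg Subtype.val (i (a₁ := p * p) (a₂ := 1) ?_)), hp⟩
    obtain ⟨j, rfl⟩ := Nat.exists_eq_add_of_le' j1
    rw [map_mul, hp, map_one, conj_mul, ← pow_add, ← mul_two, ← pow_succ,
      show j + 1 + 1 = 2 + j by omega, pow_add, pow_mul, x4, one_pow, mul_one, mul_inv_cancel])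
  rcases k1.eq_bot_or_eq_top with rfl | rfl
  · rw [index_bot] at k2
    have := orderOf_dvd_natCard x
    rw [ox, k2] at this
    exact absurd this (by norm_num)
  · rw [index_top] at k2
    exact absurd k2 (by norm_num)

end GQ

theorem GQ.fd {G H : Type*} [Group G] [Finite G] [Group H] [Finite H] [IsSimpleGroup G]
    (hG : ¬ IsMulCommutative G) {e : G} {O N : Subgroup G} {π : N →* H} {e' : H}
    (Q : GQ e O N π e') : FD e' (Cl e π) (Nat.card G) (Nat.card O) := by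
  have hO : e ∈ pResidual 2 G := by
    rw [H4.pResidual_eq_top_of_commutator_eq_top]
    · exact mem_top e
    refine (commutator_normal (⊤ : Subgroup G) ⊤).eq_bot_or_eq_top.resolve_left fun h => hG ?_
    rw [commutator_eq_bot_iff_le_centralizer] at h
    exact ⟨⟨fun a b => (h (mem_top b) a (mem_top a))⟩⟩
  refine ⟨⟨⟨e, Q.eN'⟩, Q.pe _, Cj.refl e⟩, ?_, fun w h => Q.cl_sq h, Q.tr, ?_, ?_, Q.par hO, Q.syl,
    fun S M h1 h2 _ h3 h4 => Q.tr4 S M h1 h2 h3 h4⟩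
  · rintro _ g ⟨n, rfl, c⟩
    obtain ⟨k, rfl⟩ := Q.sur g
    exact ⟨k * n * k⁻¹, by rw [map_mul, map_mul, map_inv], c.cj k⟩
  · refine Nat.not_even_iff_odd.1 fun h => ?_
    obtain ⟨z, hz⟩ := exists_prime_orderOf_dvd_card' (G := O) 2 h.two_dvd
    have := Q.odd z z.2
    rw [orderOf_coe, hz] at this
    exact absurd this (by norm_num)
  · exact (card_dvd_of_surjective π Q.sur).trans (card_subgroup_dvd_card N)

end H30.CS
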