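import Mathlib
import Cfsg.Agent.Base
import Cfsg.Agent.Lib.Co3S.Defs

/-!
# Extensions given by a factor set, and the counting argument (helper30)
-/

set_option autoImplicit false
set_option linter.unusedSectionVars false

namespace H30.CS

open Subgroup H69 Cfsg H70.TM H30.CM

/-- an action with a factor set -/
structure Fs (A K : Type) [Group A] [Group K] where
  act : K → A → A
  c : K → K → A
  hom : ∀ k x y, act k (x * y) = act k x * act k y
  mul : ∀ k l x, act k (act l x) * c k l = c k l * act (k * l) x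
  one : ∀ x, act 1 x = x
  c1 : ∀ k, c 1 k = 1
  c2 : ∀ k, c k 1 = 1
  coc : ∀ k l m, c k l * c (k * l) m = act k (c l m) * c k (l * m)

/-- the extension -/
structure FE {A K : Type} [Group A] [Group K] (α : Fs A K) where
  r : A
  k : K

section
variable {A K : Type} [Group A] [Group K] {α : Fs A K}

theorem Fs.act_one (α : Fs A K) (k : K) : α.act k 1 = 1 := by
  have := α.hom k 1 1
  rw [mul_one] at this
  exact (mul_eq_left.1 this.symm)

theorem FE.ext {u v : FE α} (h1 : u.r = v.r) (h2 : u.k = v.k) : u = v := by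
  cases u; cases v; cases h1; cases h2; rfl

instance : Group (FE α) where
  mul u v := ⟨u.r * α.act u.k v.r * α.c u.k v.k, u.k * v.k⟩
  one := ⟨1, 1⟩
  inv u := ⟨(α.act u.k⁻¹ u.r * α.c u.k⁻¹ u.k)⁻¹, u.k⁻¹⟩
  mul_assoc u v w := FE.ext (show u.r * α.act u.k v.r * α.c u.k v.k * α.act (u.k * v.k) w.r *
      α.c (u.k * v.k) w.k = u.r * α.act u.k (v.r * α.act v.k w.r * α.c v.k w.k) * α.c u.k (v.k * w.k) by
    rw [α.hom, α.hom, mul_assoc _ (α.c _ _), ← α.mul]
    simp only [mul_assoc, α.coc]) (mul_assoc _ _ _)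
  one_mul u := FE.ext (show 1 * α.act 1 u.r * α.c 1 u.k = u.r by
    rw [one_mul, α.one, α.c1, mul_one]) (one_mul _)
  mul_one u := FE.ext (show u.r * α.act u.k 1 * α.c u.k 1 = u.r by
    rw [α.act_one, α.c2, mul_one, mul_one]) (mul_one _)
  inv_mul_cancel u := FE.ext (show (α.act u.k⁻¹ u.r * α.c u.k⁻¹ u.k)⁻¹ * α.act u.k⁻¹ u.r *
    α.c u.k⁻¹ u.k = 1 by rw [mul_assoc, inv_mul_cancel]) (inv_mul_cancel _)

instance [DecidableEq A] [DecidableEq K] : DecidableEq (FE α) := fun u v =>
  decidable_of_iff (u.r = v.r ∧ u.k = v.k) ⟨fun h => FE.ext h.1 h.2, fun h => h ▸ ⟨rfl, rfl⟩⟩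

def FE.equiv (α : Fs A K) : FE α ≃ A × K :=
  ⟨fun u => (u.r, u.k), fun p => ⟨p.1, p.2⟩, fun _ => rfl, fun _ => rfl⟩

instance [Finite A] [Finite K] : Finite (FE α) := Finite.of_equiv _ (FE.equiv α).symm

theorem FE.card : Nat.card (FE α) = Nat.card A * Nat.card K := by
  rw [Nat.card_congr (FE.equiv α), Nat.card_prod]

/-- the normal subgroup -/
def fin (α : Fs A K) : A →* FE α where
  toFun r := ⟨r, 1⟩
  map_one' := rfl
  map_mul' x y := FE.ext (show x * y = x * α.act 1 y * α.c 1 1 by rw [α.one, α.c1, mul_one])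
    (mul_one _).symm

theorem FE.split (u : FE α) : fin α u.r * ⟨1, u.k⟩ = u :=
  FE.ext (show u.r * α.act 1 1 * α.c 1 u.k = u.r by rw [α.one, α.c1, mul_one, mul_one]) (one_mul _)

theorem FE.inj {G : Type*} [Group G] {θ : FE α →* G} (h : Function.Injective (θ.comp (fin α)))
    (f : ∀ z : FE α, (∀ r, z * fin α r = fin α r * z) → z.k = 1) : Function.Injective θ := by
  have i0 : ∀ z : FE α, z.k = 1 → θ z = 1 → z = 1 := fun z k c => by
    have e : z = fin α z.r := FE.ext rfl k
    rw [e] at c ⊢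
    rw [(map_eq_one_iff _ h).1 c, map_one]
  exact (injective_iff_map_eq_one θ).2 fun z c => i0 z (f z fun r => cj_iff.1 (mul_inv_eq_one.1
    (i0 _ (show z.k * 1 * z.k⁻¹ * 1⁻¹ = 1 by simp) (by simp [c])))) c

end

section
variable {A K : GT} {α : Fs (El A) (El K)}

noncomputable instance decForallFE {P : FE α → Prop} [DecidablePred P] : Decidable (∀ u, P u) :=
  decidable_of_iff (∀ k r, P ⟨r, k⟩) ⟨fun h u => h u.k u.r, fun h _ _ => h _⟩

theorem FE.eq_top {L : Subgroup (FE α)} (h1 : ∀ g ∈ A.gs, (⟨El.of A g, 1⟩ : FE α) ∈ L)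
    (h2 : ∀ g ∈ K.gs, (⟨1, El.of K g⟩ : FE α) ∈ L) : L = ⊤ := by
  have k1 : ∀ r, fin α r ∈ L := fun r => (El.eq_top (K := L.comap (fin α)) h1).ge (mem_top r)
  have k2 : ∀ k, (⟨1, k⟩ : FE α) ∈ L := El.induction (one_mem L) fun g hg k ih => by
    have := mul_mem (h2 g hg) ih
    rw [← FE.split (_ * _)] at this
    exact (mul_mem_cancel_left (k1 _)).1 this
  exact eq_top_iff.2 fun u _ => FE.split u ▸ mul_mem (k1 _) (k2 _)

/-- a factor set given by a table -/
noncomputable def tfs (A K : GT) (T : ℕ) (k l : El K) : El A :=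
  ⟨A.ent T (Nat.add (Nat.mul K.n k.val) l.val), A.ent_lt _ _⟩

/-- the conditions on the tables -/
def FOk (A K : GT) (T : H54.Tr) (U : ℕ) : Prop :=
  (∀ k, tact A K T k 1 = 1 ∧ tfs A K U 1 k = 1 ∧ tfs A K U k 1 = 1 ∧ ∀ g ∈ A.gs, ∀ r,
    tact A K T k (El.of A g * r) = tact A K T k (El.of A g) * tact A K T k r) ∧
  (∀ g ∈ A.gs, tact A K T 1 (El.of A g) = El.of A g ∧ ∀ k l,
    tact A K T k (tact A K T l (El.of A g)) * tfs A K U k l =
      tfs A K U k l * tact A K T (k * l) (El.of A g)) ∧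
  ∀ k l m, tfs A K U k l * tfs A K U (k * l) m = tact A K T k (tfs A K U l m) * tfs A K U k (l * m)

noncomputable instance (A K : GT) (T : H54.Tr) (U : ℕ) : Decidable (FOk A K T U) := by
  unfold FOk; infer_instance

theorem FOk.hom {T : H54.Tr} {U : ℕ} (h : FOk A K T U) (k : El K) (x y : El A) :
    tact A K T k (x * y) = tact A K T k x * tact A K T k y := by
  induction x using El.induction with
  | h1 => rw [one_mul, (h.1 k).1, one_mul]
  | h g hg u ih => rw [mul_assoc, (h.1 k).2.2.2 g hg, (h.1 k).2.2.2 g hg, ih, mul_assoc]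

noncomputable def ofTabs (A K : GT) (T : H54.Tr) (U : ℕ) (h : FOk A K T U) : Fs (El A) (El K) where
  act := tact A K T
  c := tfs A K U
  hom := h.hom
  mul k l x := by
    induction x using El.induction with
    | h1 => rw [(h.1 _).1, (h.1 _).1, (h.1 _).1, one_mul, mul_one]
    | h g hg u ih => rw [h.hom, h.hom, h.hom, mul_assoc, ih, ← mul_assoc, (h.2.1 g hg).2, mul_assoc]
  one x := by
    induction x using El.induction with
    | h1 => exact (h.1 _).1
    | h g hg u ih => rw [h.hom, ih, (h.2.1 g hg).1]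
  c1 k := (h.1 k).2.1
  c2 k := (h.1 k).2.2.1
  coc := h.2.2

/-- a parity given by two masks -/
def par (P Q : ℕ) (z : FE α) : Bool := xor (P.testBit z.r.val) (Q.testBit z.k.val)

/-- the conditions on the masks -/
def POk (α : Fs (El A) (El K)) (P Q : ℕ) : Prop :=
  P.testBit 0 = false ∧ Q.testBit 0 = false ∧
  (∀ g ∈ A.gs, (∀ r, P.testBit (El.of A g * r).val = xor (P.testBit (El.of A g).val) (P.testBit r.val)) ∧
    ∀ k, P.testBit (α.act k (El.of A g)).val = P.testBit (El.of A g).val) ∧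
  ∀ k l, P.testBit (α.c k l).val = xor (xor (Q.testBit k.val) (Q.testBit l.val)) (Q.testBit (k * l).val)

noncomputable instance (P Q : ℕ) : Decidable (POk α P Q) := by unfold POk; infer_instance

theorem POk.mul {P Q : ℕ} (h : POk α P Q) (u v : FE α) :
    par P Q (u * v) = xor (par P Q u) (par P Q v) := by
  have m : ∀ x y : El A, P.testBit (x * y).val = xor (P.testBit x.val) (P.testBit y.val) := fun x y => by
    induction x using El.induction with
    | h1 => rw [one_mul, El.val_one, h.1, Bool.false_xor]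
    | h g hg u ih => rw [mul_assoc, (h.2.2.1 g hg).1, (h.2.2.1 g hg).1, ih, Bool.xor_assoc]
  have a : ∀ k (x : El A), P.testBit (α.act k x).val = P.testBit x.val := fun k x => by
    induction x using El.induction with
    | h1 => rw [α.act_one]
    | h g hg u ih => rw [α.hom, m, m, ih, (h.2.2.1 g hg).2]
  show xor (P.testBit (u.r * α.act u.k v.r * α.c u.k v.k).val) (Q.testBit (u.k * v.k).val) = _
  rw [m, m, a, h.2.2.2, par, par]
  generalize P.testBit u.r.val = b1
  generalize P.testBit v.r.val = b2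
  generalize Q.testBit u.k.val = b3
  generalize Q.testBit v.k.val = b4
  generalize Q.testBit (u.k * v.k).val = b5
  revert b1 b2 b3 b4 b5
  decide

theorem POk.sub {P Q : ℕ} (h : POk α P Q) {w : FE α} (hw : par P Q w = true) :
    ∃ M : Subgroup (FE α), M.index = 2 ∧ ∀ z, z ∉ M ↔ par P Q z = true := by
  have o : par P Q (1 : FE α) = false := by
    show xor (P.testBit 0) (Q.testBit 0) = false
    rw [h.1, h.2.1]; rfl
  refine ⟨⟨⟨⟨{z | par P Q z = false}, fun {x y} (a : _ = _) (b : _ = _) => show _ = _ by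
    rw [h.mul, a, b]; rfl⟩, o⟩, fun {x} (a : _ = _) => show _ = _ by
      have := h.mul x x⁻¹
      rwa [mul_inv_cancel, o, a, Bool.false_xor, eq_comm] at this⟩, index_eq_two_iff.2 ⟨w, fun b => ?_⟩,
    fun z => (Bool.not_eq_false _).to_iff⟩
  show Xor' (par P Q (b * w) = false) (par P Q b = false)
  rw [h.mul, hw]
  cases par P Q b <;> simp [Xor']

/-- the element with a given number -/
def el (α : Fs (El A) (El K)) (i : ℕ) : FE α := ⟨El.of A i, El.of K (Nat.div i A.n)⟩

/-- the number of an element -/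
def idx (z : FE α) : ℕ := Nat.add (Nat.mul z.k.val A.n) z.r.val

theorem el_idx (z : FE α) : el α (idx z) = z :=
  FE.ext (El.ext (show (z.k.val * A.n + z.r.val) % A.n = z.r.val by
    rw [Nat.mul_add_mod', Nat.mod_eq_of_lt z.r.lt])) (El.ext (show (z.k.val * A.n + z.r.val) / A.n % K.n =
      z.k.val by rw [mul_comm, Nat.mul_add_div A.pos, Nat.div_eq_of_lt z.r.lt, add_zero,
        Nat.mod_eq_of_lt z.k.lt]))

end

theorem dvd_countP {E : Type*} {Q : E → Bool} : ∀ {LL : List (List E)},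
    (∀ l ∈ LL, (∀ z ∈ l, ¬ Q z) ∨ (l.length = 64 ∧ ∀ z ∈ l, Q z)) → 64 ∣ LL.flatten.countP Q
  | [], _ => by simp
  | l :: LL, h => by
    rw [List.flatten_cons, List.countP_append]
    refine dvd_add ?_ (dvd_countP fun l hl => h l (List.mem_cons_of_mem _ hl))
    rcases h l List.mem_cons_self with c | c
    · rw [List.countP_eq_zero.2 c]; simp
    · rw [List.countP_eq_length.2 c.2, c.1]

theorem kill {E H : Type*} [Group E] [Finite E] [Group H] [Finite H] {e : H} {C : H → Prop} {n m : ℕ}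
    (D : FD e C n m) (c1 : Nat.card 𝐂₀(e) = 380160) (hc : Nat.card E = 8192) {M : Subgroup E}
    (hM : M.index = 2) {θ : E →* H} (i : Function.Injective θ) {Y : List E} {LL : List (List E)}
    (nd : (Y ++ LL.flatten).Nodup) (hY : Y.length = 32)
    (cov : ∀ z, z ∉ M → z * z = 1 → z ∈ Y ++ LL.flatten) (out : ∀ z ∈ Y ++ LL.flatten, z ∉ M)
    (yes : ∀ z ∈ Y, C (θ z))
    (no : ∀ l ∈ LL, (∀ z ∈ l, ¬ C (θ z)) ∨ (l.length = 64 ∧ ∀ z ∈ l, C (θ z))) : False := by
  classical
  have pE : IsPGroup 2 E := IsPGroup.of_card (n := 13) hc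
  obtain ⟨f, j, a1, a2, a3⟩ := D.par ((⊤ : Subgroup E).map θ) ((pE.to_subgroup _).map θ)
  obtain ⟨f', j', b1, b2, b3⟩ := D.par (M.map θ) ((pE.to_subgroup _).map θ)
  have cM : Nat.card M = 4096 := by
    have := index_mul_card M
    rw [hM, hc] at this
    omega
  rw [card_map_of_injective i, card_top, hc] at a1 a2
  rw [card_map_of_injective i, cM] at b1 b2
  have s : {w | w ∈ (⊤ : Subgroup E).map θ ∧ C w} = {w | w ∈ M.map θ ∧ C w} ∪
      θ '' ((Y ++ LL.flatten).filter fun z => C (θ z)).toFinset := Set.ext fun w => by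
    constructor
    · rintro ⟨⟨z, -, rfl⟩, c⟩
      by_cases k : z ∈ M
      · exact .inl ⟨⟨z, k, rfl⟩, c⟩
      · exact .inr ⟨z, List.mem_toFinset.2 (List.mem_filter.2
          ⟨cov z k (i (by rw [map_mul, (D.sq _ c).1, map_one])), decide_eq_true c⟩), rfl⟩
    · rintro (⟨⟨z, -, rfl⟩, c⟩ | ⟨z, c, rfl⟩)
      · exact ⟨⟨z, mem_top _, rfl⟩, c⟩
      · exact ⟨⟨z, mem_top _, rfl⟩, of_decide_eq_true (List.mem_filter.1 (List.mem_toFinset.1 c)).2⟩
  obtain ⟨k, hk⟩ := dvd_countP (Q := fun z => decide (C (θ z))) (LL := LL) (by simpa using no)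
  rw [s, Set.ncard_union_eq (Set.disjoint_left.2 (by
      rintro _ ⟨⟨z, k, rfl⟩, -⟩ ⟨z', c, d⟩
      exact out z' (List.mem_filter.1 (List.mem_toFinset.1 c)).1 (i d ▸ k))),
    Set.ncard_image_of_injective _ i, Set.ncard_coe_finset, List.toFinset_card_of_nodup (nd.filter _),
    ← List.countP_eq_length_filter, List.countP_append, hk,
    List.countP_eq_length.2 fun z hz => decide_eq_true (yes z hz), hY, add_mul, add_mul, ← b2, c1] at a2
  obtain ⟨m, rfl⟩ := D.odd
  have : (32 + 64 * k) * 380160 * (2 * m + 1) = 380160 * (32 + 64 * (k + m + 2 * (k * m))) := by ring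
  rw [this] at a2
  omega

theorem eqns_CSFE : True := by
  have := @FOk.eq_1
  have := @POk.eq_1
  have := @par.eq_1
  trivial

end H30.CS
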