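import Mathlib
import Cfsg.Agent.Base
import Cfsg.Agent.Lib.Co3S.Defs

/-!
# The frame with an outer element: basic facts (package O0, helper50)
-/

set_option autoImplicit false
set_option maxRecDepth 100000
set_option linter.unusedSectionVars false

namespace H30.CS

open Subgroup H69 Cfsg H70.TM H30.CM

variable {H : Type*} [Group H] [Finite H] {L : Subgroup H} {e a b s u x y g p q : H}
  {C : H → Prop} {n m : ℕ}

theorem o0_ext {A : Subgroup H} {g : H} (hn : ∀ l ∈ A, g * l * g⁻¹ ∈ A) (hg : g * g ∈ A)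
    (h : g ∉ A) : ∃ S : Subgroup H, (∀ h, h ∈ S ↔ ∃ l ∈ A, h = l ∨ h = l * g) ∧
      Nat.card S = 2 * Nat.card A := by
  have hn' : ∀ l ∈ A, g⁻¹ * l * g ∈ A := fun l hl => by
    have := mul_mem (mul_mem (inv_mem hg) (hn l hl)) hg
    rwa [show (g * g)⁻¹ * (g * l * g⁻¹) * (g * g) = g⁻¹ * l * g by group] at this
  refine ⟨⟨⟨⟨{h | ∃ l ∈ A, h = l ∨ h = l * g}, ?_⟩, 1, one_mem _, .inl rfl⟩, ?_⟩, fun _ => Iff.rfl, ?_⟩
  · rintro _ _ ⟨l, hl, rfl | rfl⟩ ⟨k, hk, rfl | rfl⟩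
    · exact ⟨_, mul_mem hl hk, .inl rfl⟩
    · exact ⟨_, mul_mem hl hk, .inr (mul_assoc _ _ _).symm⟩
    · exact ⟨_, mul_mem hl (hn _ hk), .inr (by group)⟩
    · exact ⟨_, mul_mem (mul_mem hl (hn _ hk)) hg, .inl (by group)⟩
  · rintro _ ⟨l, hl, rfl | rfl⟩
    · exact ⟨_, inv_mem hl, .inl rfl⟩
    · exact ⟨_, mul_mem (hn' _ (inv_mem hl)) (inv_mem hg), .inr (by group)⟩
  · change Set.ncard {h | ∃ l ∈ A, h = l ∨ h = l * g} = 2 * Set.ncard (A : Set H)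
    have e1 : {h | ∃ l ∈ A, h = l ∨ h = l * g} = (A : Set H) ∪ (· * g) '' (A : Set H) := by
      ext w
      constructor
      · rintro ⟨l, hl, rfl | rfl⟩
        exacts [.inl hl, .inr ⟨l, hl, rfl⟩]
      · rintro (hl | ⟨l, hl, rfl⟩)
        exacts [⟨w, hl, .inl rfl⟩, ⟨l, hl, .inr rfl⟩]
    rw [e1, Set.ncard_union_eq, Set.ncard_image_of_injective _ (mul_left_injective g), two_mul]
    rw [Set.disjoint_left]
    rintro _ h1 ⟨l, hl, rfl⟩
    exact h ((mul_mem_cancel_left hl).1 h1)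

theorem o0_in0 : ∀ w : E2.E, ES.in0 w ∨ ES.in0 (w * E2.e) := by decide +kernel

theorem o0_sig : ES.σ (E2.a * E2.a) = E2.a * E2.a ∧ ES.σ (E2.b * E2.b) = E2.b * E2.b ∧
    E2.y * ES.σ E2.b = ES.σ (E2.b * E2.y) := by decide +kernel

namespace Fo
variable (F : Fo L e a b s u x y g)
include F

theorem ee : e * e = 1 := F.r2.2.2.2.2.2.2.2.2.2.2.1

theorem aL : a ∈ L := F.mem a (by simp)
theorem bL : b ∈ L := F.mem b (by simp)
theorem sL : s ∈ L := F.mem s (by simp)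
theorem uL : u ∈ L := F.mem u (by simp)
theorem yL : y ∈ L := F.mem y (by simp)

theorem ne3 : e ≠ 1 ∧ a * a ≠ 1 ∧ e * (a * a) ≠ 1 :=
  ⟨fun c => F.eL (c ▸ one_mem L), F.ne, fun c =>
    F.eL (eq_inv_of_mul_eq_one_left c ▸ inv_mem (mul_mem F.aL F.aL))⟩

theorem c1 : Nat.card 𝐂₀(e) = 380160 := by
  obtain ⟨A, hA, cA⟩ := o0_ext (A := L) (g := e) (fun l hl => by
    rwa [cj_iff.2 (F.Le l hl).symm]) (F.ee ▸ one_mem L) F.eL
  obtain ⟨S, hS, cS⟩ := o0_ext (A := A) (g := g) (fun l hl => by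
      obtain ⟨k, hk, rfl | rfl⟩ := (hA l).1 hl
      · exact (hA _).2 ⟨_, F.gL _ hk, .inl rfl⟩
      · exact (hA _).2 ⟨_, F.gL _ hk, .inr (by rw [← conj_mul, cj_iff.2 F.ge])⟩)
    (by
      rcases F.gg with c | c <;> rw [c]
      exacts [one_mem A, (hA _).2 ⟨1, one_mem L, .inr (one_mul _).symm⟩])
    (fun c => by
      obtain ⟨k, hk, c | c⟩ := (hA g).1 c
      · exact F.gn.1 (c ▸ hk)
      · exact F.gn.2 (by rwa [c, mul_assoc, F.ee, mul_one]))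
  have : 𝐂₀(e) = S := by
    ext h
    rw [mem_c, hS]
    constructor
    · intro c
      obtain ⟨l, hl, rfl | rfl | rfl | rfl⟩ := F.ce h c
      · exact ⟨_, (hA _).2 ⟨_, hl, .inl rfl⟩, .inl rfl⟩
      · exact ⟨_, (hA _).2 ⟨_, hl, .inr rfl⟩, .inl rfl⟩
      · exact ⟨_, (hA _).2 ⟨_, hl, .inl rfl⟩, .inr rfl⟩
      · exact ⟨_, (hA _).2 ⟨_, hl, .inr rfl⟩, .inr (by rw [mul_assoc, F.ge, mul_assoc])⟩
    · rintro ⟨l, hl, c⟩
      have k : l * e = e * l := by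
        obtain ⟨k, hk, rfl | rfl⟩ := (hA l).1 hl
        exacts [F.Le _ hk, mul_comm' (F.Le _ hk) rfl]
      rcases c with rfl | rfl
      exacts [k, mul_comm' k F.ge]
  rw [this, cS, cA, F.cL]

theorem le256 {S : Subgroup H} (h : IsPGroup 2 S) (hl : S ≤ 𝐂₀(e)) : Nat.card S ≤ 256 := by
  obtain ⟨k, c⟩ := IsPGroup.iff_card.1 h
  have := card_dvd_of_le hl
  rw [c, F.c1] at this
  rw [c]
  by_contra d
  have k8 : 9 ≤ k := by
    by_contra d'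
    exact d ((Nat.pow_le_pow_right (by norm_num) (by omega : k ≤ 8)).trans (by norm_num))
  exact absurd ((pow_dvd_pow 2 k8).trans this) (by norm_num)

theorem ce' {h : H} (c : h * e = e * h) : ∃ l ∈ L, ∃ z, h = l * z ∧ (∀ k ∈ L, z * k * z⁻¹ ∈ L) ∧
    z * e = e * z ∧ z * g = g * z ∧ (g * g = 1 → z * z = 1) ∧ (z = 1 ∨ z = e ∨ z = g ∨ z = g * e) := by
  have ne : ∀ k ∈ L, e * k * e⁻¹ ∈ L := fun l hl => by rwa [cj_iff.2 (F.Le l hl).symm]
  obtain ⟨l, hl, rfl | rfl | rfl | rfl⟩ := F.ce h c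
  · exact ⟨_, hl, 1, by simp, by simp, by simp, by simp, by simp, .inl rfl⟩
  · exact ⟨_, hl, e, rfl, ne, rfl, F.ge.symm, fun _ => F.ee, .inr (.inl rfl)⟩
  · exact ⟨_, hl, g, rfl, F.gL, F.ge, rfl, id, .inr (.inr (.inl rfl))⟩
  · refine ⟨_, hl, g * e, mul_assoc _ _ _, fun k hk => ?_, mul_comm' F.ge rfl,
      mul_comm' rfl F.ge.symm, fun c => ?_, .inr (.inr (.inr rfl))⟩
    · simpa only [mul_inv_rev, mul_assoc] using F.gL _ (ne k hk)
    · rw [mul_assoc, ← mul_assoc e, ← F.ge, mul_assoc, F.ee, mul_one, c]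

theorem com {c d : H} (hc : c * e = e * c) (hd : d * e = e * d) : c * d * c⁻¹ * d⁻¹ ∈ L := by
  obtain ⟨l, hl, z, rfl, z1, z2, z3, -, -⟩ := F.ce' hc
  obtain ⟨k, hk, w, rfl, w1, -, -, -, w4⟩ := F.ce' hd
  have : z * w = w * z := by
    rcases w4 with rfl | rfl | rfl | rfl
    exacts [by simp, z2, z3, comm_mul z3 z2]
  have e1 : l * z * (k * w) * (l * z)⁻¹ * (k * w)⁻¹ =
      l * (z * k * z⁻¹) * ((z * w * z⁻¹) * l⁻¹ * w⁻¹) * k⁻¹ := by group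
  rw [e1, cj_iff.2 this]
  exact mul_mem (mul_mem (mul_mem hl (z1 _ hk)) (w1 _ (inv_mem hl))) (inv_mem hk)

theorem sqL (gg : g * g = 1) {c : H} (hc : c * e = e * c) : c * c ∈ L := by
  obtain ⟨l, hl, z, rfl, z1, -, -, z4, -⟩ := F.ce' hc
  rw [show l * z * (l * z) = l * (z * l * z⁻¹) * (z * z) by group, z4 gg, mul_one]
  exact mul_mem hl (z1 _ hl)

theorem mod2 : ∃ φ : E2.E →* H, Function.Injective φ ∧ φ E2.e = e ∧ φ E2.a = a ∧ φ E2.b = b ∧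
    φ E2.s = s ∧ φ E2.u = u ∧ φ E2.y = y ∧ (∀ w, Act φ g w (ES.σ w)) ∧ (∀ w, φ w ≠ g) ∧
    ∀ h, h * e = e * h → h * (a * a) = a * a * h → ∃ w, h = φ w ∨ h = φ w * g := by
  obtain ⟨φ, rfl, rfl, rfl, rfl, rfl, rfl⟩ := E2.model F.r2
  have i : Function.Injective φ := inj_of' E2.inj (by
    rintro _ (rfl | rfl | rfl) <;> (try simp only [map_mul])
    exacts [F.ne3.1, F.ne3.2.1, F.ne3.2.2])
  have ac : ∀ w, Act φ g w (ES.σ w) := ES.act (.cons (act_of_comm F.ge)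
    (.cons (by simpa only [Act, map_mul] using F.ga) (.cons (by simpa only [Act, map_mul] using F.gb)
    (.cons F.gs (.cons (by simpa only [Act, map_mul] using F.gu)
    (.cons (by simpa only [Act, map_mul, map_inv] using F.gy) .nil))))))
  have m0 : ∀ w, ES.in0 w → φ w ∈ L := fun w hw => by
    rw [← ES.w0 w hw]
    exact evw_rel (R := fun w (_ : E2.E) => φ w ∈ L) (.cons F.aL (.cons F.bL (.cons F.sL (.cons F.uL
      (.cons F.yL .nil))))) (l' := [1, 1, 1, 1, 1]) (map_one φ ▸ one_mem L)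
      (fun _ _ _ _ h k => map_mul φ _ _ ▸ mul_mem h k) _ _
  refine ⟨φ, i, rfl, rfl, rfl, rfl, rfl, rfl, ac, fun w c => ?_, fun h h1 h2 => ?_⟩
  · rcases o0_in0 w with d | d
    · exact F.gn.1 (c ▸ m0 _ d)
    · exact F.gn.2 (c ▸ map_mul φ _ _ ▸ m0 _ d)
  have ct : ∀ w, φ w * (φ E2.a * φ E2.a) = φ E2.a * φ E2.a * φ w := fun w => by
    rw [← map_mul, ← map_mul, ← map_mul, (E2.cen w).2]
  have gt : g * (φ E2.a * φ E2.a) = φ E2.a * φ E2.a * g := by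
    simpa only [map_mul] using ((ac _).to o0_sig.1).fix
  have sj : ∀ l ∈ L, l * (φ E2.a * φ E2.a) = φ E2.a * φ E2.a * l → ∃ w, φ w = l := fun l hl c => by
    let f : {w : E2.E // ES.in0 w} → ↥(L ⊓ 𝐂₀(φ E2.a * φ E2.a)) :=
      fun w => ⟨φ w, m0 _ w.2, mem_c.2 (ct _)⟩
    have fi : Function.Injective f := fun w v c => Subtype.ext (i (congrArg Subtype.val c))
    obtain ⟨w, hw⟩ := (fi.bijective_of_nat_card_le (ES.card0 ▸ F.ct)).2 ⟨l, hl, mem_c.2 c⟩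
    exact ⟨w, congrArg Subtype.val hw⟩
  obtain ⟨l, hl, z, rfl, -, -, -, -, z4⟩ := F.ce' h1
  have zt : z * (φ E2.a * φ E2.a) = φ E2.a * φ E2.a * z := by
    rcases z4 with rfl | rfl | rfl | rfl
    exacts [by simp, ct _, gt, mul_comm' gt (ct _)]
  obtain ⟨w, rfl⟩ := sj l hl (by simpa using mul_comm' h2 (inv_comm zt))
  rcases z4 with rfl | rfl | rfl | rfl
  · exact ⟨w, .inl (mul_one _)⟩
  · exact ⟨w * E2.e, .inl (map_mul _ _ _).symm⟩
  · exact ⟨w, .inr rfl⟩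
  · exact ⟨w * E2.e, .inr (by rw [F.ge, map_mul, mul_assoc])⟩

theorem ne4 : a * a ≠ 1 ∧ b * b ≠ 1 ∧ a * a * (b * b) ≠ 1 := by
  obtain ⟨φ, i, rfl, rfl, rfl, rfl, rfl, rfl, h⟩ := F.mod2
  simp only [← map_mul, Ne, map_eq_one_iff φ i]
  decide +kernel

theorem modT : ∃ ψ : T.E →* H, Function.Injective ψ ∧ ψ T.e = e ∧ ψ T.a = a ∧ ψ T.b = b ∧
    ψ T.s = s ∧ ψ T.u = u ∧ (∀ w, Act ψ g w (TS.σ w)) ∧ (∀ w, ψ w ≠ g) ∧
    ∃ S : Subgroup H, IsSylowIn 2 S 𝐂₀(e) ∧ Nat.card S = 256 ∧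
      ∀ h, h ∈ S ↔ ∃ w, h = ψ w ∨ h = ψ w * g := by
  obtain ⟨φ, h1, h2, h3, h4, h5, -⟩ := E2.model F.r2
  have r := E2.relT.map φ
  rw [h1, h2, h3, h4, h5] at r
  obtain ⟨ψ, rfl, rfl, rfl, rfl, rfl⟩ := T.model r
  have i : Function.Injective ψ := inj_of' T.inj (by
    rintro _ (rfl | rfl | rfl) <;> (try simp only [map_mul])
    exacts [F.ne3.1, F.ne3.2.1, F.ne3.2.2])
  have c : Nat.card ψ.range = 128 := by
    rw [← Nat.card_congr (MonoidHom.ofInjective i).toEquiv, T.card]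
  have ac : ∀ w, Act ψ g w (TS.σ w) := TS.act (.cons (act_of_comm F.ge)
    (.cons (by simpa only [Act, map_mul] using F.ga) (.cons (by simpa only [Act, map_mul] using F.gb)
    (.cons F.gs (.cons (by simpa only [Act, map_mul] using F.gu) .nil)))))
  have m0 : ∀ w, T.in0 w → ψ w ∈ L := fun w hw => by
    rw [← TS.w0 w hw]
    exact evw_rel (R := fun w (_ : T.E) => ψ w ∈ L) (.cons F.aL (.cons F.bL (.cons F.sL (.cons F.uL
      .nil)))) (l' := [1, 1, 1, 1]) (map_one ψ ▸ one_mem L)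
      (fun _ _ _ _ h k => map_mul ψ _ _ ▸ mul_mem h k) _ _
  have ng : ∀ w, ψ w ≠ g := fun w c => by
    rcases (TS.in0_mul_σ w).2.2 with d | d
    · exact F.gn.1 (c ▸ m0 _ d)
    · exact F.gn.2 (c ▸ map_mul ψ _ _ ▸ m0 _ d)
  obtain ⟨S, hS, cS⟩ := o0_ext (A := ψ.range) (g := g)
    (by rintro _ ⟨w, rfl⟩; exact ⟨_, (ac w).eq.symm⟩)
    (by rcases F.gg with c | c <;> rw [c]; exacts [one_mem _, ⟨_, rfl⟩]) (fun ⟨w, c⟩ => ng w c)
  rw [c] at cS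
  have hS' : ∀ h, h ∈ S ↔ ∃ w, h = ψ w ∨ h = ψ w * g := fun h => by
    rw [hS]
    exact ⟨fun ⟨_, ⟨w, rfl⟩, c⟩ => ⟨w, c⟩, fun ⟨w, c⟩ => ⟨_, ⟨w, rfl⟩, c⟩⟩
  have l : S ≤ 𝐂₀(ψ T.e) := fun h hh => by
    have k : ∀ w, ψ w * ψ T.e = ψ T.e * ψ w := fun w => by
      rw [← map_mul, ← map_mul, (T.cen w).1]
    obtain ⟨w, rfl | rfl⟩ := (hS' h).1 hh
    exacts [mem_c.2 (k w), mem_c.2 (mul_comm' (k w) F.ge)]
  obtain ⟨S', h'⟩ := exists_isSylowIn 2 𝐂₀(ψ T.e)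
  exact ⟨ψ, i, rfl, rfl, rfl, rfl, rfl, ac, ng, S, h'.of_card_le (IsPGroup.of_card (n := 8) cS) l
    (cS ▸ F.le256 h'.isP h'.le), cS, hS'⟩

theorem rank6 {l : List H} (hn : l.Nodup) (hl : 32 < l.length)
    (h : ∀ w ∈ l, w * w = 1 ∧ w * e = e * w ∧ ∀ v ∈ l, w * v = v * w) : False := by
  obtain ⟨ψ, i, rfl, -, -, -, -, ac, -, S, hS, -, mS⟩ := F.modT
  have co : ∀ p ∈ closure {w | w ∈ l}, ∀ q ∈ closure {w | w ∈ l}, p * q = q * p := fun p hp q hq =>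
    congrArg Subtype.val
      ((closureCommGroupOfComm fun p hp q hq => (h p hp).2.2 q hq).mul_comm ⟨p, hp⟩ ⟨q, hq⟩)
  have sq : ∀ p ∈ closure {w | w ∈ l}, p * p = 1 := fun p hp => by
    induction hp using closure_induction with
    | mem p hp => exact (h p hp).1
    | one => exact mul_one _
    | mul p q hp hq a b =>
      rw [mul_assoc, ← mul_assoc q, ← co p hp q hq, mul_assoc, b, mul_one, a]
    | inv p hp a => rw [← mul_inv_rev, a, inv_one]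
  have ml : ∀ w ∈ l, w ∈ closure {w | w ∈ l} := fun w hw => subset_closure hw
  have pc : closure {w | w ∈ l} ≤ 𝐂₀(ψ T.e) := (closure_le _).2 fun w hw => mem_c.2 (h w hw).2.1
  generalize closure {w | w ∈ l} = P at co sq ml pc
  obtain ⟨k, -, le⟩ := hS.exists_cj_le (R := P)
    (isP_of_pow 1 fun p hp => by rw [pow_one, pow_two, sq p hp]) pc
  let ρ : T.E →* H := (MulAut.conj k⁻¹).toMonoidHom.comp ψ
  have ρi : Function.Injective ρ := (MulAut.conj k⁻¹).injective.comp i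
  have rv : ∀ {w W}, k * w * k⁻¹ = ψ W → ρ W = w := fun c => cj_symm c
  obtain ⟨w0, m0, h0⟩ : ∃ w0 ∈ P, ∀ w ∈ P, (∃ W, ρ W = w) ∨ ∃ W, ρ W = w * w0 := by
    by_cases c : ∀ w ∈ P, ∃ W, ρ W = w
    · exact ⟨1, one_mem _, fun w hw => .inl (c w hw)⟩
    push Not at c
    obtain ⟨w0, m0, c⟩ := c
    refine ⟨w0, m0, fun w hw => ?_⟩
    obtain ⟨W0, d | d⟩ := (mS _).1 (le (cj_mem k m0))
    · exact absurd (rv d) (c W0)
    obtain ⟨W, d' | d'⟩ := (mS _).1 (le (cj_mem k hw))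
    · exact .inl ⟨W, rv d'⟩
    have e1 : k * (w * w0) * k⁻¹ = ψ (W * TS.σ W0) * (g * g) := by
      rw [← conj_mul, d, d', map_mul, ← (ac W0).eq]; group
    rcases F.gg with c' | c' <;> rw [c'] at e1
    · exact .inr ⟨_, rv (e1.trans (mul_one _))⟩
    · exact .inr ⟨_, rv (e1.trans (map_mul _ _ _).symm)⟩
  have mm : ∀ N : List T.E, N.length ≤ 16 → ∃ W, ρ W ∈ P ∧ W ∉ N := fun N hN => by
    by_contra! d
    refine absurd (List.subperm_of_subset hn (l₂ := N.map ρ ++ N.map fun W => ρ W * w0⁻¹)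
      fun w hw => ?_).length_le (by rw [List.length_append, List.length_map, List.length_map]; omega)
    rcases h0 w (ml w hw) with ⟨W, c⟩ | ⟨W, c⟩
    · exact List.mem_append_left _ (List.mem_map.2 ⟨W, d W (c ▸ ml w hw), c⟩)
    · exact List.mem_append_right _ (List.mem_map.2 ⟨W, d W (c ▸ mul_mem (ml w hw) m0),
        by rw [c, mul_inv_cancel_right]⟩)
  have sq' : ∀ {W : T.E}, ρ W ∈ P → W * W = 1 := fun h => ρi (by rw [map_mul, sq _ h, map_one])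
  have co' : ∀ {W V : T.E}, ρ W ∈ P → ρ V ∈ P → W * V = V * W :=
    fun h h' => ρi (by rw [map_mul, co _ h _ h', map_mul])
  obtain ⟨W₁, a1, b1⟩ := mm [1, T.e, T.a * T.a, T.e * (T.a * T.a)] (by simp)
  obtain ⟨W₂, a2, b2⟩ := mm (sp W₁ [1, T.e, T.a * T.a, T.e * (T.a * T.a)]) (by simp [sp])
  obtain ⟨W₃, a3, b3⟩ := mm (sp W₂ (sp W₁ [1, T.e, T.a * T.a, T.e * (T.a * T.a)])) (by simp [sp])
  exact b3 (T.rank W₁ (sq' a1) b1 W₂ (sq' a2) (co' a1 a2) b2 W₃ (sq' a3) (co' a1 a3) (co' a2 a3))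

theorem memD {K : Subgroup H} (he : e ∈ K) (ha : a ∈ K) (hb : b ∈ K) (hs : s ∈ K) (hg : g ∈ K)
    {h : H} (h1 : h * e = e * h) (h2 : h * (a * a) = a * a * h) (h3 : h * (b * b) = b * b * h) :
    h ∈ K := by
  obtain ⟨φ, i, rfl, rfl, rfl, rfl, rfl, rfl, ac, -, hh⟩ := F.mod2
  have k : ∀ w, φ w * (φ E2.b * φ E2.b) = φ E2.b * φ E2.b * φ w → φ w ∈ K := fun w h3 => by
    rw [← E2.inD_of w (i (by simpa only [map_mul] using h3))]
    exact evw_rel (R := fun w (_ : E2.E) => φ w ∈ K) (.cons he (.cons ha (.cons hb (.cons hs .nil))))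
      (l' := [1, 1, 1, 1]) (map_one φ ▸ one_mem K) (fun _ _ _ _ h k => map_mul φ _ _ ▸ mul_mem h k) _ _
  have gv : g * (φ E2.b * φ E2.b) = φ E2.b * φ E2.b * g := by
    simpa only [map_mul] using ((ac _).to o0_sig.2.1).fix
  obtain ⟨w, rfl | rfl⟩ := hh h h1 h2
  · exact k w h3
  · exact mul_mem (k w (by simpa using mul_comm' h3 (inv_comm gv))) hg

theorem iota {f : H} (h1 : f * (a * a) = a * a * f) (h2 : f * (b * b) = b * b * f)
    (h3 : f * (a * s) = a * s * f) (h4 : f * e * f⁻¹ = e * (b * b)) :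
    y * f * y⁻¹ * (a * a) = a * a * (y * f * y⁻¹) ∧ y * f * y⁻¹ * (b * b) = b * b * (y * f * y⁻¹) ∧
    y * f * y⁻¹ * e * (y * f * y⁻¹)⁻¹ = e * (a * s) := by
  obtain ⟨φ, i, rfl, rfl, rfl, rfl, rfl, rfl, h⟩ := F.mod2
  simp only [← map_mul] at h1 h2 h3 h4 ⊢
  have k : ∀ {w w' v v'}, Act φ f w w' → E2.y * w * E2.y⁻¹ = v ∧ E2.y * w' * E2.y⁻¹ = v' →
      Act φ (φ E2.y * f * (φ E2.y)⁻¹) v v' := fun h c => by
    rw [mul_assoc]
    exact ((Act.of_cj φ c.1).symm.trans h).trans (Act.of_cj φ c.2)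
  have h1 := act_of_comm h1
  have h2 := act_of_comm h2
  have h3 := act_of_comm h3
  exact ⟨(k h1 (by decide +kernel)).fix, (k ((h1.mul h2).mul h3) (by decide +kernel)).fix,
    k h4 (by decide +kernel)⟩

theorem ygb : y * (g * b) = g * b * y := by
  obtain ⟨φ, i, rfl, rfl, rfl, rfl, rfl, rfl, ac, -⟩ := F.mod2
  have := congrArg φ o0_sig.2.2
  rw [map_mul, ← (ac _).eq, ← (ac _).eq, map_mul, ← mul_assoc, mul_left_inj] at this
  rw [this, mul_assoc]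

theorem memR {μ κ : ℕ} (P : PQ e a b s u x y p q μ κ) {K : Subgroup H} (he : e ∈ K) (ha : a ∈ K)
    (hb : b ∈ K) (hs : s ∈ K) (hp : p ∈ K) (hq : q ∈ K) (hg : g ∈ K)
    (p1 : p * (a * a) = a * a * p) (p2 : p * (b * b) = b * b * p)
    (q1 : q * (a * a) = a * a * q) (q2 : q * (b * b) = b * b * q) {h : H}
    (h2 : h * (a * a) = a * a * h) (h3 : h * (b * b) = b * b * h)
    (h1 : h * e * h⁻¹ = e ∨ h * e * h⁻¹ = e * (a * a) ∨ h * e * h⁻¹ = e * (b * b) ∨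
      h * e * h⁻¹ = e * (a * a * (b * b))) : h ∈ K := by
  have k : ∀ r ∈ K, r * (a * a) = a * a * r → r * (b * b) = b * b * r → r * e * r⁻¹ = h * e * h⁻¹ →
      h ∈ K := fun r hr c1 c2 c3 => (mul_mem_cancel_left (inv_mem hr)).1 (F.memD he ha hb hs hg
    (cj_iff.1 (cj_trans rfl (cj_symm c3))) (mul_comm' (inv_comm c1) h2) (mul_comm' (inv_comm c2) h3))
  rcases h1 with c | c | c | c
  · exact k 1 (one_mem _) (by simp) (by simp) (by simp [c])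
  · exact k p hp p1 p2 (P.pe.trans c.symm)
  · exact k q hq q1 q2 (P.qe.trans c.symm)
  · exact k (p * q) (mul_mem hp hq) (mul_comm' p1 q1) (mul_comm' p2 q2) (cj_trans P.qe (by
      rw [← conj_mul, P.pe, cj_iff.2 p2, c, mul_assoc]))

theorem nct (D : FD e C n m) : ¬ C (a * a) := by
  intro c
  obtain ⟨ψ, i, rfl, rfl, -, -, -, -, -, S, hS, -, mS⟩ := F.modT
  have pr : IsPGroup 2 ψ.range := hS.isP.to_le (by rintro _ ⟨w, rfl⟩; exact (mS _).2 ⟨w, .inl rfl⟩)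
  obtain ⟨f, -, hf⟩ := D.tr _ c ψ.range pr ⟨T.a * T.a, map_mul _ _ _⟩ (by
    rintro _ ⟨w, rfl⟩
    rw [← map_mul, ← map_mul, ← map_mul, (T.cen w).2])
  let χ : T.E →* H := f.comp ψ.rangeRestrict
  have e1 : χ (T.a * T.a) = ψ T.e := by
    rw [← hf]; exact congrArg f (Subtype.ext (map_mul ψ _ _))
  have k : ∀ w, χ w * ψ T.e = ψ T.e * χ w := fun w => by
    rw [← e1, ← map_mul, ← map_mul, (T.cen w).2]
  have := F.com (k T.a) (k T.s)
  rw [← map_inv, ← map_inv, ← map_mul, ← map_mul, ← map_mul,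
    show T.a * T.s * T.a⁻¹ * T.s⁻¹ = T.a * T.a by decide +kernel, e1] at this
  exact F.eL this

end Fo

end H30.CS
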