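import Mathlib
import Cfsg.Agent.Base
import Cfsg.Agent.Lib.Co3S.O0
import Cfsg.Agent.Lib.Co3S.FE

/-!
# The counting argument with certificates (helper30)
-/

set_option autoImplicit false
set_option linter.unusedSectionVars false

namespace H30.CS

open Subgroup H69 Cfsg H70.TM H30.CM

/-- a witness that `w` is not a conjugate of `e` -/
def Wit {E : Type*} [Group E] (w : E) (l : List E) : Prop :=
  (∀ v ∈ l, v * w = w * v) ∧
    (256 < l.length ∨ 32 < l.length ∧ ∀ v ∈ l, v * v = 1 ∧ ∀ v' ∈ l, v * v' = v' * v)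

instance {E : Type*} [Group E] [DecidableEq E] (w : E) (l : List E) : Decidable (Wit w l) := by
  unfold Wit; infer_instance

variable {H : Type*} [Group H] [Finite H] {L : Subgroup H} {e a b s u x y g : H}
  {C : H → Prop} {n m : ℕ}

theorem Fo.notC (F : Fo L e a b s u x y g) (D : FD e C n m) {E : Type*} [Group E] [Finite E]
    (pE : IsPGroup 2 E) {θ : E →* H} (i : Function.Injective θ) {w : E} {l : List E} (nd : l.Nodup)
    (h : Wit w l) : ¬ C (θ w) := fun c => by
  have mw : w ∈ 𝐂₀(w) := mem_c.2 rfl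
  obtain ⟨f, fi, hf⟩ := D.tr _ c (𝐂₀(w).map θ) ((pE.to_subgroup _).map θ) ⟨w, mw, rfl⟩ (by
    rintro _ ⟨v, hv, rfl⟩
    rw [← map_mul, mem_c.1 hv, map_mul])
  let χ : 𝐂₀(w) →* H := f.comp (θ.subgroupMap _)
  have χi : Function.Injective χ := fi.comp fun p q k => Subtype.ext (i (congrArg Subtype.val k))
  have ce : ∀ v, χ v * e = e * χ v := fun v => by
    rw [← hf, show f ⟨θ w, _⟩ = χ ⟨w, mw⟩ from rfl, ← map_mul, ← map_mul]
    exact congrArg χ (Subtype.ext (mem_c.1 v.2))
  let l' : List 𝐂₀(w) := l.pmap Subtype.mk fun v hv => mem_c.2 (h.1 v hv)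
  have nd' : l'.Nodup := nd.pmap fun _ _ _ _ k => congrArg Subtype.val k
  have ll : l'.length = l.length := List.length_pmap
  have ml : ∀ v ∈ l', (v : E) ∈ l := fun v hv => by
    obtain ⟨_, k, rfl⟩ := List.mem_pmap.1 hv
    exact k
  rcases h.2 with k | ⟨k, k'⟩
  · have := F.le256 (S := χ.range) (by
      rw [MonoidHom.range_eq_map]; exact ((pE.to_subgroup _).to_subgroup _).map χ) (by
      rintro _ ⟨v, rfl⟩; exact mem_c.2 (ce v))
    rw [← Nat.card_congr (MonoidHom.ofInjective χi).toEquiv] at this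
    have := Fintype.ofFinite 𝐂₀(w)
    have := nd'.length_le_card
    rw [← Nat.card_eq_fintype_card] at this
    omega
  · refine F.rank6 (l := l'.map χ) (nd'.map χi) (by rwa [List.length_map, ll])
      (List.forall_mem_map.2 fun v hv => ⟨?_, ce v, List.forall_mem_map.2 fun v' hv' => ?_⟩)
    · rw [← map_mul, show v * v = 1 from Subtype.ext (k' _ (ml v hv)).1, map_one]
    · rw [← map_mul, show v * v' = v' * v from Subtype.ext ((k' _ (ml v hv)).2 _ (ml v' hv')), map_mul]

variable {A K : GT} {α : Fs (El A) (El K)}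

theorem FE.inj' {θ : FE α →* H} (h : Function.Injective (θ.comp (fin α))) {l : List (El A)}
    (f : ∀ k, k ≠ 1 → ∀ r, l.any (fun g => decide (r * α.act k g ≠ g * r)) = true) :
    Function.Injective θ :=
  FE.inj h fun z c => by
    by_contra k
    obtain ⟨g, -, k⟩ := List.any_eq_true.1 (f z.k k z.r)
    have : z.r * α.act z.k g * α.c z.k 1 = g * α.act 1 z.r * α.c 1 z.k := congrArg FE.r (c g)
    rw [α.c2, α.c1, α.one, mul_one, mul_one] at this
    exact of_decide_eq_true k this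

theorem nodup_el {l : List ℕ} (h : l.Nodup ∧ ∀ j ∈ l, idx (el α j) = j) : (l.map (el α)).Nodup :=
  h.1.map_on fun j hj k hk c => by rw [← h.2 j hj, c, h.2 k hk]

/-- a witness given by numbers -/
def WOk (w : FE α) (l : List ℕ) : Prop := (l.Nodup ∧ ∀ j ∈ l, idx (el α j) = j) ∧ Wit w (l.map (el α))

noncomputable instance (w : FE α) (l : List ℕ) : Decidable (WOk w l) := by unfold WOk; infer_instance

/-- a list of conjugates with the conjugating elements -/
def COk (P Q : ℕ) (w : FE α) (l : List (ℕ × ℕ)) : Prop :=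
  ∀ p ∈ l, el α p.2 * el α p.1 * (el α p.2)⁻¹ = w ∧ par P Q (el α p.1) = true ∧ idx (el α p.1) = p.1

noncomputable instance (P Q : ℕ) (w : FE α) (l : List (ℕ × ℕ)) : Decidable (COk P Q w l) := by
  unfold COk; infer_instance

theorem Fo.kill (F : Fo L e a b s u x y g) (D : FD e C n m) (hc : Nat.card (FE α) = 8192)
    {θ : FE α →* H} (i : Function.Injective θ) {P Q : ℕ} (hP : POk α P Q) {w : FE α}
    (h0 : θ w = e) {W : List (FE α)} (hW : ∀ z ∈ W, ¬ C (θ z)) {Y : List (ℕ × ℕ)}
    {LL : List (ℕ × List ℕ × List (ℕ × ℕ))}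
    (ok : par P Q w = true ∧ COk P Q w Y ∧ Y.length = 32 ∧ (∀ c ∈ LL, COk P Q (el α c.1) c.2.2 ∧
      (c.2.2.length = 64 ∨ el α c.1 ∈ W ∨ WOk (el α c.1) c.2.1)) ∧
      ((Y ++ (LL.map (·.2.2)).flatten).map (·.1)).Nodup)
    (cov : ∀ z : FE α, par P Q z = true → z * z = 1 →
      idx z ∈ (Y ++ (LL.map (·.2.2)).flatten).map (·.1)) : False := by
  obtain ⟨o1, o2, o3, o4, o5⟩ := ok
  obtain ⟨M, hM, mM⟩ := hP.sub o1
  have pE : IsPGroup 2 (FE α) := IsPGroup.of_card (n := 13) hc
  have cj : ∀ {w l}, COk P Q w l → ∀ z ∈ l.map (fun p => el α p.1), C (θ z) ↔ C (θ w) := fun {w l} h =>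
    List.forall_mem_map.2 fun p hp => by
      rw [← (h p hp).1, map_mul, map_mul, map_inv]
      exact ⟨fun c => D.cj _ _ c, fun c => by simpa [mul_assoc] using D.cj _ (θ (el α p.2))⁻¹ c⟩
  have e1 : Y.map (fun p => el α p.1) ++ (LL.map fun c => c.2.2.map fun p => el α p.1).flatten =
      ((Y ++ (LL.map (·.2.2)).flatten).map (·.1)).map (el α) := by
    simp only [List.map_append, List.map_flatten, List.map_map, Function.comp_def]
  have pm : ∀ p ∈ Y ++ (LL.map (·.2.2)).flatten, par P Q (el α p.1) = true ∧ idx (el α p.1) = p.1 :=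
    fun p hp => by
      rcases List.mem_append.1 hp with k | k
      · exact (o2 p k).2
      · obtain ⟨_, k, k'⟩ := List.mem_flatten.1 k
        obtain ⟨c, k1, rfl⟩ := List.mem_map.1 k
        exact ((o4 c k1).1 p k').2
  refine CS.kill D F.c1 hc hM i (Y := Y.map fun p => el α p.1)
    (LL := LL.map fun c => c.2.2.map fun p => el α p.1)
    (e1 ▸ nodup_el ⟨o5, List.forall_mem_map.2 fun p hp => (pm p hp).2⟩) (by rw [List.length_map, o3])
    (fun z h1 h2 => e1 ▸ el_idx z ▸ List.mem_map_of_mem (cov z ((mM z).1 h1) h2))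
    (e1 ▸ List.forall_mem_map.2 (List.forall_mem_map.2 fun p hp => (mM _).2 (pm p hp).1))
    (fun z hz => (cj o2 z hz).2 (h0 ▸ D.self)) (List.forall_mem_map.2 fun c hc => ?_)
  obtain ⟨k1, k2⟩ := o4 c hc
  by_cases k : C (θ (el α c.1))
  · rcases k2 with k2 | k2 | k2
    · exact .inr ⟨by rw [List.length_map, k2], fun z hz => (cj k1 z hz).2 k⟩
    · exact absurd k (hW _ k2)
    · exact absurd k (F.notC D pE i (nodup_el k2.1) k2.2)
  · exact .inl fun z hz c => k ((cj k1 z hz).1 c)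

theorem eqns_CSKL : True := by
  have := @Wit.eq_1.{0}
  have := @WOk.eq_1
  have := @COk.eq_1
  trivial

end H30.CS
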