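import Mathlib
import Cfsg.Agent.Base
import Cfsg.Agent.Lib.Co3S.B10
import Cfsg.Agent.Lib.Co3S.B11
import Cfsg.Agent.Lib.Co3S.TZ1
import Cfsg.Agent.Lib.Co3S.TZ2
import Cfsg.Agent.Lib.Co3S.TZ3
import Cfsg.Agent.Lib.Co3S.TZ4
import Cfsg.Agent.Lib.Co3S.TZ5
import Cfsg.Agent.Lib.Co3S.TZ6

/-!
# The outer case does not occur (helper30)
-/

set_option autoImplicit false
set_option maxRecDepth 100000

namespace H30.CM

open Subgroup H69 Cfsg H70.TM H30.CS

variable {H : Type*} [Group H] [Finite H] {L : Subgroup H} {u x y : H} {C : H → Prop} {n m : ℕ}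

namespace S00

theorem flt {ψ : E →* H} (F : Pre L ψ u x y) {i : H} (X : IX i u x) {k : ℕ} {r : E}
    (h : (i * (x * (i * x⁻¹))) ^ k = ψ r) : gu (gx r) = (gx r)⁻¹ := inj F (by
  have := X.un k
  rwa [h, (ax F r).eq, (au F _).eq, ← map_inv] at this)

theorem kill {ψ : E →* H} (F : Pre L ψ u x y) (D : FD (ψ e) C n m) : False := by
  obtain ⟨k1, k2, B, Q, l, o⟩ := opt F
  generalize y * ψ q * y⁻¹ = i at k1 k2 l
  rw [map_one, mul_one, cj_iff] at k1
  have X : IX i u x := ⟨k2.trans (map_one ψ), u2 F, k1, F.fo.x3, F.fo.ux⟩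
  have hi := act_ap l
  have hj := fun r => ((aX F r).trans (hi _)).trans (ax F _)
  have h2 := fun r => (hj r).trans (hi _)
  have hw := fun r => (h2 r).trans (h2 _)
  have zu : ∀ {r r'}, i * (x * (i * x⁻¹)) * (i * (x * (i * x⁻¹))) = ψ r → gx r = r' →
      (x * (i * x⁻¹))⁻¹ * u * (x * (i * x⁻¹)) * u * ((x * (i * x⁻¹))⁻¹ * u * (x * (i * x⁻¹)) * u) =
        ψ r' := fun h c => by rw [X.r0, conj_mul, h, (ax F _).eq, c]
  have zz := X.jj.trans (map_one ψ).symm
  rcases o with ⟨rfl, rfl⟩ | ⟨rfl, rfl⟩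
  · obtain ⟨z, hz, c⟩ := cenR F hw (q * p) (by decide +kernel)
    have f := flt F X ((pow_two _).trans c)
    rcases hz with rfl | rfl | rfl | rfl
    · exact Z1.kill F D (fa hi (by decide +kernel)) (fa hj (by decide +kernel)) X.ii k1 zz
        (c.trans (congrArg ψ (by decide +kernel))) (zu c (by decide +kernel))
    · exact absurd f (by decide +kernel)
    · exact absurd f (by decide +kernel)
    · exact Z2.kill F D (fa hi (by decide +kernel)) (fa hj (by decide +kernel)) X.ii k1 zz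
        (c.trans (congrArg ψ (by decide +kernel))) (zu c (by decide +kernel))
  · obtain ⟨z, hz, c⟩ := cenR F hw 1 (by decide +kernel)
    have f := flt F X ((pow_two _).trans c)
    rcases hz with rfl | rfl | rfl | rfl
    · exact Z3.kill F D (fa hi (by decide +kernel)) (fa hj (by decide +kernel)) X.ii k1 zz
        (c.trans (congrArg ψ (by decide +kernel))) (zu c (by decide +kernel))
    · exact absurd f (by decide +kernel)
    · exact absurd f (by decide +kernel)
    · exact Z4.kill F D (fa hi (by decide +kernel)) (fa hj (by decide +kernel)) X.ii k1 zz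
        (c.trans (congrArg ψ (by decide +kernel))) (zu c (by decide +kernel))

end S00

namespace S01

theorem flt {ψ : E →* H} (F : Pre L ψ u x y) {i : H} (X : IX i u x) {k : ℕ} {r : E}
    (h : (i * (x * (i * x⁻¹))) ^ k = ψ r) : gu (gx r) = (gx r)⁻¹ := inj F (by
  have := X.un k
  rwa [h, (ax F r).eq, (au F _).eq, ← map_inv] at this)

set_option synthInstance.maxSize 1000 in
theorem ninn : ∀ r : E, r * e * r⁻¹ = b * b * e → r * a * r⁻¹ = b * b * a * a * a →
    r * b * r⁻¹ = b * b * b → r * s * r⁻¹ = s * b * b → r * p * r⁻¹ = p → r * q * r⁻¹ = q →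
    r * g * r⁻¹ ≠ g * a * a := by
  decide +kernel

theorem kill {ψ : E →* H} (F : Pre L ψ u x y) (D : FD (ψ e) C n m) : False := by
  obtain ⟨k1, k2, B, Q, l, o⟩ := opt F
  obtain ⟨i, yq⟩ : ∃ i, y * ψ q * y⁻¹ = i * ψ e :=
    ⟨_, (inv_mul_cancel_right _ _).symm⟩
  have ie : i = y * ψ q * y⁻¹ * ψ e := by rw [yq, mul_assoc, F.fo.ee, mul_one]
  have hi : ∀ r, Act ψ i r _ := fun r => ie ▸ (Act.self ψ e r).trans (act_ap l _)
  rw [map_one, mul_one, cj_iff] at k1
  have iu : i * u = u * i := ie ▸ mul_comm' k1 (F.fo.Le u F.fo.uL).symm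
  have ii : i * i = 1 := by
    have : Act ψ (y * ψ q * y⁻¹) e (a * s * e) := (List.forall₂_cons.1 l).1
    rw [ie, mul_assoc, ← mul_assoc (ψ e), ← mul_assoc, ← mul_assoc, eq_mul_of_mul_inv_eq this,
      mul_assoc (ψ _), k2, ← map_mul, ← map_mul]
    exact (congrArg ψ (by decide +kernel)).trans (map_one ψ)
  have X : IX i u x := ⟨ii, u2 F, iu, F.fo.x3, F.fo.ux⟩
  have cj : ∀ {j : H} {f : E → E}, (∀ r, Act ψ j r (f r)) →
      (∀ r, Act ψ (x * (j * x⁻¹)) r (gx (f (gX r)))) ∧ ∀ r, Act ψ (x⁻¹ * (j * x)) r (gX (f (gx r))) :=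
    fun h => ⟨fun r => ((aX F r).trans (h _)).trans (ax F _),
      fun r => ((ax F r).trans (h _)).trans (aX F _)⟩
  obtain ⟨hj, hk⟩ := cj hi
  rcases o with ⟨rfl, rfl⟩ | ⟨rfl, rfl⟩
  · have h3 := fun r => ((hk r).trans (hj _)).trans (hi _)
    have h6 := fun r => (h3 r).trans (h3 _)
    obtain ⟨r, hr⟩ := memR F (z := b * b) ((h6 _).to (by decide +kernel)) ((h6 _).to (by decide +kernel))
      ((h6 _).to (by decide +kernel)) (by simp)
    rw [← hr] at h6
    have k := fun w => act_map (inj F) (h6 w)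
    exact ninn r ((k e).trans (by decide +kernel)) ((k a).trans (by decide +kernel))
      ((k b).trans (by decide +kernel)) ((k s).trans (by decide +kernel))
      ((k p).trans (by decide +kernel)) ((k q).trans (by decide +kernel))
      ((k g).trans (by decide +kernel))
  · have h2 := fun r => (hj r).trans (hi _)
    have hz := fun r => ((h2 r).trans (h2 _)).trans (h2 _)
    rw [← pow_three] at hz
    have r1 := X.r1 3
    have r2 := X.r2 3
    have f := fun r => flt F X (k := 3 + 3) (r := r)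
    rw [pow_add] at f
    generalize (i * (x * (i * x⁻¹))) ^ 3 = z at hz r1 r2 f
    replace hz := act_ap (fa hz (l := [e, a, b, s, p, q, g])
      (l' := [q * p * e, b * b * a, b * a * a, s, p * b * b, q * a * a, g]) (by decide +kernel))
    obtain ⟨h1, h2⟩ := cj hz
    obtain ⟨v, hv, c⟩ := cenR F (fun r => (hz r).trans (hz _)) 1 (by decide +kernel)
    obtain ⟨w, hw, d⟩ := cenR F (fun r => ((h2 r).trans (h1 _)).trans (hz _)) 1 (by decide +kernel)
    have e1 : z * (x * (z * (x * (z * x⁻¹) * (x⁻¹ * (z * x))) * x⁻¹)) * z⁻¹ =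
        z * (x * (z * x⁻¹) * (x⁻¹ * (z * x))) := by
      rw [show z * (x * (z * (x * (z * x⁻¹) * (x⁻¹ * (z * x))) * x⁻¹)) * z⁻¹ =
        z * (x * (z * (x * x * x * x⁻¹ * x⁻¹) * (z * (x * (x * x * x)⁻¹)))) by group, F.fo.x3]
      group
    rw [d, ← mul_assoc x, (ax F _).eq] at e1
    have w1 : 1 * w = 1 := by
      have := act_inj (inj F) (hz _) e1
      rcases hw with rfl | rfl | rfl | rfl
      · exact mul_one _
      all_goals exact absurd this (by decide +kernel)
    rw [w1, map_one, r2, ← mul_assoc, mul_inv_eq_one] at d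
    have zu : ∀ {r'}, gx (1 * v) = r' → z⁻¹ * u * z * u * (z⁻¹ * u * z * u) = ψ r' := fun k => by
      rw [mul_assoc z⁻¹, mul_assoc z⁻¹, ← d, inv_mul_cancel_left, ← mul_assoc x, conj_mul, c,
        (ax F _).eq, k]
    have f := f _ c
    have iz := r1.trans (map_one ψ).symm
    rcases hv with rfl | rfl | rfl | rfl
    · exact Z5.kill F D (fa hi (by decide +kernel)) (fa hz (by decide +kernel)) ii iu
        (c.trans (congrArg ψ (by decide +kernel))) iz (zu (by decide +kernel)) yq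
    · exact absurd f (by decide +kernel)
    · exact absurd f (by decide +kernel)
    · exact Z6.kill F D (fa hi (by decide +kernel)) (fa hz (by decide +kernel)) ii iu
        (c.trans (congrArg ψ (by decide +kernel))) iz (zu (by decide +kernel)) yq

end S01

end H30.CM

namespace H30.CS

open Subgroup H69 Cfsg H70.TM H30.CM

theorem OQ.kill {H : Type*} [Group H] [Finite H] {L : Subgroup H} {e a b s u x y g p q : H}
    {C : H → Prop} {n m μ κ : ℕ} (F : OQ L e a b s u x y g p q μ κ) (hμ : μ ∈ [0, 1])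
    (hκ : κ ∈ [0, 1]) (D : FD e C n m) : False := by
  simp only [List.mem_cons, List.not_mem_nil, or_false] at hμ hκ
  rcases hμ with rfl | rfl <;> rcases hκ with rfl | rfl
  · obtain ⟨ψ, rfl, rfl, rfl, rfl, rfl, rfl, rfl⟩ := S00.exists_pre F
    exact S00.kill F D
  · obtain ⟨ψ, rfl, rfl, rfl, rfl, rfl, rfl, rfl⟩ := S01.exists_pre F
    exact S01.kill F D
  · obtain ⟨ψ, rfl, rfl, rfl, rfl, rfl, rfl, rfl⟩ := S10.exists_pre F
    exact let ⟨_, _, _, _, _, h⟩ := S10.opt F; h
  · obtain ⟨ψ, rfl, rfl, rfl, rfl, rfl, rfl, rfl⟩ := S11.exists_pre F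
    exact let ⟨_, _, _, _, _, h⟩ := S11.opt F; h

end H30.CS
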