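import Mathlib
import Cfsg.Agent.Base
import Cfsg.Agent.Lib.Co3S.Defs
import Cfsg.Agent.Lib.Golay.Out
import Cfsg.Agent.Lib.M24Geom.ClsM12

/-! The automorphism group of `M₁₂` as a model of the configuration `MX0`. -/

set_option autoImplicit false
set_option maxRecDepth 100000
set_option linter.unusedSectionVars false

namespace H30.CS

open Subgroup H69 Cfsg H70.TM H30.CM

namespace Mod1

open H18.TC H96.Geo

noncomputable def ch_6 : H54.Chain := .nil
noncomputable def ch_t5 : H54.Tr :=
 (.node 5 (.leaf 0x80298404010a12080008000000080010518000802100050010000005000100000014)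
 (.leaf 0x14000000000014))
noncomputable def ch_5 : H54.Chain := .cons 20 0x100020 ch_t5
  [0xbdaa57196d7ce0c89d0954a8219020]
  [] ch_6
noncomputable def ch_t4 : H54.Tr :=
 (.node 19 (.node 14 (.node 5 (.leaf 0x2200000200464212a428002b0c004104a0000102000c52408410184c00005000201000014)
 (.leaf 0x2210804000c40010050d88020000410400012400c0040018244010c00000e000200000014))
 (.node 15 (.leaf 0x200080000020010a4208c62000000048004000200000210805208400000f000101000015)
 (.leaf 0x800080040000a1098c098000000082010410000402080432518000013000300000005)))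
 (.node 21 (.node 20 (.leaf 0x2010080210470002a1298023000040002004010a080412480061004000014000100000015)
 (.leaf 0x15000000000015))
 (.node 24 (.leaf 0x2010080210470002a1298023000040002004010a080412480061004000018000000000000)
 (.leaf 0x200080000020010a4208c620000000480040002000002108052084000019000000000000))))
noncomputable def ch_4 : H54.Chain := .cons 21 0x38c020 ch_t4
  [0xbda8e7a0ed2d4925c46c5267030820, 0xbd9e5998e4ab84352d288ca9063420]
  [[24, 20, 14, 15, 20, 20, 15, 25]] ch_5
noncomputable def ch_t3 : H54.Tr :=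
 (.node 4 (.node 0 (.leaf 0)
 (.node 2 (.leaf 0x2010800298004000852880401c10400420050510000802580443502200002000100000000)
 (.leaf 0x80040002250080600400000080010418000410180420002880004000201000002)))
 (.node 16 (.node 13 (.leaf 0xc80208000212a420880a14004004a205001000045208007059c28000d000200000002)
 (.leaf 0x20008800080002120001806b90004104a0050110000452588451404a8001000030000000d))
 (.node 24 (.leaf 0x2010800298004000852880401c10400420050510000802580443502200018000000000000)
 (.leaf 0x4000880242008420884010f0410082010510000840580060006a00019000000000000))))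
noncomputable def ch_3 : H54.Chain := .cons 0 73749 ch_t3
  [0xbd9c7a8d645460c996497a28033422, 0xbd94788cad754067ad329a29061022]
  [[13, 16, 0, 24, 13, 4, 13], [4, 2, 16, 25, 4, 16, 25, 4, 13]] ch_4
noncomputable def ch_t2 : H54.Tr :=
 (.node 15 (.node 10 (.node 5 (.leaf 0x21080421844021225200c408080400402010410400452080411104000005000300000013)
 (.node 7 (.leaf 0x10004008c202008520886b84a001000201010840044240001049c88000700040100000a)
 (.leaf 0x8002104400100100044800500000000004000000520a807208208000a000301000013)))
 (.node 11 (.leaf 0x10884018064010850900290c204100a00501084808020aa43311c48000b00030000000f)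
 (.node 14 (.leaf 0x1000001043020084080c4b844001002000010200001258805250680000e000100000016)
 (.leaf 0x2104840008400100005086100f000008004240a80004208a40140608000f00020100000e))))
 (.node 20 (.node 17 (.leaf 0x2210000010800210800c08210ce0400400000012000412182073008480011000501000015)
 (.node 19 (.leaf 0x2000000200004002a401042014e04104a0012010000c0042002040620001300020000000e)
 (.leaf 0x20104842108442022401040380a04100a0042112400c40520011418000014000401000005)))
 (.node 22 (.node 21 (.leaf 0x20008000007000004250c0398800100800400020800400a002049260001500040100000b)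
 (.leaf 0x16000000000016))
 (.node 24 (.leaf 0x1000001043020084080c4b8440010020000102000012588052506800018000000000000)
 (.leaf 0x10000288044000050d00009000410420010408000800082411010a80019000000000000)))))
noncomputable def ch_2 : H54.Chain := .cons 22 0x7acca0 ch_t2
  [0xbb8f52ca235ce09a58cd7814c12024, 0xbda2b530a49bc06a9d12726821b430]
  [[7, 20, 17, 15, 10], [25, 11, 25, 15, 24, 19]] ch_3
noncomputable def ch_t1 : H54.Tr :=
 (.node 8 (.node 2 (.node 0 (.leaf 0x884210844202a42900488040010080052002000c02508010008280000000400000012)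
 (.node 1 (.leaf 0x1000000000001)
 (.leaf 0x200004208024202200080630c60000000012118880c520a006148a080002000500000006)))
 (.node 4 (.node 3 (.leaf 0x2200000080804000012d040b842041000201010ac8081208043201880000300020100000c)
 (.leaf 0x10804280c44210810d0c6804800000a205241240080218041050e00000400030000000d))
 (.node 6 (.leaf 0x2200000200c20212052488021c60410422002102080452082432004200006000401000004)
 (.leaf 0x210880200c14010a528046090c0410400052502800c0050a030084200008000600000002))))
 (.node 13 (.node 9 (.leaf 0x21080009040421080090421908041040005210a080802182013102600009000501000000)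
 (.node 12 (.leaf 0x100842180342008401886014b0010002002112400c4208046000e00000c000101000001)
 (.leaf 0x1000020007000081088402804001000000041200040018002148820000d00020000000c)))
 (.node 18 (.node 16 (.leaf 0x200004010810012a00004609c8041042001210248041212a412404e00010000301000003)
 (.leaf 0x20000021084000280018040147040042200251a000442428010592200012000300000003))
 (.node 24 (.leaf 0x2000880208c00200002c0860004040042005251808040048200110c000018000000000000)
 (.leaf 0x100842180342008401886014b0010002002112400c4208046000e000019000000000000)))))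
noncomputable def ch_1 : H54.Chain := .cons 1 340831 ch_t1
  [0xbbad1a02705d48d53d26388ac92023, 0xbc4a7736c0ad0839a9027c96680589]
  [[25, 6, 24, 0, 6, 4, 4], [4, 25, 25, 25, 0]] ch_2
noncomputable def ch_t0 : H54.Tr :=
 (.node 17 (.node 10 (.node 5 (.leaf 0x2210080010c44002812188489400400020000402000c5240001141428000500030400000a)
 (.node 7 (.leaf 0x210084010424202212108490490400022002512800c52480031502200007000104000017)
 (.leaf 0x100800804040000008082110100100a0050400880c0000000110a08000a00020000000b)))
 (.node 14 (.node 11 (.leaf 0xc04210050210010c844a18400100a200040240080218205210440000b000100000017)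
 (.leaf 0x200800010c002008008046188e040002205050a80004018204348880000e00020400000b))
 (.node 15 (.leaf 0x80000800021020098023141041000001251008084208004010e08000f000101000017)
 (.leaf 0x2000084218c442000029880100c0410002052002400c4000802040200001100020400000f))))
 (.node 22 (.node 20 (.node 19 (.leaf 0x840188400020421006310d0010082050402400c42580001402000013000103000017)
 (.leaf 0x108840108400000124804204c00000a204051a4004400a2061084880014000105000017))
 (.node 21 (.leaf 0x100040888600100009886100f0410402012010c008401aa44051e20001500030300000a)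
 (.leaf 0x80010c2400080218c03948000000205050a48084018044340e80001600020300000b)))
 (.node 24 (.node 23 (.leaf 0x17000000000017)
 (.leaf 0xc04210050210010c844a18400100a2000402400802182052104400018000000000000))
 (.node 26 (.leaf 0x20008000000340100429880210a04004800400128004401a201049080001a000000000000)
 (.leaf 0x108840108400000124804204c00000a204051a4004400a206108488001d000000000000)))))
noncomputable def ch_0 : H54.Chain := .cons 23 0xfacca0 ch_t0
  [0x5d693b0a29bb88d53e06380a144983, 0x7dab49c0e25148dbae4070e2132588, 0x7d6d3a24e2b948152e468a1cd04183, 0x9ad4fb88a9a1c06b5601732232490d, 0x3ddea59aa08cd227150db129260e01, 0xa5553bc0a27b9a85d9268b0e024823]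
  [[24, 23, 19, 17, 29, 23, 26, 5], [29, 17, 24, 7]] ch_1
noncomputable def ch : H54.Chain := ch_0

noncomputable def zt_6 : H54.Chain := .nil
noncomputable def zt_t5 : H54.Tr :=
 (.leaf 0x14000000000014)
noncomputable def zt_5 : H54.Chain := .cons 20 0x100000 zt_t5
  []
  [] zt_6
noncomputable def zt_t4 : H54.Tr :=
 (.leaf 0x15000000000015)
noncomputable def zt_4 : H54.Chain := .cons 21 0x200000 zt_t4
  []
  [] zt_5
noncomputable def zt_t3 : H54.Tr :=
 (.leaf 0)
noncomputable def zt_3 : H54.Chain := .cons 0 1 zt_t3
  []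
  [] zt_4
noncomputable def zt_t2 : H54.Tr :=
 (.node 20 (.node 19 (.leaf 0x201000009840400000040c000020410400050500880810082003000000013000101000016)
 (.leaf 0x200800208c0000200288c410050400400000500c004004a2443082080014000100000016))
 (.node 21 (.leaf 0x480010c3400220008822004001008205041a400c10480041104000015000201000014)
 (.leaf 0x16000000000016)))
noncomputable def zt_2 : H54.Chain := .cons 22 0x780000 zt_t2
  [0xbd276a89c97c5ac5aa0028ce434828, 0xbce95b49c95c5a47aa063a0ac00823]
  [] zt_3
noncomputable def zt_t1 : H54.Tr :=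
 (.node 6 (.node 1 (.node 0 (.leaf 0x208c24002a1210c600000400080000500480c10522423180080000000300000006)
 (.leaf 0x1000000000001))
 (.node 3 (.leaf 0x2200800210c0000025018c4b0820410402010008c8001200a45351e480003000101000001)
 (.leaf 0x4298400210a00580020c200100a0012010800452080030594a0000600020100000d)))
 (.node 13 (.node 8 (.leaf 0x10c00018404012a00180621040400082010418800c12580040084280008000200000003)
 (.leaf 0x8800984402100401086090c00004800505188800401aa01259000000d000100000001))
 (.node 24 (.leaf 0x8800984402100401086090c00004800505188800401aa012590000018000000000000)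
 (.leaf 0x2200800210c0000025018c4b0820410402010008c8001200a45351e480019000000000000))))
noncomputable def zt_1 : H54.Chain := .cons 1 8523 zt_t1
  [0xbced5a40a279c245aa46881cc425a3, 0xbd9f4589d2994c4aaa00884ec6a468]
  [[1, 25, 24, 1, 1, 24, 1, 3], [25, 25, 24, 24, 13]] zt_2
noncomputable def zt_t0 : H54.Tr :=
 (.node 20 (.node 11 (.node 10 (.leaf 0x2000800098000012852108008060400480050400000c5058801159000000a00020000000b)
 (.leaf 0x21080420080021005018c6180e040040000041240085210a47000868000b000101000017))
 (.node 15 (.leaf 0x200080000c20200050d00628040410080010402800c4018a00010488000f00030100000a)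
 (.node 19 (.leaf 0x210800088040012052404030000400080050100000c12080020588000013000201000015)
 (.leaf 0x20088409800021004010001149001008005240808040200802000a00001400020100000b))))
 (.node 22 (.node 21 (.leaf 0x2200000210054212a1018c2208404100a0000402000452402452584400015000100000017)
 (.leaf 0x200c00010c24000a1080840888000048000040a0808521a0411110400016000200000015))
 (.node 23 (.leaf 0x17000000000017)
 (.node 24 (.leaf 0x2200000210054212a1018c2208404100a0000402000452402452584400018000000000000)
 (.leaf 0x21080420080021005018c6180e040040000041240085210a470008680019000000000000)))))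
noncomputable def zt_0 : H54.Chain := .cons 23 0xf88c00 zt_t0
  [0xaaecfa08b2bb98654e0d3822342481, 0x5de6aaa632b1d0da3e0428dc13080c]
  [[25, 11, 23, 22, 25, 10, 22], [23, 24, 22, 24, 25, 22, 10]] zt_1
noncomputable def zt : H54.Chain := zt_0

noncomputable def zs_6 : H54.Chain := .nil
noncomputable def zs_t5 : H54.Tr :=
 (.node 5 (.leaf 0x80298404010a12080008000000080010518000802100050010000005000100000014)
 (.leaf 0x14000000000014))
noncomputable def zs_5 : H54.Chain := .cons 20 0x100020 zs_t5
  [0xbdaa57196d7ce0c89d0954a8219020]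
  [] zs_6
noncomputable def zs_t4 : H54.Tr :=
 (.node 21 (.leaf 0x15000000000015)
 (.leaf 0x80298404010a12080008000000080010518000802100050010000018000000000000))
noncomputable def zs_4 : H54.Chain := .cons 21 0x200000 zs_t4
  [0xbdaa57196d7ce0c89d0954a8219020]
  [[24]] zs_5
noncomputable def zs_t3 : H54.Tr :=
 (.node 0 (.leaf 0)
 (.leaf 0x80298404010a12080008000000080010518000802100050010000018000000000000))
noncomputable def zs_3 : H54.Chain := .cons 0 1 zs_t3
  [0xbdaa57196d7ce0c89d0954a8219020]
  [[24]] zs_4
noncomputable def zs_t2 : H54.Tr :=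
 (.node 10 (.node 5 (.leaf 0x210c04010004000a0290820006041008001200a000c00500421000000005000200000014)
 (.node 7 (.leaf 0x21000421840421201018808840000002200251a800c52000071410880007000300000005)
 (.leaf 0x210484218000212a40108011c0000008005051800041208841051428000a000100000016)))
 (.node 22 (.node 20 (.leaf 0x200800208c0000200288c410050400400000500c004004a2443082080014000101000016)
 (.leaf 0x16000000000016))
 (.node 24 (.leaf 0x210484218000212a40108011c00000080050518000412088410514280018000000000000)
 (.leaf 0x200800208c0000200288c410050400400000500c004004a2443082080019000000000000))))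
noncomputable def zs_2 : H54.Chain := .cons 22 0x5004a0 zs_t2
  [0xba96570aa07c50c9d209b48e620c2d, 0xbd276a89c97c5ac5aa0028ce434828]
  [[25, 24, 7, 22, 24, 20]] zs_3
noncomputable def zs_t1 : H54.Tr :=
 (.node 12 (.node 1 (.leaf 0x1000000000001)
 (.leaf 0x100800000440002128080018b04100a0000000080c4040040240a88000c000100000001))
 (.node 24 (.leaf 0x100800000440002128080018b04100a0000000080c4040040240a880018000000000000)
 (.leaf 0x480280004200a12080201470000082010510080800580441402200019000000000000)))
noncomputable def zs_1 : H54.Chain := .cons 1 4098 zs_t1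
  [0xbd26a5a6a37b84189e44b34b040186, 0xb95d49c1647c461ad846520e04b592]
  [[24, 25, 25, 12], [1, 1, 25, 12]] zs_2
noncomputable def zs_t0 : H54.Tr :=
 (.node 17 (.node 10 (.node 5 (.leaf 0x2000080210c24010010480001020410402000108c80c02082001002000005000501000015)
 (.node 7 (.leaf 0x22000002108240100005080000204100020405084004020a204000220000700030100000b)
 (.leaf 0x200000020840400200288c011000410000000100880c004a245300800000a000401000011)))
 (.node 14 (.node 11 (.leaf 0x2200880010400212a50180020c40400480042402080c5018045218c08000b000200000013)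
 (.leaf 0x22000800904640120421804b9000400480012110000c0210001100408000e000501000016))
 (.node 15 (.leaf 0x2010804000040202212880409cb0410402000508080c4048807251680000f000601000014)
 (.leaf 0x10c04008c44000a128882a9ca0000480052402c0041240843219028001100030000000b))))
 (.node 21 (.node 19 (.leaf 0x2210000080840000202900210c6041008005251a800400080472002000013000101000017)
 (.node 20 (.leaf 0x220088021086401000298860087041040200051240045210a04241a880014000500000016)
 (.leaf 0x1000021047000081008c299c8041008000041a08000000a072492c00015000400000011)))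
 (.node 23 (.node 22 (.leaf 0x10800200440000810484628060400080000500c008020a0410484080016000400000007)
 (.leaf 0x17000000000017))
 (.node 24 (.leaf 0x100800000440002128080018b04100a0000000080c4040040240a880018000000000000)
 (.leaf 0x2210000080840000202900210c6041008005251a800400080472002000019000000000000)))))
noncomputable def zs_0 : H54.Chain := .cons 23 0xfacca0 zs_t0
  [0xbd26a5a6a37b84189e44b34b040186, 0x9b8afb8d4da5a063c4015b2a291109]
  [[21, 15, 15, 25, 19, 5, 11], [24, 25, 20, 10, 11, 23]] zs_1
noncomputable def zs : H54.Chain := zs_0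

noncomputable def zg_6 : H54.Chain := .nil
noncomputable def zg_t5 : H54.Tr :=
 (.node 5 (.leaf 0x80298404010a12080008000000080010518000802100050010000005000100000014)
 (.leaf 0x14000000000014))
noncomputable def zg_5 : H54.Chain := .cons 20 0x100020 zg_t5
  [0xbdaa57196d7ce0c89d0954a8219020]
  [] zg_6
noncomputable def zg_t4 : H54.Tr :=
 (.node 21 (.leaf 0x15000000000015)
 (.leaf 0x80298404010a12080008000000080010518000802100050010000018000000000000))
noncomputable def zg_4 : H54.Chain := .cons 21 0x200000 zg_t4
  [0xbdaa57196d7ce0c89d0954a8219020]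
  [[24]] zg_5
noncomputable def zg_t3 : H54.Tr :=
 (.node 0 (.leaf 0)
 (.leaf 0x80298404010a12080008000000080010518000802100050010000018000000000000))
noncomputable def zg_3 : H54.Chain := .cons 0 1 zg_t3
  [0xbdaa57196d7ce0c89d0954a8219020]
  [[24]] zg_4
noncomputable def zg_t2 : H54.Tr :=
 (.node 10 (.node 5 (.leaf 0x210c04010004000a0290820006041008001200a000c00500421000000005000300000014)
 (.node 7 (.leaf 0x21000421840421201018808840000002200251a800c5200007141088000700020000000a)
 (.leaf 0x210484218000212a40108011c0000008005051800041208841051428000a000101000016)))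
 (.node 20 (.leaf 0x2104840180000008129082894204100a005001800000048005011c20001400020100000a)
 (.node 22 (.leaf 0x16000000000016)
 (.leaf 0x80298404010a12080008000000080010518000802100050010000018000000000000))))
noncomputable def zg_2 : H54.Chain := .cons 22 0x5004a0 zg_t2
  [0xbdaa57196d7ce0c89d0954a8219020, 0xba96570aa07c50c9d209b48e620c2d]
  [[24]] zg_3
noncomputable def zg_t1 : H54.Tr :=
 (.node 1 (.leaf 0x1000000000001)
 (.node 24 (.leaf 0x80298404010a12080008000000080010518000802100050010000018000000000000)
 (.leaf 0x210484218000212a40108011c00000080050518000412088410514280019000000000000)))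
noncomputable def zg_1 : H54.Chain := .cons 1 2 zg_t1
  [0xbdaa57196d7ce0c89d0954a8219020, 0xba96570aa07c50c9d209b48e620c2d]
  [[24], [25]] zg_2
noncomputable def zg_t0 : H54.Tr :=
 (.node 17 (.node 10 (.node 5 (.leaf 0x800104240022420886314e04000a20025028004524a040100e20000500020100000f)
 (.node 7 (.leaf 0x2000880208c442022100086884a0410400050410c00c5018047141008000700040000000b)
 (.leaf 0x200884280c400020021006110b000000001201240045200002040a00000a00020100000e)))
 (.node 14 (.node 11 (.leaf 0x201080020042421284218c0004404004a205041080044018844010608000b000301000005)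
 (.leaf 0x2200000098c0000020088c239cc040000201250a40040050a03040840000e000101000017))
 (.node 15 (.leaf 0x200804080054010000888021ca000048005210a0004401aa47048880000f000100000017)
 (.leaf 0x210084290844200a12900000cf001002005211a08041040847318a20001100030000000a))))
 (.node 21 (.node 19 (.leaf 0x200c0028080000225298c2118c0010080052502800410402452000400013000300000005)
 (.node 20 (.leaf 0x210004018064012212984611c0001000005200a40040050a40209a08001400020000000e)
 (.leaf 0x1000021047000081008c299c8041008000041a08000000a072492c00015000301000014)))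
 (.node 23 (.node 22 (.leaf 0x200800288c440008505046080a0400080052410000442180070018080016000401000013)
 (.leaf 0x17000000000017))
 (.node 24 (.leaf 0x200804080054010000888021ca000048005210a0004401aa470488800018000000000000)
 (.leaf 0x2200000098c0000020088c239cc040000201250a40040050a030408400019000000000000)))))
noncomputable def zg_0 : H54.Chain := .cons 23 0xfacca0 zg_t0
  [0x7d6ce2a144bd0413c4d25a67003583, 0x73ef5b34e22a8c9a4c83881680c24c]
  [[24, 17, 10, 25, 19, 22], [25, 21, 24, 24, 24, 25, 20, 20]] zg_1
noncomputable def zg : H54.Chain := zg_0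


theorem ch_low : H54.checkLow cfg24 ch = true := by decide +kernel
theorem zt_low : H54.checkLow cfg24 zt = true := by decide +kernel
theorem zs_low : H54.checkLow cfg24 zs = true := by decide +kernel
theorem zg_low : H54.checkLow cfg24 zg = true := by decide +kernel
theorem zt_chk : H54.centCheck cfg24 [442144707709661837449618424028400040] ch zt = true := by decide +kernel
theorem zs_chk : H54.centCheck cfg24 [651252496612629869266570458847789443] ch zs = true := by decide +kernel
theorem zg_chk : H54.centCheck cfg24 [41670465632659167086157740457510646] ch zg = true := by decide +kernel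

/-- the codes of `1 a b s u y x g h` -/
def cd : List ℕ := [984818244535754528103549039458486304, 485017938459012399916635587052063107,
  652511242709664407116957080649672072, 651252496612629869266570458847789443,
  803933515614162339003086077774940429, 858457720553696862286071324534261795,
  321245923804234661355690178065600001, 41670465632659167086157740457510646,
  237131121359399427956565348070822176]

/-- the relators -/
def rl : List (List ℕ) := [[0],
  [12, 12, 12],
  [5, 13, 2, 12],
  [2, 4, 13, 4, 12],
  [7, 13, 6, 12],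
  [12, 8, 12, 8],
  [7, 15, 6, 14],
  [13, 15, 12, 14],
  [3, 5, 5, 15, 2, 14],
  [5, 3, 3, 5, 5, 15, 4, 14],
  [9, 7, 15, 8, 14],
  [5, 11, 4, 15, 10, 14],
  [14, 14],
  [16, 16, 16, 16, 16],
  [7, 17, 6, 16],
  [15, 17, 14, 16],
  [2, 2, 16, 2, 2, 16, 2, 2, 16],
  [4, 4, 16, 4, 4, 16],
  [13, 16, 13, 16, 13, 16],
  [13, 17, 8, 16, 8],
  [17, 17, 3, 3, 9, 13, 16, 12, 8, 2, 2]]

theorem rels_of {G : Type} [Group G] {e a b s u y x g h : G}
    (hR : ∀ R ∈ rl, ev (lt [e, a, b, s, u, y, x, g, h]) R = 1) :
    e = 1 ∧ XR a b s u x ∧ GR a b s u x y g ∧ g * g = 1 ∧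
    h ^ 5 = 1 ∧
    h * s = s * h ∧
    h * g = g * h ∧
    (h * (a * a)) ^ 3 = 1 ∧
    (h * (b * b)) ^ 2 = 1 ∧
    (h * x⁻¹) ^ 3 = 1 ∧
    u * h * u = x * h ∧
    a * a * u * x * h * (a * a * u * x)⁻¹ = h * h := by
  obtain ⟨k0, hR⟩ := List.forall_mem_cons.1 hR
  replace k0 : e = 1 := mul_inv_eq_one.1 (by
    simpa only [mul_assoc, mul_one, one_mul, inv_one, mul_inv_rev, inv_inv, pow_succ, pow_zero] using
      (show e * 1 = 1 from k0))
  obtain ⟨k1, hR⟩ := List.forall_mem_cons.1 hR
  replace k1 : x * x * x = 1 := mul_inv_eq_one.1 (by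
    simpa only [mul_assoc, mul_one, one_mul, inv_one, mul_inv_rev, inv_inv, pow_succ, pow_zero] using
      (show x * (x * (x * 1)) = 1 from k1))
  obtain ⟨k2, hR⟩ := List.forall_mem_cons.1 hR
  replace k2 : x * a * x⁻¹ = b := mul_inv_eq_one.1 (by
    simpa only [mul_assoc, mul_one, one_mul, inv_one, mul_inv_rev, inv_inv, pow_succ, pow_zero] using
      (show x * (a * (x⁻¹ * (b⁻¹ * 1))) = 1 from k2))
  obtain ⟨k3, hR⟩ := List.forall_mem_cons.1 hR
  replace k3 : x * b * x⁻¹ = a⁻¹ * b⁻¹ := mul_inv_eq_one.1 (by
    simpa only [mul_assoc, mul_one, one_mul, inv_one, mul_inv_rev, inv_inv, pow_succ, pow_zero] using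
      (show x * (b * (x⁻¹ * (b * (a * 1)))) = 1 from k3))
  obtain ⟨k4, hR⟩ := List.forall_mem_cons.1 hR
  replace k4 : x * s = s * x := mul_inv_eq_one.1 (by
    simpa only [mul_assoc, mul_one, one_mul, inv_one, mul_inv_rev, inv_inv, pow_succ, pow_zero] using
      (show x * (s * (x⁻¹ * (s⁻¹ * 1))) = 1 from k4))
  obtain ⟨k5, hR⟩ := List.forall_mem_cons.1 hR
  replace k5 : u * x * u = x⁻¹ := mul_inv_eq_one.1 (by
    simpa only [mul_assoc, mul_one, one_mul, inv_one, mul_inv_rev, inv_inv, pow_succ, pow_zero] using
      (show u * (x * (u * (x * 1))) = 1 from k5))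
  obtain ⟨k6, hR⟩ := List.forall_mem_cons.1 hR
  replace k6 : g * s * g⁻¹ = s := mul_inv_eq_one.1 (by
    simpa only [mul_assoc, mul_one, one_mul, inv_one, mul_inv_rev, inv_inv, pow_succ, pow_zero] using
      (show g * (s * (g⁻¹ * (s⁻¹ * 1))) = 1 from k6))
  obtain ⟨k7, hR⟩ := List.forall_mem_cons.1 hR
  replace k7 : g * x * g⁻¹ = x := mul_inv_eq_one.1 (by
    simpa only [mul_assoc, mul_one, one_mul, inv_one, mul_inv_rev, inv_inv, pow_succ, pow_zero] using
      (show g * (x * (g⁻¹ * (x⁻¹ * 1))) = 1 from k7))
  obtain ⟨k8, hR⟩ := List.forall_mem_cons.1 hR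
  replace k8 : g * a * g⁻¹ = a * (b * b) := mul_inv_eq_one.1 (by
    simpa only [mul_assoc, mul_one, one_mul, inv_one, mul_inv_rev, inv_inv, pow_succ, pow_zero] using
      (show g * (a * (g⁻¹ * (b⁻¹ * (b⁻¹ * (a⁻¹ * 1))))) = 1 from k8))
  obtain ⟨k9, hR⟩ := List.forall_mem_cons.1 hR
  replace k9 : g * b * g⁻¹ = b * (a * a * (b * b)) := mul_inv_eq_one.1 (by
    simpa only [mul_assoc, mul_one, one_mul, inv_one, mul_inv_rev, inv_inv, pow_succ, pow_zero] using
      (show g * (b * (g⁻¹ * (b⁻¹ * (b⁻¹ * (a⁻¹ * (a⁻¹ * (b⁻¹ * 1))))))) = 1 from k9))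
  obtain ⟨k10, hR⟩ := List.forall_mem_cons.1 hR
  replace k10 : g * u * g⁻¹ = u * s := mul_inv_eq_one.1 (by
    simpa only [mul_assoc, mul_one, one_mul, inv_one, mul_inv_rev, inv_inv, pow_succ, pow_zero] using
      (show g * (u * (g⁻¹ * (s⁻¹ * (u⁻¹ * 1)))) = 1 from k10))
  obtain ⟨k11, hR⟩ := List.forall_mem_cons.1 hR
  replace k11 : g * y * g⁻¹ = b * y * b⁻¹ := mul_inv_eq_one.1 (by
    simpa only [mul_assoc, mul_one, one_mul, inv_one, mul_inv_rev, inv_inv, pow_succ, pow_zero] using
      (show g * (y * (g⁻¹ * (b * (y⁻¹ * (b⁻¹ * 1))))) = 1 from k11))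
  obtain ⟨k12, hR⟩ := List.forall_mem_cons.1 hR
  replace k12 : g * g = 1 := mul_inv_eq_one.1 (by
    simpa only [mul_assoc, mul_one, one_mul, inv_one, mul_inv_rev, inv_inv, pow_succ, pow_zero] using
      (show g * (g * 1) = 1 from k12))
  obtain ⟨k13, hR⟩ := List.forall_mem_cons.1 hR
  replace k13 : h ^ 5 = 1 := mul_inv_eq_one.1 (by
    simpa only [mul_assoc, mul_one, one_mul, inv_one, mul_inv_rev, inv_inv, pow_succ, pow_zero] using
      (show h * (h * (h * (h * (h * 1)))) = 1 from k13))
  obtain ⟨k14, hR⟩ := List.forall_mem_cons.1 hR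
  replace k14 : h * s = s * h := mul_inv_eq_one.1 (by
    simpa only [mul_assoc, mul_one, one_mul, inv_one, mul_inv_rev, inv_inv, pow_succ, pow_zero] using
      (show h * (s * (h⁻¹ * (s⁻¹ * 1))) = 1 from k14))
  obtain ⟨k15, hR⟩ := List.forall_mem_cons.1 hR
  replace k15 : h * g = g * h := mul_inv_eq_one.1 (by
    simpa only [mul_assoc, mul_one, one_mul, inv_one, mul_inv_rev, inv_inv, pow_succ, pow_zero] using
      (show h * (g * (h⁻¹ * (g⁻¹ * 1))) = 1 from k15))
  obtain ⟨k16, hR⟩ := List.forall_mem_cons.1 hR
  replace k16 : (h * (a * a)) ^ 3 = 1 := mul_inv_eq_one.1 (by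
    simpa only [mul_assoc, mul_one, one_mul, inv_one, mul_inv_rev, inv_inv, pow_succ, pow_zero] using
      (show h * (a * (a * (h * (a * (a * (h * (a * (a * 1)))))))) = 1 from k16))
  obtain ⟨k17, hR⟩ := List.forall_mem_cons.1 hR
  replace k17 : (h * (b * b)) ^ 2 = 1 := mul_inv_eq_one.1 (by
    simpa only [mul_assoc, mul_one, one_mul, inv_one, mul_inv_rev, inv_inv, pow_succ, pow_zero] using
      (show h * (b * (b * (h * (b * (b * 1))))) = 1 from k17))
  obtain ⟨k18, hR⟩ := List.forall_mem_cons.1 hR
  replace k18 : (h * x⁻¹) ^ 3 = 1 := mul_inv_eq_one.1 (by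
    simpa only [mul_assoc, mul_one, one_mul, inv_one, mul_inv_rev, inv_inv, pow_succ, pow_zero] using
      (show h * (x⁻¹ * (h * (x⁻¹ * (h * (x⁻¹ * 1))))) = 1 from k18))
  obtain ⟨k19, hR⟩ := List.forall_mem_cons.1 hR
  replace k19 : u * h * u = x * h := mul_inv_eq_one.1 (by
    simpa only [mul_assoc, mul_one, one_mul, inv_one, mul_inv_rev, inv_inv, pow_succ, pow_zero] using
      (show u * (h * (u * (h⁻¹ * (x⁻¹ * 1)))) = 1 from k19))
  obtain ⟨k20, hR⟩ := List.forall_mem_cons.1 hR
  replace k20 : a * a * u * x * h * (a * a * u * x)⁻¹ = h * h := mul_inv_eq_one.1 (by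
    simpa only [mul_assoc, mul_one, one_mul, inv_one, mul_inv_rev, inv_inv, pow_succ, pow_zero] using
      (show a * (a * (u * (x * (h * (x⁻¹ * (u⁻¹ * (a⁻¹ * (a⁻¹ * (h⁻¹ * (h⁻¹ * 1)))))))))) = 1 from k20))
  exact ⟨k0, ⟨k1, k2, k3, k4, k5⟩, ⟨k6, k7, k8, k9, k10, k11⟩, k12, k13, k14, k15, k16, k17, k18, k19, k20⟩

theorem core {X Ω : Type} [Group X] [Finite X] [MulAction X Ω] {pt : ℕ → Ω} (C : H54.Ctx cfg24 pt)
    (hK : H54.Kfix X cfg24 pt = ⊥) {J : Subgroup X} (hS : ∀ s ∈ ch.gens, H54.In cfg24 pt J s)
    (cJ : Nat.card J = 95040) {l : List X} (hl : List.Forall₂ (H54.Rep cfg24 pt) l cd) (idx : J.index = 2)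
    (iso : Nonempty (J ≃* Spor.M12)) (aut : ∀ φ : MulAut J, ∃ r : X, ∀ j : J, (φ j : X) = r * j * r⁻¹)
    (cen : ∀ r, (∀ j ∈ J, r * j = j * r) → r = 1) : ∃ a b s u x y g h : X, MX0 J a b s u x y g h := by
  have h1 := sat_of_codes C hK (List.forall₂_take 6 hl) (rels := E2E.rels) (by decide +kernel)
  have h2 := sat_of_codes C hK hl (rels := rl) (by decide +kernel)
  obtain ⟨aH, gH⟩ := H54.good_of_card_le C hK hS ch_low (by rw [cJ]; decide +kernel)
  obtain ⟨e, _, -, l0, rfl⟩ := List.forall₂_cons_right_iff.1 hl
  obtain ⟨a, _, ra, l1, rfl⟩ := List.forall₂_cons_right_iff.1 l0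
  obtain ⟨b, _, rb, l2, rfl⟩ := List.forall₂_cons_right_iff.1 l1
  obtain ⟨s, _, rs, l3, rfl⟩ := List.forall₂_cons_right_iff.1 l2
  obtain ⟨u, _, ru, l4, rfl⟩ := List.forall₂_cons_right_iff.1 l3
  obtain ⟨y, _, ry, l5, rfl⟩ := List.forall₂_cons_right_iff.1 l4
  obtain ⟨x, _, rx, l6, rfl⟩ := List.forall₂_cons_right_iff.1 l5
  obtain ⟨g, _, rg, l7, rfl⟩ := List.forall₂_cons_right_iff.1 l6
  obtain ⟨h, _, rh, l8, rfl⟩ := List.forall₂_cons_right_iff.1 l7
  obtain rfl := List.forall₂_nil_right_iff.1 l8
  obtain ⟨rfl, k1, k2, k3, k4, k5, k6, k7, k8, k9, k10, k11⟩ := rels_of h2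
  refine ⟨a, b, s, u, x, y, g, h, k1, k2, E2.Rel.of_sat h1, k3, ?_,
    aH.not_mem_of_notMemb C (by decide +kernel) rg, idx, iso,
    ((aH.centralizer_one C hK ((ra.mul C ra).of_eqc C (by decide +kernel)) zt_low zt_chk).1.card
      C hK).trans (by decide +kernel),
    ((aH.centralizer_one C hK rs zs_low zs_chk).1.card C hK).trans (by decide +kernel),
    ((aH.centralizer_one C hK rg zg_low zg_chk).1.card C hK).trans (by decide +kernel),
    aH.mem_of_memb C (by decide +kernel) rh, k4, k5, k6, k7, k8, k9, k10, k11, aut, cen⟩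
  rw [← gH, H54.grp_eq_closure hK (gs := [a, b, s, u, x, y]) (S := ch.gens)
    (.cons ra (.cons rb (.cons rs (.cons ru (.cons rx (.cons ry .nil))))))]
  congr 1
  ext z
  simp only [List.mem_cons, List.not_mem_nil, or_false, Set.mem_ofPred_eq, Set.mem_insert_iff,
    Set.mem_singleton_iff]

theorem cd_mem : ∀ s ∈ cd, H15.inM24 s = true ∧
    (H15.imgM s 340831 = 340831 ∨ H15.imgM s 340831 = 16436384) := by decide +kernel

theorem eqns_Mod1 : True := by
  have := @cd.eq_1; have := @rl.eq_1
  trivial

end Mod1

open Mod1 H18.TC H96.Geo H15 in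
theorem exists_mx0 : ∃ (X : Type) (_ : Group X) (_ : Finite X) (J : Subgroup X) (a b s u x y g h : X),
    MX0 J a b s u x y g h := by
  obtain ⟨l, hl⟩ := exists_forall₂ (H := M12ext) fun s hs =>
    in_iff_good.2 (good_M12ext (cd_mem s hs).1 (cd_mem s hs).2)
  have cJ : Nat.card (Spor.M12.subgroupOf M12ext) = 95040 :=
    (Nat.card_congr (subgroupOfEquivOfLe M12_le_ext).toEquiv).trans card_M12
  refine ⟨M12ext, inferInstance, inferInstance, Spor.M12.subgroupOf M12ext,
    core X24 (H54.Kfix_eq_bot pt_surj) (fun s hs => ?_) cJ hl ?_ ⟨subgroupOfEquivOfLe M12_le_ext⟩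
      (fun φ => ?_) fun r hr => ?_⟩
  · obtain ⟨g, hg, r⟩ := H96.Geo.M12.chain.all_in X24 (S := ch.gens) (by decide +kernel) s hs
    exact ⟨⟨g, M12_le_ext hg⟩, hg, H54.rep_coe.2 r⟩
  · have := (Spor.M12.subgroupOf M12ext).index_mul_card
    rw [cJ, card_M12ext] at this
    exact Nat.eq_of_mul_eq_mul_right (by norm_num : 0 < 95040) this
  · obtain ⟨r, hr, e⟩ := aut_M12 (((subgroupOfEquivOfLe M12_le_ext).symm.trans φ).trans
      (subgroupOfEquivOfLe M12_le_ext))
    exact ⟨⟨r, hr⟩, fun j => Subtype.ext (e ⟨j, j.2⟩)⟩
  · have hβ := (good_M12 inM24_betaC (by decide +kernel)).2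
    have hδ := (good_M12 inM24_deltaC (by decide +kernel)).2
    exact Subtype.ext (eq_one_of_comm_beta_delta r.2.1
      (congrArg Subtype.val (hr ⟨_, M12_le_ext hβ⟩ hβ)) (congrArg Subtype.val (hr ⟨_, M12_le_ext hδ⟩ hδ)))

end H30.CS
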