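import Mathlib
import Cfsg.Agent.Base
import Cfsg.Agent.Lib.Co3S.Defs
import Cfsg.Agent.Lib.Co3S.TCT

/-! The involutions and the large 2-subgroups of the model. -/

set_option autoImplicit false
set_option maxRecDepth 100000
set_option linter.unusedSectionVars false

namespace H30.CS

open Subgroup H69 Cfsg H70.TM H30.CM

namespace Mod2

/-- the Sylow 2-subgroup generated by `a b s u g` -/
def inS (w : CT.E) : Prop :=
  Nat.testBit 0x10a02804001c031108200002950e1b0011586a14ee0b77a6dc000c2ec36d82dddc16ef7b82def7df w.val = true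

instance : DecidablePred inS := fun _ => inferInstanceAs (Decidable (_ = true))

/-- the Sylow 2-subgroup -/
noncomputable def S0 : Subgroup CT.E := El.sub inS (by decide +kernel)

theorem card_S0 : Nat.card S0 = 128 := (El.card_subtype inS).trans (by decide +kernel)

theorem pow8 : ∀ w : CT.E, inS w → w * w * (w * w) * (w * w * (w * w)) = 1 := by decide +kernel

open CT in
theorem cls : ∀ w : E, w * w = 1 → w = 1 ∨ ∃ k, k * w * k⁻¹ = a * a ∨ k * w * k⁻¹ = s ∨
    k * w * k⁻¹ = g ∨ k * w * k⁻¹ = b * b ∨ k * w * k⁻¹ = s * b * a := by decide +kernel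

open CT in
theorem cv : ∀ w : E, w * (b * b) = b * b * w → w * w * (w * w) * (w * w * (w * w)) = 1 := by
  decide +kernel

open CT in
theorem cen : ∀ w : E, w * (a * a) = a * a * w := by decide +kernel

open CT in
theorem mem_ab : inS a ∧ inS b := by decide +kernel

variable {X : Type} [Group X] [Finite X] {J : Subgroup X} {a b s u x y g h : X}

theorem card_X (M : MX0 J a b s u x y g h) : Nat.card J = 95040 ∧ Nat.card X = 190080 := by
  obtain ⟨e⟩ := M.iso
  have c := (Nat.card_congr e.toEquiv).trans H15.card_M12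
  exact ⟨c, by rw [← J.index_mul_card, c, M.idx]⟩

theorem ne_one (M : MX0 J a b s u x y g h) {z : X} {n : ℕ} (e : Nat.card ↥(J ⊓ 𝐂₀(z)) = n)
    (hn : n ≠ 95040) : z ≠ 1 := by
  rintro rfl
  rw [show 𝐂₀((1 : X)) = ⊤ from eq_top_iff.2 fun g _ => CM.mem_c.2 (by simp), inf_top_eq,
    (card_X M).1] at e
  exact hn e.symm

theorem xt (M : MX0 J a b s u x y g h) : x * (a * a) * x⁻¹ = b * b := by rw [← conj_mul, M.xa]

theorem mod (M : MX0 J a b s u x y g h) : ∃ θ : CT.E →* X, Function.Injective θ ∧ θ CT.a = a ∧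
    θ CT.b = b ∧ θ CT.s = s ∧ θ CT.g = g ∧ IsSylowIn 2 (S0.map θ) ⊤ ∧ Nat.card (S0.map θ) = 128 ∧
    ∀ z, z * (a * a) = a * a * z → ∃ w, θ w = z := by
  have gi : g⁻¹ = g := inv_eq_of_mul_eq_one_left M.gg
  obtain ⟨r0, r1, r2, r3, r4, r5, r6, r7, r8, r9, -, -, -, -, -, s0, s1, s2, s3, s4, s5, -⟩ := M.r2
  obtain ⟨θ, ea, eb, es, -, -, eg⟩ := CT.model (a' := a) (b' := b) (s' := s) (u' := u) (y' := y) (g' := g)
    ⟨r0, r1, r2, r3, r4, r5, r6, r7, r8, r9, s0, s1, s2, s3, s4, s5, M.gg, CM.cj_iff.1 M.gs,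
      by rw [← M.ga, gi], by rw [← M.gb, gi], by rw [← M.gu, gi], by rw [← M.gy, gi]⟩
  have t1 := ne_one M M.ct (by norm_num)
  have v1 : b * b ≠ 1 := by rw [← xt M]; simpa using t1
  have i : Function.Injective θ := inj_of' (L := [CT.a, CT.b, CT.s, CT.y])
    (P := fun w => w = CT.a * CT.a ∨ w = CT.b * CT.b ∨ w = CT.a * CT.a * (CT.b * CT.b) ∨ w = CT.s)
    (by decide +kernel) (by
      rintro _ (rfl | rfl | rfl | rfl) <;> simp only [map_mul, ea, eb, es]
      · exact t1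
      · exact v1
      · intro e
        have k : x * (b * b) * x⁻¹ = 1 := by
          rw [← conj_mul, M.xb, ← mul_inv_rev, ← mul_inv_rev, inv_eq_one, ← e, ← r2, mul_assoc,
            ← mul_assoc b, ← r2]
          group
        exact v1 (by simpa using k)
      · exact ne_one M M.cs (by norm_num))
  have c : Nat.card (S0.map θ) = 128 := by rw [card_map_of_injective i, card_S0]
  obtain ⟨S, hS⟩ := exists_isSylowIn 2 (⊤ : Subgroup X)
  refine ⟨θ, i, ea, eb, es, eg, hS.of_card_le (CM.isP_of_pow 3 ?_) le_top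
    (c ▸ le_128 hS.isP hS.le (card_top.trans (card_X M).2)), c, fun z hz => ?_⟩
  · rintro _ ⟨w, hw, rfl⟩
    rw [← map_pow, pow_eight, pow8 w hw, map_one]
  · have l : θ.range ≤ 𝐂₀(a * a) := by
      rintro _ ⟨w, rfl⟩
      exact CM.mem_c.2 (by rw [← ea, ← map_mul, ← map_mul, ← map_mul, cen])
    have := normal_of_index_eq_two M.idx
    have k1 := (J.subgroupOf 𝐂₀(a * a)).index_mul_card
    have k2 : (J.subgroupOf 𝐂₀(a * a)).index ≤ 2 :=
      Nat.le_of_dvd two_pos (M.idx ▸ relIndex_dvd_index_of_normal J 𝐂₀(a * a))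
    rw [← inf_subgroupOf_right, Nat.card_congr (subgroupOfEquivOfLe inf_le_right).toEquiv, M.ct,
      inf_subgroupOf_right] at k1
    exact (eq_of_le_of_card_ge l (by
      rw [← Nat.card_congr (MonoidHom.ofInjective i).toEquiv, CT.card]; omega)).ge (CM.mem_c.2 hz)

theorem eqns_Mod2 : True := by
  have := @inS.eq_1; have := @S0.eq_1
  trivial

end Mod2

variable {X : Type} [Group X] [Finite X] {J : Subgroup X} {a b s u x y g h : X}

theorem MX0.inv (M : MX0 J a b s u x y g h) : ∀ w, w * w = 1 → w ≠ 1 →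
    ∃ j ∈ J, j * w * j⁻¹ = a * a ∨ j * w * j⁻¹ = s ∨ j * w * j⁻¹ = g := by
  intro w w2 w1
  obtain ⟨θ, i, ea, eb, es, eg, hS, -, -⟩ := Mod2.mod M
  have gt : g * (a * a) * g⁻¹ = a * a := by
    rw [← ea, ← eg, ← map_mul]; exact CM.cj_iff.2 (by rw [← map_mul, ← map_mul, Mod2.cen])
  have fin : ∀ r, r * w * r⁻¹ = a * a ∨ r * w * r⁻¹ = s ∨ r * w * r⁻¹ = g →
      ∃ j ∈ J, j * w * j⁻¹ = a * a ∨ j * w * j⁻¹ = s ∨ j * w * j⁻¹ = g := fun r hr => by
    by_cases c : r ∈ J
    · exact ⟨r, c, hr⟩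
    · exact ⟨g * r, (mul_mem_iff_of_index_two M.idx).2 (iff_of_false M.gJ c),
        hr.imp (fun e => CM.cj_trans e gt) (Or.imp (fun e => CM.cj_trans e M.gs)
          fun e => CM.cj_trans e (by group))⟩
  obtain ⟨r, -, W, -, e⟩ := CM.exists_cj_mem hS (mem_top w) (k := 1) (by rw [pow_one, sq, w2])
  have xv := CM.cj_symm (Mod2.xt M)
  have mp : ∀ {k V : CT.E}, k * W * k⁻¹ = V → θ k * r * w * (θ k * r)⁻¹ = θ V := fun c =>
    CM.cj_trans e.symm (by rw [← c, map_mul, map_mul, map_inv])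
  rcases Mod2.cls W (i (by rw [map_mul, e, CM.cj_sq r w2, map_one])) with rfl | ⟨k, c | c | c | c | c⟩
  · rw [map_one] at e
    exact absurd (conj_eq_one_iff.1 e.symm) w1
  · exact fin _ (Or.inl (by rw [mp c, map_mul, ea]))
  · exact fin _ (Or.inr (Or.inl (by rw [mp c, es])))
  · exact fin _ (Or.inr (Or.inr (by rw [mp c, eg])))
  · exact fin _ (Or.inl (CM.cj_trans (by rw [mp c, map_mul, eb]) xv))
  · obtain ⟨-, -, -, r3, r4, -, -, -, -, -, -, -, -, -, -, -, s1, -⟩ := M.r2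
    have k1 : x * (s * b * a) * x⁻¹ = a * s := by
      rw [← conj_mul, ← conj_mul, CM.cj_iff.2 M.xs, M.xa, M.xb, ← r4, ← mul_assoc, ← mul_assoc, ← mul_assoc,
        r3]
      group
    exact fin _ (Or.inl (CM.cj_trans (CM.cj_trans (CM.cj_trans
      (by rw [mp c, map_mul, map_mul, ea, eb, es]) k1) (CM.cj_symm s1)) xv))

theorem MX0.c64 (M : MX0 J a b s u x y g h) : ∀ P : Subgroup X, IsPGroup 2 P → 64 ≤ Nat.card P →
    ∀ o, Odd (orderOf o) → (∀ r ∈ P, r * o = o * r) → o = 1 := by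
  intro P hP c o ho hc
  obtain ⟨θ, i, ea, eb, -, -, hS, c128, ran⟩ := Mod2.mod M
  obtain ⟨r, -, l⟩ := hS.exists_cj_le hP le_top
  have sq : ∀ z ∈ Mod2.S0.map θ, r * o * r⁻¹ * (z * z) = z * z * (r * o * r⁻¹) := fun z hz => by
    have k1 := ((P ^ᶜ r).subgroupOf (Mod2.S0.map θ)).index_mul_card
    rw [Nat.card_congr (subgroupOfEquivOfLe l).toEquiv, card_cj, c128] at k1
    have m : z * z ∈ P ^ᶜ r := by
      have : ((P ^ᶜ r).subgroupOf (Mod2.S0.map θ)).index = 1 ∨
          ((P ^ᶜ r).subgroupOf (Mod2.S0.map θ)).index = 2 := by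
        generalize ((P ^ᶜ r).subgroupOf (Mod2.S0.map θ)).index = n at k1
        have : n ≤ 2 := by nlinarith
        have : n ≠ 0 := by rintro rfl; omega
        omega
      rcases this with k | k
      · exact (index_eq_one.1 k).ge (mem_top (⟨z * z, mul_mem hz hz⟩ : Mod2.S0.map θ))
      · exact mul_self_mem_of_index_two k ⟨z, hz⟩
    obtain ⟨p, hp, e⟩ := mem_cj'.1 m
    rw [e]
    exact CM.cj_comm r (hc p hp).symm
  obtain ⟨w, hw⟩ := ran _ (sq a ⟨_, Mod2.mem_ab.1, ea⟩)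
  have k := Mod2.cv w (i (by
    simp only [map_mul, hw, eb]; exact sq b ⟨_, Mod2.mem_ab.2, eb⟩))
  have k2 : o ^ 2 ^ 3 = 1 := by
    rw [← conj_eq_one_iff (a := r), ← conj_pow, ← hw, ← map_pow, pow_eight, k, map_one]
  exact orderOf_eq_one_iff.1 ((Nat.Coprime.pow_right 3 (Nat.coprime_two_right.2 ho)).eq_one_of_dvd
    (orderOf_dvd_of_pow_eq_one k2))

end H30.CS
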