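import Mathlib
import Cfsg.Agent.Base
import Cfsg.Agent.Lib.Co3S.Defs
import Cfsg.Agent.Lib.Co3S.TCT
import Cfsg.Agent.Lib.Co3S.TCS

/-! Centralisers of small configurations in the automorphism group of `M₁₂`. -/

set_option autoImplicit false
set_option maxRecDepth 100000
set_option linter.unusedSectionVars false

namespace H30.CS

open Subgroup H69 Cfsg H70.TM H30.CM

variable {X : Type} [Group X] [Finite X] {J : Subgroup X} {a b s u x y g h : X}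

namespace M3

/-- no further `2`-element centralises a Frobenius group of order 20 -/
def C5 {E : Type} [Group E] (z k : E) : Prop :=
  ∀ m, m * k = k * m → m * m * m * m = 1 → m ≠ 1 → m ≠ z → ∀ f, f * k * f⁻¹ = k * k → m * f ≠ f * m

/-- no further `2`-element centralises a symmetric group of degree four -/
def C3 {E : Type} [Group E] (z k : E) : Prop :=
  ∀ m, m * k = k * m → m * m * m * m = 1 → m ≠ 1 → m ≠ z → ∀ f, f * f = 1 → f * k * f = k⁻¹ →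
    m * f = f * m → ∀ c, c * c = 1 → m * c = c * m → f * c = c * f →
    c * (k * c * k⁻¹) = k * c * k⁻¹ * c → k * c = c * k

noncomputable instance {t : GT} (z k : El t) : Decidable (C5 z k) := by unfold C5; infer_instance
noncomputable instance {t : GT} (z k : El t) : Decidable (C3 z k) := by unfold C3; infer_instance

theorem C3.of_map {E E' : Type} [Group E] [Group E'] {ψ : E →* E'} (hψ : Function.Injective ψ)
    {z k : E} (h : C3 (ψ z) (ψ k)) : C3 z k := by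
  intro m h1 h2 h3 h4 f h5 h6 h7 c h8 h9 h10 h11
  refine hψ ?_
  rw [map_mul, map_mul]
  refine h (ψ m) ?_ ?_ ?_ ?_ (ψ f) ?_ ?_ ?_ (ψ c) ?_ ?_ ?_ ?_ <;>
    simpa only [← map_mul, ← map_inv, hψ.eq_iff, map_eq_one_iff ψ hψ, ne_eq]

theorem t5 : ∀ k : CT.E, k * k * k * k * k = 1 → k ≠ 1 → C5 (CT.a * CT.a) k := by decide +kernel
theorem t3 : ∀ k : CT.E, k * k * k = 1 → k ≠ 1 → C3 (CT.a * CT.a) k := by decide +kernel
theorem s5 : ∀ k : CS.E, k * k * k * k * k = 1 → k ≠ 1 → C5 CS.s k := by decide +kernel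
theorem s3x : C3 CS.s CS.x := by decide +kernel
theorem s3c : ∀ k : CS.E, k * k * k = 1 → k ≠ 1 → ∃ w, w * k * w⁻¹ = CS.x ∧ w * CS.s * w⁻¹ = CS.s := by
  decide +kernel

theorem s3 (k : CS.E) (h1 : k * k * k = 1) (h2 : k ≠ 1) : C3 CS.s k := by
  obtain ⟨w, e1, e2⟩ := s3c k h1 h2
  refine C3.of_map (ψ := (MulAut.conj w).toMonoidHom) (MulAut.conj w).injective ?_
  change C3 (w * CS.s * w⁻¹) (w * k * w⁻¹)
  rw [e1, e2]
  exact s3x

theorem cnt_t : Nat.card {r : CT.E // r * (CT.a * CT.a) = CT.a * CT.a * r} = 384 :=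
  (El.card_subtype _).trans (by decide +kernel)
theorem cnt_s : Nat.card {r : CS.E // r * CS.s = CS.s * r} = 480 :=
  (El.card_subtype _).trans (by decide +kernel)
theorem cnt_g : Nat.card {r : CS.E // r * CS.g = CS.g * r} = 240 :=
  (El.card_subtype _).trans (by decide +kernel)

theorem cen_le {E : Type} [Group E] (hJ : J.index = 2) {θ : E →* X} (hθ : Function.Injective θ)
    {w : E} {w' : X} (e : θ w = w')
    (hc : Nat.card ↥(J ⊓ 𝐂₀(w')) * 2 = Nat.card {r // r * w = w * r}) : 𝐂₀(w') ≤ θ.range := by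
  have h1 : (𝐂₀(w)).map θ ≤ 𝐂₀(w') := map_le_iff_le_comap.2 fun r hr =>
    mem_c.2 (by rw [← e, ← map_mul, mem_c.1 hr, map_mul])
  refine (eq_of_le_of_card_ge h1 ?_).ge.trans (map_le_range _ _)
  rw [card_map_of_injective hθ, Nat.card_congr (α := 𝐂₀(w)) (Equiv.subtypeEquivRight fun _ => mem_c), ← hc,
    ← card_mul_index (J.subgroupOf 𝐂₀(w')), ← inf_subgroupOf_right,
    Nat.card_congr (subgroupOfEquivOfLe inf_le_right).toEquiv, inf_subgroupOf_right, ← hJ,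
    ← J.relIndex_top_right]
  exact Nat.mul_le_mul_left _ (relIndex_le_of_le_right le_top index_ne_zero_of_finite)

theorem ne1 (M : MX0 J a b s u x y g h) {w : X} (hw : Nat.card ↥(J ⊓ 𝐂₀(w)) ≠ 95040) : w ≠ 1 := by
  rintro rfl
  obtain ⟨i⟩ := M.iso
  rw [inf_eq_left.2 fun r _ => mem_c.2 (by simp), Nat.card_congr i.toEquiv] at hw
  exact hw H15.card_M12

theorem modT (M : MX0 J a b s u x y g h) : ∃ θ : CT.E →* X, θ CT.a = a ∧ θ CT.b = b ∧ θ CT.s = s ∧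
    θ CT.u = u ∧ θ CT.y = y ∧ θ CT.g = g := by
  obtain ⟨r0, r1, r2, r3, r4, r5, r6, r7, r8, r9, -, -, -, -, -, s0, s1, s2, s3, s4, s5, -⟩ := M.r2
  have gi : g⁻¹ = g := inv_eq_of_mul_eq_one_right M.gg
  exact CT.model ⟨r0, r1, r2, r3, r4, r5, r6, r7, r8, r9, s0, s1, s2, s3, s4, s5, M.gg, cj_iff.1 M.gs,
    by rw [← M.ga, gi], by rw [← M.gb, gi], by rw [← M.gu, gi], by rw [← M.gy, gi]⟩

theorem relS (M : MX0 J a b s u x y g h) : CS.Rel (a * a) (b * b) x h g u s := by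
  obtain ⟨θ, ha, hb, hs, hu, -, hg⟩ := modT M
  obtain ⟨-, -, -, r3, -, -, r6, -, -, r9, -⟩ := M.r2
  have gi : g⁻¹ = g := inv_eq_of_mul_eq_one_right M.gg
  have k : CT.a * CT.a * (CT.a * CT.a) = 1 ∧ CT.b * CT.b * (CT.b * CT.b) = 1 ∧
      CT.a * CT.a * (CT.b * CT.b) = CT.b * CT.b * (CT.a * CT.a) ∧
      CT.a⁻¹ * CT.b⁻¹ * (CT.a⁻¹ * CT.b⁻¹) = CT.a * CT.a * (CT.b * CT.b) ∧
      CT.s * (CT.a * CT.a) = CT.a * CT.a * CT.s ∧ CT.g * (CT.a * CT.a) = CT.a * CT.a * CT.g ∧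
      CT.u * (CT.a * CT.a) = CT.a * CT.a * CT.u := by decide +kernel
  obtain ⟨k0, k1, k2, k3, k4, k5, k6⟩ := k
  apply_fun θ at k0 k1 k2 k3 k4 k5 k6
  simp only [map_mul, map_inv, map_one, ha, hb, hs, hu, hg] at k0 k1 k2 k3 k4 k5 k6
  refine ⟨k0, k1, k2, M.x3, ?_, ?_, ?_, ?_, ?_, ?_, M.gg, r6, r3, by rw [← M.gu, gi], r9, cj_iff.1 M.gs, k4,
    M.xs.symm, M.hs, M.hg, k5, cj_iff.1 M.gx, k6, M.ux, M.uh⟩
  · rw [← M.xa]; group
  · rw [← k3, ← M.xb]; group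
  · rw [← M.h5]; simp only [pow_succ, pow_zero, one_mul]
  · rw [← M.ht]; simp only [pow_succ, pow_zero, one_mul]
  · rw [← M.hv]; simp only [pow_succ, pow_zero, one_mul]
  · rw [← M.hx]; simp only [pow_succ, pow_zero, one_mul]

theorem injT : ∀ r : CT.E, r = 1 ∨ r = CT.a * CT.a ∨ ∃ k ∈ [97, 247, 372, 38, 132, 209].map (El.of CT.tb),
    r * k * r⁻¹ * k⁻¹ = CT.a * CT.a ∨ ∃ l ∈ [97, 247, 372, 38, 132, 209].map (El.of CT.tb),
    r * k * r⁻¹ * k⁻¹ * l * (r * k * r⁻¹ * k⁻¹)⁻¹ * l⁻¹ = CT.a * CT.a := by decide +kernel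

/-- the class of `t` and the central involution -/
def PS (w : CS.E) : Prop := Nat.testBit 0x100000000002000000642000c000102000000004008186 w.val = true

instance (w : CS.E) : Decidable (PS w) := by unfold PS; infer_instance

theorem injS : ∀ r : CS.E, r = 1 ∨ PS r ∨ ∃ k ∈ [CS.t, CS.v, CS.x, CS.c, CS.g, CS.u],
    PS (r * k * r⁻¹ * k⁻¹) ∨ ∃ l ∈ [CS.t, CS.v, CS.x, CS.c, CS.g, CS.u],
    PS (r * k * r⁻¹ * k⁻¹ * l * (r * k * r⁻¹ * k⁻¹)⁻¹ * l⁻¹) := by decide +kernel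

theorem ps : ∀ w : CS.E, PS w → w = CS.s ∨ ∃ z, CS.t = z * w * z⁻¹ := by decide +kernel

theorem cover (M : MX0 J a b s u x y g h) (hi : ∀ w, w * w = 1 → w ≠ 1 →
    ∃ j ∈ J, j * w * j⁻¹ = a * a ∨ j * w * j⁻¹ = s ∨ j * w * j⁻¹ = g) {m : X} (h4 : m ^ 4 = 1)
    (h1 : m ≠ 1) : ∃ (E : Type) (_ : Group E) (z : E) (ψ : E →* X), Function.Injective ψ ∧
      (∀ k, k * k * k * k * k = 1 → k ≠ 1 → C5 z k) ∧ (∀ k, k * k * k = 1 → k ≠ 1 → C3 z k) ∧
      ∀ r, m * r = r * m → r ∈ ψ.range := by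
  obtain ⟨w, w1, w2, w3⟩ : ∃ w, w * w = 1 ∧ w ≠ 1 ∧ ∀ r, m * r = r * m → r * w = w * r := by
    by_cases e : m * m = 1
    · exact ⟨m, e, h1, fun _ => Eq.symm⟩
    · exact ⟨m * m, by rw [← h4]; simp only [pow_succ, pow_zero, one_mul, mul_assoc], e,
        fun r hr => by rw [← mul_assoc, ← hr, mul_assoc, ← hr, mul_assoc]⟩
  obtain ⟨j, -, hj⟩ := hi w w1 w2
  have key : ∀ {E : Type} [Group E] {θ : E →* X}, Function.Injective θ → 𝐂₀(j * w * j⁻¹) ≤ θ.range →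
      ∃ ψ : E →* X, Function.Injective ψ ∧ ∀ r, m * r = r * m → r ∈ ψ.range := fun {E _ θ} hθ hc => by
    refine ⟨(MulAut.conj j⁻¹).toMonoidHom.comp θ, (MulAut.conj j⁻¹).injective.comp hθ, fun r hr => ?_⟩
    obtain ⟨p, hp⟩ := hc (mem_c.2 (show j * r * j⁻¹ * _ = _ by
      rw [conj_mul, w3 r hr, conj_mul]))
    exact ⟨p, by simp [hp, mul_assoc]⟩
  have nt := ne1 M (w := a * a) (by rw [M.ct]; norm_num)
  rcases hj with e | hj
  · obtain ⟨θ, ha, -⟩ := modT M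
    have ht : θ (CT.a * CT.a) = a * a := by rw [map_mul, ha]
    have hθ := inj_of' (f := θ) injT fun r hr => by rwa [hr, ht]
    obtain ⟨ψ, k1, k2⟩ := key hθ (e ▸ cen_le M.idx hθ ht (by rw [M.ct, cnt_t]))
    exact ⟨_, _, _, ψ, k1, t5, t3, k2⟩
  · obtain ⟨θ, ht, -, -, -, hg, -, hs⟩ := CS.model (relS M)
    have hθ := inj_of' (f := θ) injS fun r hr c => by
      rcases ps r hr with rfl | ⟨z, hz⟩
      · exact ne1 M (by rw [M.cs]; norm_num) (hs ▸ c)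
      · exact nt (by rw [← ht, hz]; simp [c])
    obtain ⟨ψ, k1, k2⟩ := key hθ (by
      rcases hj with e | e <;> rw [e]
      exacts [cen_le M.idx hθ hs (by rw [M.cs, cnt_s]), cen_le M.idx hθ hg (by rw [M.cg0, cnt_g])])
    exact ⟨_, _, _, ψ, k1, s5, s3, k2⟩

end M3

theorem MX0.mx (M : MX0 J a b s u x y g h) (hi : ∀ w, w * w = 1 → w ≠ 1 →
    ∃ j ∈ J, j * w * j⁻¹ = a * a ∨ j * w * j⁻¹ = s ∨ j * w * j⁻¹ = g)
    (h64 : ∀ P : Subgroup X, IsPGroup 2 P → 64 ≤ Nat.card P →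
    ∀ o, Odd (orderOf o) → (∀ r ∈ P, r * o = o * r) → o = 1) : MX J a b s u x y g h := by
  refine ⟨M, hi, h64, fun k f m n h1 h2 h3 h4 h5 h6 h7 h8 h9 h10 h11 h12 => ?_,
    fun k f c m n h1 h2 h3 h4 h5 h6 h7 h8 h9 h10 h11 h12 h13 h14 h15 h16 h17 h18 => ?_⟩
  · obtain ⟨E, _, z, ψ, hψ, c5, -, hr⟩ := M3.cover M hi h9 h11
    obtain ⟨k, rfl⟩ := hr k h4
    obtain ⟨f, rfl⟩ := hr f h5
    obtain ⟨n, rfl⟩ := hr n h8
    obtain ⟨m, rfl⟩ := hr m rfl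
    simp only [pow_succ, pow_zero, one_mul, ← map_mul, ← map_inv, hψ.eq_iff, map_eq_one_iff ψ hψ,
      ne_eq] at *
    exact (by_contra fun e => c5 k h1 h2 m h4 h9 h11 e f h3 h5 : m = z).trans
      (by_contra fun e => c5 k h1 h2 n h6 h10 h12 e f h3 h7 : n = z).symm
  · obtain ⟨E, _, z, ψ, hψ, -, c3, hr⟩ := M3.cover M hi h15 h17
    obtain ⟨k, rfl⟩ := hr k h8
    obtain ⟨f, rfl⟩ := hr f h9
    obtain ⟨c, rfl⟩ := hr c h10
    obtain ⟨n, rfl⟩ := hr n h14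
    obtain ⟨m, rfl⟩ := hr m rfl
    simp only [pow_succ, pow_zero, one_mul, ← map_mul, ← map_inv, hψ.eq_iff, map_eq_one_iff ψ hψ,
      ne_eq] at *
    have k1 : k ≠ 1 := fun e => h7 (by simp [e])
    exact (by_contra fun e => h7 (c3 k h1 k1 m h8 h15 h17 e f h2 h3 h9 c h4 h10 h5 h6) : m = z).trans
      (by_contra fun e => h7 (c3 k h1 k1 n h11 h16 h18 e f h2 h3 h12 c h4 h13 h5 h6) : n = z).symm

end H30.CS
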