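import Mathlib
import Cfsg.Agent.Base
import Cfsg.Agent.Lib.Co3S.Defs

/-! The two new generators `p` and `q`. -/

set_option autoImplicit false
set_option maxRecDepth 100000
set_option linter.unusedSectionVars false

namespace H30.CS

open Subgroup H69 Cfsg H70.TM H30.CM

section
open E2

namespace F3
variable {G : Type*} [Group G] [Finite G] {φ : E →* G} {x : G} (F : F3 φ x)
include F

theorem ax : AD φ x fx := AD.of (.cons (act_of_comm F.xe) (.cons F.xa (.cons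
  (by simpa only [Act, map_mul, map_inv] using F.xb) (.cons (act_of_comm F.xs) .nil))))
  (by decide +kernel)

theorem ai : AD φ x⁻¹ fi := AD.of (.cons (act_of_comm F.xe).symm (.cons
  (F.ax.act (by decide +kernel)).symm (.cons (F.ax.act (by decide +kernel)).symm
  (.cons (act_of_comm F.xs).symm .nil)))) (by decide +kernel)

theorem tri {p : G} {l : List E} (h : AD φ p (ap l)) : AD φ (x * (p * x⁻¹)) (fq l) ∧
    AD φ (x⁻¹ * (p * x)) (fr l) ∧ AD φ (p * (x * (p * x⁻¹) * (x⁻¹ * (p * x)))) (fz l) :=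
  have k1 := F.ax.comp (h.comp F.ai)
  have k2 := F.ai.comp (h.comp F.ax)
  ⟨k1, k2, h.comp (k1.comp k2)⟩

theorem exZ {z : G} {f : E → E} (h : AD φ z f) (c : f e = e ∧ f a = a ∧
    f (b * b) = b * b ∧ f s = s) : ∃ Z, φ Z = z ∧ Z * s * Z⁻¹ = s ∧ Z * (b * b) * Z⁻¹ = b * b ∧
      Z * a * Z⁻¹ = f a ∧ Z * b * Z⁻¹ = f b := by
  obtain ⟨Z, rfl⟩ := F.ran z (h.act ⟨by decide +kernel, c.1⟩) (h.act ⟨by decide +kernel, c.2.1⟩)
  exact ⟨Z, rfl, act_map F.inj (h.act ⟨by decide +kernel, c.2.2.2⟩),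
    act_map F.inj (h.act ⟨by decide +kernel, c.2.2.1⟩), act_map F.inj (h.act ⟨by decide +kernel, rfl⟩),
    act_map F.inj (h.act ⟨by decide +kernel, rfl⟩)⟩

theorem fin {p : G} {μ : ℕ} (hμ : μ ∈ [0, 1]) (h : List.Forall₂ (Act φ p) [e, a, b, s]
    [e * (a * a), a * (a * a) ^ μ, b * (a * a * (b * b)) ^ μ, s]) (hu : Act φ p u u)
    (hy : Act φ p y (y * u ^ μ)) {Z : E} (hz : φ Z = p * (x * (p * x⁻¹) * (x⁻¹ * (p * x))))
    (hZ : Z = 1 ∨ Z = a * a ∨ Z = b * b ∨ Z = a * a * (b * b)) :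
    ∃ q, ∃ κ ∈ [0, 1], PQ (φ e) (φ a) (φ b) (φ s) (φ u) x (φ y) p q μ κ := by
  have D : ∀ μ ∈ [0, 1], let l := [e * (a * a), a * (a * a) ^ μ, b * (a * a * (b * b)) ^ μ, s]
      (∀ w, inD w → inD (ap l w)) ∧ (∀ w ∈ [e, a, b, s, a * a], inD w ∧ ap l (ap l w) = w) ∧
      ((inD e ∧ ap l e = e * (a * a)) ∧ (inD (e * (a * a)) ∧ ap l (e * (a * a)) = e)) ∧
      (inD e ∧ fq l e = e * (b * b)) ∧ (inD s ∧ fq l s = s) ∧
      (inD a ∧ fq l a = a * (a * a * (b * b)) ^ μ) ∧ (inD b ∧ fq l b = b * (b * b) ^ μ) ∧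
      ∀ Z ∈ [1, a * a, b * b, a * a * (b * b)], (inD Z ∧ ap l Z = Z) ∧ (inD Z ∧ fq l Z = Z) ∧
        Z * Z = 1 ∧ inD Z ∧ (fx Z = Z → Z = 1) := by decide +kernel
  obtain ⟨d1, d2, d0, d3, d4, d5, d6, d7⟩ := D μ hμ
  have uu : φ u * φ u = 1 := (E2.rel.map φ).2.2.2.2.2.2.1
  have hp := AD.of h d1
  obtain ⟨hq, hr, -⟩ := F.tri hp
  have x2 : x * x = x⁻¹ := eq_inv_of_mul_eq_one_left F.x3
  have r1 : x * (x * (p * x⁻¹)) * x⁻¹ = x⁻¹ * (p * x) := by
    rw [← mul_assoc x, x2, mul_assoc, mul_assoc, ← mul_inv_rev, x2, inv_inv]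
  have r2 : x * (x⁻¹ * (p * x)) * x⁻¹ = p := by group
  have r3 : x * p * x⁻¹ = x * (p * x⁻¹) := mul_assoc _ _ _
  have r4 : φ u * (x * (p * x⁻¹)) * φ u = x⁻¹ * (p * x) := by
    have : x = φ u * x⁻¹ * φ u := by
      rw [← F.ux, ← mul_assoc, ← mul_assoc, uu, one_mul, mul_assoc, uu, mul_one]
    calc _ = φ u * x * φ u * (φ u * p * x⁻¹ * φ u) := by
          simp only [mul_assoc]; rw [← mul_assoc (φ u) (φ u), uu, one_mul]
      _ = _ := by rw [F.ux, ← hu.fix, mul_assoc p, mul_assoc p, ← this]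
  obtain ⟨κ, hκ, pp⟩ : ∃ κ ∈ [0, 1], p * p = φ ((a * a) ^ κ) := by
    have k := hp.comp hp
    obtain ⟨P, c⟩ := F.ran _ (k.act (d2 _ (by simp))) (k.act (d2 _ (by simp)))
    rw [← c] at k ⊢
    rcases zz P (act_map F.inj (k.act (d2 _ (by simp)))) (act_map F.inj (k.act (d2 _ (by simp))))
      (act_map F.inj (k.act (d2 _ (by simp)))) (act_map F.inj (c ▸ hu.trans hu)) with
      rfl | rfl | rfl | rfl
    · exact ⟨0, by simp, by simp⟩
    · exact ⟨1, by simp, by simp⟩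
    · exact absurd (act_inj F.inj (act_of_comm (by rw [c, mul_assoc])) (hp.act d0.1)) (by decide +kernel)
    · exact absurd (act_inj F.inj (act_of_comm (by rw [c, mul_assoc])) (hp.act d0.2)) (by decide +kernel)
  have D' : ∀ κ ∈ [0, 1], (inD ((a * a) ^ κ) ∧ fx ((a * a) ^ κ) = (b * b) ^ κ) ∧
      (inD ((b * b) ^ κ) ∧ fx ((b * b) ^ κ) = ((a * a) ^ κ * (b * b) ^ κ)⁻¹) := by decide +kernel
  generalize x * (p * x⁻¹) = q at *
  generalize x⁻¹ * (p * x) = r at *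
  have qq : q * q = φ ((b * b) ^ κ) := by rw [← r3, conj_mul, pp]; exact F.ax.act (D' κ hκ).1
  have rr : r * r = (p * p * (q * q))⁻¹ := by
    rw [← r1, conj_mul, qq, pp, ← map_mul, ← map_inv]; exact F.ax.act (D' κ hκ).2
  obtain ⟨z1, z2, z3, z4, z5⟩ := d7 Z (by simpa using hZ)
  have z1 := (hp.act z1).fix
  have z2 := (hq.act z2).fix
  have z3 : φ Z * φ Z = 1 := by rw [← map_mul, z3, map_one]
  have er : r = q⁻¹ * p⁻¹ * φ Z := by rw [hz]; group
  have pq : p * q = q * p := by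
    have : r * r = q⁻¹ * p⁻¹ * (q⁻¹ * p⁻¹) := by
      rw [er, mul_assoc, ← mul_assoc (φ Z), ← mul_comm' (inv_comm z2) (inv_comm z1), mul_assoc,
        mul_assoc, z3, mul_one, mul_assoc]
    rw [rr, ← mul_inv_rev, ← mul_inv_rev, inv_inj, mul_assoc, mul_assoc, mul_right_inj, ← mul_assoc,
      ← mul_assoc, mul_left_inj] at this
    exact this
  have z6 : Act φ x Z Z := by
    have : p * r = r * p := by
      rw [er]; exact comm_mul (comm_mul (inv_comm pq.symm).symm (by group)) z1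
    rw [Act, hz, ← conj_mul, ← conj_mul, r1, r2, r3, ← this, ← mul_assoc, ← pq, mul_assoc]
  rw [z5 (act_inj F.inj (F.ax.act ⟨z4, rfl⟩) z6), map_one, mul_one] at er
  obtain ⟨h1, h⟩ := List.forall₂_cons.1 h
  obtain ⟨h2, h⟩ := List.forall₂_cons.1 h
  obtain ⟨h3, h⟩ := List.forall₂_cons.1 h
  obtain ⟨h4, -⟩ := List.forall₂_cons.1 h
  refine ⟨q, κ, hκ, ?_, h4.fix, ?_, ?_, ?_, ?_, (hq.act d4).fix, ?_, ?_, ?_, pq, ?_, er ▸ r4, r3,
    er ▸ r1, ?_⟩
  · simpa only [map_mul] using h1.eq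
  · simpa only [map_mul, map_pow] using h2.eq
  · simpa only [map_mul, map_pow] using h3.eq
  · simpa only [map_mul, map_pow] using pp
  · simpa only [map_mul] using (hq.act d3).eq
  · simpa only [map_mul, map_pow] using (hq.act d5).eq
  · simpa only [map_mul, map_pow] using (hq.act d6).eq
  · simpa only [map_mul, map_pow] using qq
  · rw [← hu.fix, mul_assoc, uu, mul_one]
  · simpa only [map_mul, map_pow] using hy.eq

theorem good {p : G} {μ : ℕ} (hμ : μ ∈ [0, 1]) (h : List.Forall₂ (Act φ p) [e, a, b, s]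
    [e * (a * a), a * (a * a) ^ μ, b * (a * a * (b * b)) ^ μ, s]) (hu : Act φ p u u)
    (hy : Act φ p y (y * u ^ μ)) :
    ∃ p q, ∃ κ ∈ [0, 1], PQ (φ e) (φ a) (φ b) (φ s) (φ u) x (φ y) p q μ κ := by
  have D : ∀ μ ∈ [0, 1], let l := [e * (a * a), a * (a * a) ^ μ, b * (a * a * (b * b)) ^ μ, s]
      (∀ w, inD w → inD (ap l w)) ∧ (fz l e = e ∧ fz l a = a ∧ fz l (b * b) = b * b ∧
      fz l s = s) ∧ fz l a = a ∧ fz l b = b ∧ (inD (e * (b * b)) ∧ fq l (e * (b * b)) = e) ∧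
      (inD (b * b) ∧ fr l (b * b) = b * b) := by decide +kernel
  obtain ⟨d1, d2, d3, d4, d5, d6⟩ := D μ hμ
  obtain ⟨hq, hr, hz⟩ := F.tri (AD.of h d1)
  obtain ⟨Z, z0, z1, z2, z3, z4⟩ := F.exZ hz d2
  rcases (zs Z z1 z2).2.2 (z3.trans d3) (z4.trans d4) with c | c
  · exact ⟨p, F.fin hμ h hu hy z0 c⟩
  · have k : ∀ {w w'}, Act φ p w w' → Act φ (p * φ e) w w' := fun {w w'} h =>
      (Act.of_cj φ (cj_iff.2 (cen w).1)).trans h
    refine ⟨p * φ e, F.fin hμ (h.imp fun _ _ => k) (k hu) (k hy) ?_ c⟩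
    have e1 := (hq.act d5).eq
    have e2 := (hr.act d6).fix
    have e3 : x * (p * φ e * x⁻¹) = x * (p * x⁻¹) * φ e := by
      rw [mul_assoc p, ← inv_comm F.xe]; group
    have e4 : x⁻¹ * (p * φ e * x) = x⁻¹ * (p * x) * φ e := by rw [mul_assoc p, ← F.xe]; group
    rw [e3, e4, map_mul, map_mul, z0]
    generalize x * (p * x⁻¹) = q at *
    generalize x⁻¹ * (p * x) = r at *
    have e5 : φ e * q * φ e = q * φ (b * b) := by
      nth_rewrite 1 [← e1]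
      rw [inv_mul_cancel_right, mul_assoc, ← map_mul,
        show e * (b * b) * e = b * b by decide +kernel]
    calc _ = p * (q * φ (b * b)) * r * φ e := by simp only [mul_assoc, ← e2]
      _ = _ := by rw [← e5]; group

theorem after {r : G} (r1 : Act φ r e (e * (a * a))) (r2 : Act φ r (a * a) (a * a))
    (r3 : Act φ r (b * b) (b * b)) : (∃ p q, ∃ μ ∈ [0, 1], ∃ κ ∈ [0, 1],
      PQ (φ e) (φ a) (φ b) (φ s) (φ u) x (φ y) p q μ κ) ∨ ∃ A, Act φ r a A ∧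
      ∃ d ∈ sp s (sp a (sp b [1, b * b])), d * A * d⁻¹ = b * b * a⁻¹ ∧ ∃ B, (B = b ∨ B = b * (a * a)) ∧
        List.Forall₂ (Act φ (φ d * r)) [e, a, b, s] [e * (a * a), b * b * a⁻¹, B, s] := by
  obtain ⟨A, hA⟩ := F.nm r r1 r2 a
  obtain ⟨B, hB⟩ := F.nm r r1 r2 b
  obtain ⟨S, hS⟩ := F.nm r r1 r2 s
  obtain ⟨U, hU⟩ := F.nm r r1 r2 u
  obtain ⟨Y, hY⟩ := F.nm r r1 r2 y
  have R : Rel (e * (a * a)) A B S U Y := Rel.of_map F.inj (by
    rw [← r1.eq, ← hA.eq, ← hB.eq, ← hS.eq, ← hU.eq, ← hY.eq]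
    exact (E2.rel.map φ).map (MulAut.conj r).toMonoidHom)
  obtain ⟨-, -, k2, k3, -, k5, -, -, k8, -, -, -, -, -, -, k15, k16, k17, k18, k19, k20, -⟩ := R
  have a2 : A * A = a * a := act_inj F.inj (hA.mul hA) r2
  have b2 : B * B = b * b := act_inj F.inj (hB.mul hB) r3
  rw [b2] at k16 k17
  obtain rfl : A = Y * (b * b) * Y⁻¹ * S := by rw [k16, mul_assoc, k3, mul_one]
  subst k18
  have sb : S * (b * b) = b * b * S :=
    act_inj F.inj (hS.mul r3) ((r3.mul hS).of_eq ⟨by decide +kernel, rfl⟩)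
  rcases auts Y k15 S k3 sb k19 a2 k17 B b2 k2 k5 k8 k20 with ⟨k, -, c⟩ | ⟨d, hd, n⟩
  · have k1 : ∀ z : E, z = 1 ∨ z = e → Cj (φ (z * (a * a))) (φ (z * (s * b))) := fun z hz => by
      have c1 : Act φ x (z * (a * a)) (z * (b * b)) :=
        F.ax.act (by rcases hz with rfl | rfl <;> decide +kernel)
      have c2 : Act φ (φ y) (z * (b * b)) (z * (a * s)) :=
        Act.of_cj φ (by rcases hz with rfl | rfl <;> decide +kernel)
      have c3 : Act φ x (z * (a * s)) (z * (b * s)) :=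
        F.ax.act (by rcases hz with rfl | rfl <;> decide +kernel)
      have c4 : Act φ (φ s) (z * (b * s)) (z * (s * b)) :=
        Act.of_cj φ (by rcases hz with rfl | rfl <;> decide +kernel)
      exact c1.cj.trans (c2.cj.trans (c3.cj.trans c4.cj))
    have k2 := k1 1 (Or.inl rfl)
    rw [one_mul, one_mul] at k2
    have := r1.cj.trans ((k1 e (Or.inr rfl)).trans ((Act.of_cj φ c).cj.symm.trans
      ((hS.mul hB).cj.symm.trans k2.symm)))
    exact absurd this F.nct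
  · have t : ∀ {w w'}, Act φ r w w' → Act φ (φ d * r) w (d * w' * d⁻¹) :=
      fun h => h.trans (Act.self φ d _)
    have p1 := (t r1).to (cj_iff.2 (comm_mul (cen d).1.symm (cen d).2.symm))
    have pA := t hA
    have pB := t hB
    have pU := t hU
    have pY := t hY
    have pS := (t hS).to n.1
    rcases n.2 with ⟨n1, n2, n3, n4⟩ | ⟨n1, n2, n3, n4⟩ | ⟨n1, n2⟩
    · obtain ⟨p, q, h⟩ := F.good (μ := 0) (by simp) (.cons p1 (.cons (pA.to (by simpa using n1))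
        (.cons (pB.to (by simpa using n2)) (.cons pS .nil)))) (pU.to n3) (pY.to (by simpa using n4))
      exact Or.inl ⟨p, q, 0, by simp, h⟩
    · obtain ⟨p, q, h⟩ := F.good (μ := 1) (by simp) (.cons p1 (.cons (pA.to (by simpa using n1))
        (.cons (pB.to (by simpa using n2)) (.cons pS .nil)))) (pU.to n3) (pY.to (by simpa using n4))
      exact Or.inl ⟨p, q, 1, by simp, h⟩
    · exact Or.inr ⟨_, hA, d, hd, n1, _, n2, .cons p1 (.cons (pA.to n1) (.cons pB (.cons pS .nil)))⟩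

theorem exists_pq0 {g : G} (g1 : Act φ g e (e * (a * a))) (g2 : Act φ g (a * a) (a * a)) :
    ∃ p q, ∃ μ ∈ [0, 1], ∃ κ ∈ [0, 1], PQ (φ e) (φ a) (φ b) (φ s) (φ u) x (φ y) p q μ κ := by
  obtain ⟨r, r1, r2, r3⟩ : ∃ r, Act φ r e (e * (a * a)) ∧ Act φ r (a * a) (a * a) ∧
      Act φ r (b * b) (b * b) := by
    obtain ⟨B, hB⟩ := F.nm g g1 g2 b
    have hB := hB.mul hB
    rcases sqs B (act_inj F.inj (hB.mul hB) ((Act.one _ _).of_eq (by decide +kernel))) with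
      c | c | ⟨k, c⟩
    · exact absurd (act_inj' F.inj (hB.to c) (Act.one _ _)) (by decide +kernel)
    · exact absurd (act_inj' F.inj (hB.to c) g2) (by decide +kernel)
    · exact ⟨φ k * g, Act.trans g1 (Act.of_cj φ (cj_iff.2 (comm_mul (cen k).1.symm (cen k).2.symm))),
        Act.trans g2 (Act.of_cj φ (cj_iff.2 (cen k).2.symm)), hB.trans (Act.of_cj φ c)⟩
  rcases F.after r1 r2 r3 with h | ⟨-, -, d, -, -, B, hB, h⟩
  · exact h
  obtain ⟨r', s1, s2, s3⟩ := F.third _ B hB h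
  rcases F.after s1 ((s2.mul s2).to (by decide +kernel)) s3 with h | ⟨A, hA, d, hd, c, -⟩
  · exact h
  rw [act_inj F.inj hA s2] at c
  exact absurd c ((by decide +kernel : ∀ d ∈ sp s (sp a (sp b [1, b * b])),
    d * (a * (a * a)) * d⁻¹ ≠ b * b * a⁻¹) d hd)

end F3

theorem f3_of_f2' {G : Type*} [Group G] [Finite G] {φ : E →* G} {x : G} (F : F2 φ x) : F3 φ x where
  toXR := F.toXR
  xe := F.xe
  inj := F.inj
  nct := by rw [map_mul]; exact F.not_cj
  nm := fun g g1 g2 w => by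
    have g3 : Act φ g (e * (a * a)) e := (g1.mul g2).to (by decide +kernel)
    have : ∀ {z z'}, Act φ g z z' → z * w = w * z → Act φ (g * φ w * g⁻¹) z' z' := fun h c =>
      act_of_comm (by rw [← h.eq]; exact cj_comm g (by rw [← map_mul, ← c, map_mul]))
    obtain ⟨w', c⟩ := F.ran _ (this g3 (mul_comm' (cen w).1 (cen w).2)) (this g2 (cen w).2)
    exact ⟨w', c.symm⟩
  ran := fun r h1 h2 => F.ran r h1 (h2.mul h2)
  third := fun r B n2 h => by
    have D : ∀ B ∈ [b, b * (a * a)], let l := [e * (a * a), b * b * a⁻¹, B, s]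
        (∀ w, inD w → inD (ap l w)) ∧ (fz l e = e ∧ fz l (a * a) = a * a ∧ fz l (b * b) = b * b ∧
        fz l s = s) ∧ (fz l a = a * (b * b) ∨ fz l a = a * (a * a * (b * b))) := by decide +kernel
    obtain ⟨d1, d2, d3⟩ := D B (by simpa using n2)
    obtain ⟨Z, -, z1, z2, z3, -⟩ := F.exZ (F.tri (AD.of h d1)).2.2 d2
    exact (d3.elim (fun c => (zs Z z1 z2).1 (z3.trans c))
      fun c => (zs Z z1 z2).2.1 (z3.trans c)).elim

end

variable {H : Type*} [Group H] [Finite H] {φ : E2.E →* H} {x : H}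

theorem F3.exists_pq (F : F3 φ x) (hs : ∃ r, Act φ r E2.e (E2.e * (E2.a * E2.a)) ∧
    Act φ r (E2.a * E2.a) (E2.a * E2.a)) : ∃ p q, ∃ μ ∈ [0, 1], ∃ κ ∈ [0, 1],
    PQ (φ E2.e) (φ E2.a) (φ E2.b) (φ E2.s) (φ E2.u) x (φ E2.y) p q μ κ :=
  let ⟨_, g1, g2⟩ := hs
  F.exists_pq0 g1 g2

theorem f3_of_f2 (F : F2 φ x) : F3 φ x := f3_of_f2' F

end H30.CS
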