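import Mathlib
import Cfsg.Agent.Base
import Cfsg.Agent.Lib.Co3S.Defs
import Cfsg.Agent.Lib.Co3M.Wr

/-! The wreathed case is impossible. -/

set_option autoImplicit false
set_option maxRecDepth 100000
set_option linter.unusedSectionVars false

namespace H30.CS

open Subgroup H69 Cfsg H70.TM H30.CM

section

variable {H : Type*} [Group H] [Finite H] {L : Subgroup H} {e a b s u x y g p q : H}
  {C : H → Prop} {n m : ℕ}

theorem rank5C (F : Fr e a b s u x y) (D : FD e C n m) {f : H} (hf : C f) {l : List H}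
    (hn : l.Nodup) (hl : 16 < l.length)
    (h : ∀ w ∈ l, w * w = 1 ∧ w * f = f * w ∧ ∀ v ∈ l, w * v = v * w) : False := by
  have co : ∀ v ∈ {w | w ∈ f :: l}, ∀ w ∈ {w | w ∈ f :: l}, v * w = w * v := by
    intro v hv w hw
    rcases List.mem_cons.1 hv with e1 | h1 <;> rcases List.mem_cons.1 hw with e2 | h2
    exacts [e1.trans e2.symm ▸ rfl, e1 ▸ (h w h2).2.1.symm, e2 ▸ (h v h1).2.1, (h v h1).2.2 w h2]
  have cm : ∀ v ∈ closure {w | w ∈ f :: l}, ∀ w ∈ closure {w | w ∈ f :: l}, v * w = w * v :=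
    fun v hv w hw => congrArg Subtype.val ((closureCommGroupOfComm co).mul_comm ⟨v, hv⟩ ⟨w, hw⟩)
  have pg : IsPGroup 2 (closure {w | w ∈ f :: l}) := isP_of_pow 1 fun p hp => by
    rw [pow_one, pow_two]
    induction hp using closure_induction with
    | mem p hp =>
      rcases List.mem_cons.1 hp with rfl | hp
      exacts [(D.sq _ hf).1, (h p hp).1]
    | one => exact mul_one _
    | mul p q hp hq a b => rw [mul_assoc, ← mul_assoc q, ← cm p hp q hq, mul_assoc, b, mul_one, a]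
    | inv p hp a => rw [← mul_inv_rev, a, inv_one]
  have hfP : f ∈ closure {w | w ∈ f :: l} := subset_closure List.mem_cons_self
  have hlP : ∀ w ∈ l, w ∈ closure {w | w ∈ f :: l} := fun w hw => subset_closure (List.mem_cons_of_mem _ hw)
  obtain ⟨θ, i, e0⟩ := D.tr f hf _ pg hfP fun p hp => cm p hp f hfP
  refine F.rank5 (Cj.refl e) (L := l.pmap (fun w hw => θ ⟨w, hw⟩) hlP)
    (hn.pmap fun _ _ _ _ c => congrArg Subtype.val (i c)) (by rwa [List.length_pmap]) fun w hw => ?_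
  obtain ⟨w, hw', rfl⟩ := List.mem_pmap.1 hw
  refine ⟨?_, ?_, fun v hv => ?_⟩
  · rw [← map_mul, ← map_one θ]; exact congrArg θ (Subtype.ext (h w hw').1)
  · rw [← e0, ← map_mul, ← map_mul]; exact congrArg θ (Subtype.ext (h w hw').2.1)
  · obtain ⟨v, hv', rfl⟩ := List.mem_pmap.1 hv
    rw [← map_mul, ← map_mul]; exact congrArg θ (Subtype.ext ((h w hw').2.2 v hv'))

end

section
open Wr R00

variable {G : Type*} [Group G] [Finite G]

theorem coreC {φ : E →* G} {u x y ι : G} {C : G → Prop} {n m : ℕ} (F : Fr (φ e) (φ a) (φ b) (φ s) u x y)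
    (D : FD (φ e) C n m)
    (i2 : ι * ι = 1) (iu : ι * u = u * ι) (hI : List.Forall₂ (Act φ ι) gs lI)
    (hU : List.Forall₂ (Act φ u) gs lU) {l : List E} (hl : l ∈ lX) (hX : List.Forall₂ (Act φ x) gs l) :
    False := by
  obtain ⟨χ, rfl, rfl⟩ := K4.model ⟨i2, F.r2.2.2.2.2.2.2.1, iu⟩
  have hc := compat (α := α) (f := φ) (g := χ) (List.forall_mem_cons.2 ⟨fun g hg => act_w hI g (dT g hg).1,
    List.forall_mem_cons.2 ⟨fun g hg => act_w hU g (dT g hg).2, fun _ h => absurd h List.not_mem_nil⟩⟩)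
  let ψ := lift α φ χ hc
  have il : ∀ r, ψ (inl α r) = φ r := lift_inl hc
  have ir : ∀ k, ψ (inr α k) = χ k := lift_inr hc
  have i0 : ∀ z : H, z.k = 1 → ψ z = 1 → z = 1 := fun z h c => by
    rw [eq_inl h, il] at c
    rw [eq_inl h, (map_eq_one_iff φ (inj F)).1 c, map_one]
  have i1 : ∀ z r, ψ z = 1 → z * inl α r = inl α r * z := fun z r c => cj_iff.1 (mul_inv_eq_one.1
    (i0 _ (show z.k * 1 * z.k⁻¹ * 1⁻¹ = 1 by simp) (by simp [c])))
  have i : Function.Injective ψ := (injective_iff_map_eq_one ψ).2 fun z c =>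
    i0 z (dJ z (i1 z _ c) (i1 z _ c)) c
  let L : Subgroup G := normalizer (ψ '' {z | z ∈ O})
  have m1 : ∀ g ∈ gs.map (inl α) ++ [inr α K4.n, inr α K4.w], ψ g ∈ L := fun g hg =>
    mem_normalizer_fintype (by
      rintro _ ⟨h, hh, rfl⟩
      exact ⟨_, dO g hg h hh, by rw [map_mul, map_mul, map_inv]⟩)
  have m2 : ∀ g, ψ g ∈ L := fun g => by
    have h1 : (L.comap ψ).comap (inl α) = ⊤ := R00.eq_top (m1 _ (by simp [gs])) (m1 _ (by simp [gs]))
      (m1 _ (by simp [gs])) (m1 _ (by simp [gs])) (m1 _ (by simp [gs])) (m1 _ (by simp [gs]))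
    have h2 : (L.comap ψ).comap (inr α) = ⊤ := K4.eq_top (m1 _ (by simp)) (m1 _ (by simp))
    rw [← inl_mul_inr g, map_mul]
    exact mul_mem (h1.ge (mem_top _)) (h2.ge (mem_top _))
  obtain ⟨x1, x2, x3⟩ := dX l hl
  have m3 : x ∈ L := mem_normalizer_fintype (by
    rintro _ ⟨h, hh, rfl⟩
    obtain ⟨c, -, rfl, h2⟩ := x1 h hh
    exact ⟨_, h2, by rw [il, il]; exact (act_evw hX c).eq.symm⟩)
  have o0 : ∀ {z w : G} {g : G}, z ∈ H4.YM.orb L (φ e) → g ∈ L → g * z * g⁻¹ = w → w ∈ H4.YM.orb L (φ e) :=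
    fun ⟨k, hk, c⟩ hg d => ⟨_, mul_mem hg hk, cj_trans c d⟩
  have o1 : ∀ {z w : H}, ψ z ∈ H4.YM.orb L (φ e) → Cj z w → ψ w ∈ H4.YM.orb L (φ e) :=
    fun hz ⟨g, c⟩ => o0 hz (m2 g) (Act.of_cj ψ c)
  have o2 : φ e ∈ H4.YM.orb L (φ e) := ⟨1, one_mem _, H4.YM.one_cj _⟩
  have o3 : ∀ h ∈ C3, ψ h ∈ H4.YM.orb L (φ e) := fun h hh => o1 (by
    rw [il]; exact o0 (o0 o2 (ir _ ▸ m2 (inr α K4.n)) (act_w hI 1 (by decide +kernel))) m3 (act_w hX _ x2))
    (dC.2.2.1 h hh)
  have o4 : ∀ h ∈ C2, ψ h ∈ H4.YM.orb L (φ e) := fun h hh => o1 (by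
    have := o3 _ x3
    rw [il] at this ⊢
    exact o0 this (inv_mem m3) (act_w hX 0x42145 (u := p * s * (e * (a * s))) ⟨by decide +kernel, rfl⟩).symm)
    (dC.2.1 h hh)
  have o5 : ∀ h ∈ O, ψ h ∈ H4.YM.orb L (φ e) := fun h hh => by
    rcases List.mem_append.1 hh with hh | hh
    · rcases List.mem_append.1 hh with hh | hh
      exacts [o1 (by rwa [il]) (dC.1 h hh), o4 h hh]
    · exact o3 h hh
  have o6 : H4.YM.orb L (φ e) = ψ '' {z | z ∈ O} := Set.ext fun z => ⟨fun ⟨g, hg, c⟩ =>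
    c ▸ (mem_set_normalizer_iff.1 hg _).1 ⟨_, dC.2.2.2.2.2.2.2, il _⟩, fun ⟨h, hh, c⟩ => c ▸ o5 h hh⟩
  have c1 := H4.YM.card_orb L (φ e)
  rw [o6, ncard_list i dC.2.2.2.2.2.1, show O.length = 32 from rfl] at c1
  obtain ⟨τ, -, t1, t2, t3, t4, t5, hS, c2⟩ := F.modT
  have c3 : 128 ∣ Nat.card (L ⊓ 𝐂₀(φ e) :) := c2 ▸ card_dvd_of_le (le_inf (by
    rintro _ ⟨z, rfl⟩
    exact (T.eq_top (K := L.comap τ) (mem_comap.2 (t1 ▸ il _ ▸ m2 _)) (mem_comap.2 (t2 ▸ il _ ▸ m2 _))
      (mem_comap.2 (t3 ▸ il _ ▸ m2 _)) (mem_comap.2 (t4 ▸ il _ ▸ m2 _))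
      (mem_comap.2 (t5 ▸ ir _ ▸ m2 _))).ge (mem_top z)) hS.le)
  have cj : ∀ {z}, z ∈ H4.YM.orb L (φ e) → Cj (φ e) z := fun ⟨g, _, c⟩ => ⟨g, c⟩
  have cC : ∀ {z}, Cj (φ e) z → C z := fun ⟨g, c⟩ => c ▸ D.cj _ g D.self
  have e48 : {z | z ∈ ψ.range ∧ C z} = ψ '' {z | z ∈ O ++ C4} := Set.ext fun z => by
    constructor
    · rintro ⟨⟨h, rfl⟩, c⟩
      rcases dI h (i (by rw [map_mul, (D.sq _ c).1, map_one])) with d | ⟨A, hA, d⟩
      · exact ⟨h, d, rfl⟩
      · obtain ⟨a1, a2, a3⟩ := dA A hA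
        refine (rank5C F D c (a1.map i) (by rwa [List.length_map]) fun w hw => ?_).elim
        obtain ⟨w, hw', rfl⟩ := List.mem_map.1 hw
        refine ⟨by rw [← map_mul, (a3 w hw').1, map_one], by simp only [← map_mul, (a3 w hw').2 h d],
          fun v hv => ?_⟩
        obtain ⟨v, hv', rfl⟩ := List.mem_map.1 hv
        simp only [← map_mul, (a3 w hw').2 v hv']
    · rintro ⟨h, hh, rfl⟩
      refine ⟨⟨h, rfl⟩, ?_⟩
      rcases List.mem_append.1 hh with hh | hh
      · exact cC (cj (o5 h hh))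
      · refine cC (((cj (o5 _ dC.2.2.2.2.2.2.1)).trans ⟨y, ?_⟩).trans ((dC.2.2.2.1 h hh).map ψ))
        obtain ⟨-, -, -, -, -, -, -, -, -, -, -, -, -, -, -, -, -, -, k3, -, -, k5⟩ := F.r2
        rw [il, map_mul, ← conj_mul, k3, cj_iff.2 k5]
        rfl
  have c4 : Nat.card ψ.range = 1024 := by
    rw [← Nat.card_congr (MonoidHom.ofInjective i).toEquiv, SE.card, R00.card, K4.card]
  obtain ⟨f, j, c5, f1, f2⟩ := D.par ψ.range (IsPGroup.of_card (n := 10) c4)
  rw [e48, ncard_list i dC.2.2.2.2.1, show (O ++ C4).length = 48 from rfl, c4, F.c1] at f1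
  obtain ⟨k1, c6⟩ := (card_subgroup_dvd_card L).trans D.dvd
  obtain ⟨k2, c7⟩ := c3
  obtain ⟨k3, c8⟩ := D.odd
  rw [c4, c6, ← c1, c7, mul_assoc, mul_assoc] at c5
  generalize k2 * k1 = k at c5
  omega

theorem not00C' {e a b s u x y p q : G} {C : G → Prop} {n m : ℕ} (F : Fr e a b s u x y)
    (P : PQ e a b s u x y p q 0 0) (D : FD e C n m) : False := by
  obtain ⟨r0, r1, r2, r3, r4, r5, u0, u1, u2, u3, r6, r7, r8, r9, u4, -, y1, -, y2, y3, -⟩ := F.r2
  obtain ⟨φ, rfl, rfl, rfl, rfl, rfl, rfl⟩ := R00.model ⟨r0, r1, r2, r3, r4, r5, r6, r7, r8, r9,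
    P.pe, P.ps, by simpa only [pow_zero, mul_one] using P.pa,
    by simpa only [pow_zero, mul_one] using P.pb, by simpa only [pow_zero] using P.pp, P.qe, P.qs,
    by simpa only [pow_zero, mul_one] using P.qa, by simpa only [pow_zero, mul_one] using P.qb,
    by simpa only [pow_zero] using P.qq, P.pq⟩
  have i := inj F
  have ui : u⁻¹ = u := inv_eq_of_mul_eq_one_right u0
  have hU : List.Forall₂ (Act φ u) gs lU := .cons (act_of_comm u4.symm) (.cons (by rwa [Act, ui])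
    (.cons (by rw [Act, ui, map_mul, map_inv, map_inv, u2]) (.cons (act_of_comm u3)
    (.cons (by rw [Act, ui, P.up]) (.cons (by rw [Act, ui, map_mul, map_inv, map_inv, P.uq]) .nil)))))
  have hX : List.Forall₂ (Act φ x) gs [R00.e, R00.b, R00.a⁻¹ * R00.b⁻¹, R00.s, R00.q, R00.q⁻¹ * R00.p⁻¹] :=
    .cons (act_of_comm F.xe) (.cons F.xa (.cons (by rw [Act, map_mul, map_inv, map_inv, F.xb])
    (.cons (act_of_comm F.xs) (.cons P.xp (.cons (by rw [Act, map_mul, map_inv, map_inv, P.xq]) .nil)))))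
  obtain ⟨i1, i2, i3⟩ := F.iota (f := φ R00.q) (by simp only [← map_mul]; exact congrArg φ (by decide +kernel))
    (by simp only [← map_mul]; exact congrArg φ (by decide +kernel))
    (by simp only [← map_mul]; exact congrArg φ (by decide +kernel)) P.qe
  have k : ∀ {g g' h h' : G}, y * g' * y⁻¹ = g → φ R00.q * g' * (φ R00.q)⁻¹ = h' → y * h' * y⁻¹ = h →
      y * φ R00.q * y⁻¹ * g * (y * φ R00.q * y⁻¹)⁻¹ = h := fun c d f => by
    rw [mul_assoc y]; exact cj_trans (cj_trans (cj_symm c) d) f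
  have yp : y * φ R00.p * y⁻¹ = φ R00.p := cj_iff.2 (cj_iff.1 (by simpa only [pow_zero, mul_one] using P.py)).symm
  have ii : y * φ R00.q * y⁻¹ * (y * φ R00.q * y⁻¹) = 1 := cj_sq y (by simpa only [pow_zero] using P.qq)
  have iu := k y2 (cj_iff.2 P.qs) y2
  have ias := k y1 (Act.of_cj φ (u := R00.b * R00.b) (w := R00.b * R00.b) (by decide +kernel) |> fun h => by
    simpa only [Act, map_mul] using h) y1
  have ip := k yp (cj_iff.2 P.pq.symm) yp
  have isu := k y3 (h' := u * φ R00.p) (by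
    rw [← mul_right_inj u, ← mul_assoc, ← mul_assoc, P.uq, ← mul_assoc, u0, one_mul, ← map_inv, ← map_inv,
      ← map_mul, ← map_mul]
    exact congrArg φ (by decide +kernel)) (by rw [← conj_mul, y3, yp])
  generalize y * φ R00.q * y⁻¹ = ι at *
  simp only [← map_mul] at i1 i2 i3 ias
  have is : Act φ ι R00.s (R00.p * R00.s) := by
    have up : u * φ R00.p = φ R00.p * u := by rw [← P.up, ← mul_assoc, ← mul_assoc, u0, one_mul, P.up]
    rw [← conj_mul, iu, mul_assoc (φ R00.s), up, ← mul_assoc, mul_left_inj, ← P.ps, ← map_mul] at isu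
    exact isu
  have ia : Act φ ι R00.a (R00.p * R00.a) := (Act.mul ias is.inv).of_eq (by decide +kernel)
  have it := act_of_comm i1
  have iv := act_of_comm i2
  have ii' : ι⁻¹ = ι := inv_eq_of_mul_eq_one_right ii
  have sy : ∀ {w w'}, Act φ ι w w' → Act φ ι w' w := fun h => ii' ▸ h.symm
  obtain ⟨B, hB⟩ : ι * φ R00.b * ι⁻¹ ∈ φ.range := by
    refine F.memR P (K := φ.range) ⟨_, rfl⟩ ⟨_, rfl⟩ ⟨_, rfl⟩ ⟨_, rfl⟩ ⟨_, rfl⟩ ⟨_, rfl⟩ ?_ ?_ ?_ ?_ ?_ ?_ (.inr (.inr (.inl ?_))) <;>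
      simp only [← map_mul]
    · exact congrArg φ (by decide +kernel)
    · exact congrArg φ (by decide +kernel)
    · exact congrArg φ (by decide +kernel)
    · exact congrArg φ (by decide +kernel)
    · rw [mul_assoc ι]
      exact ((it.symm.trans (Act.of_cj φ (k := R00.b) (by decide +kernel))).trans it).fix
    · rw [mul_assoc ι]
      exact ((iv.symm.trans (Act.of_cj φ (k := R00.b) (by decide +kernel))).trans iv).fix
    · rw [mul_assoc ι]
      exact ((sy i3).symm.trans (Act.of_cj φ (k := R00.b) (by decide +kernel))).trans ((sy i3).mul iv)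
  have ib : Act φ ι R00.b B := hB.symm
  have hu : ∀ r, Act φ u r (α.act K4.w r) := act_of_gens (α.act_one _) (fun _ _ _ => α.hom _ _ _)
    fun g hg => act_w hU g (dT g hg).2
  have co : ∀ {w w'}, Act φ ι w w' → w * R00.b = R00.b * w → w' * B = B * w' := fun h c =>
    act_inj i (h.mul ib) ((ib.mul h).of_eq ⟨c.symm, rfl⟩)
  have hb := dB B (act_inj i (ib.mul ib) iv) (co ia (by decide +kernel))
    (act_inj i (((is.mul ib).mul is).mul ib) ((Act.one _ _).of_eq (by decide +kernel)))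
    (co i3 (by decide +kernel)) (co ip (by decide +kernel))
    (act_inj i (ib.trans (hu B)) (by
      rw [← cj_iff.1 iu]
      exact (act_w hU 3 (by decide +kernel)).trans (ia.inv.mul ib.inv)))
  rcases hb with rfl | rfl
  · exact coreC F D ii (cj_iff.1 iu) (.cons i3 (.cons ia (.cons ib (.cons is (.cons ip
      (.cons (((sy ib).mul ib.inv).of_eq (by decide +kernel)) .nil)))))) hU (by simp [lX]) hX
  · obtain ⟨σ, s1, s2, s3, s4, s5, s6⟩ := R00.model (show R00.Rel R00.e R00.a R00.b R00.s R00.p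
      (R00.q * (R00.a * R00.a)) by decide +kernel)
    have hI : List.Forall₂ (Act φ ι) gs [_, _, _, _, _, R00.q] := .cons i3 (.cons ia (.cons ib (.cons is (.cons ip
      (.cons ((((sy ib).mul it.inv).mul ib.inv).of_eq (by decide +kernel)) .nil)))))
    have tr : ∀ {m : G} {l : List E}, List.Forall₂ (Act φ m) gs l → ∀ {l' : List E},
        [1, 2, 3, 4, 5, 0x226].map (evw l 16) = l'.map σ → List.Forall₂ (Act (φ.comp σ) m) gs l' := by
      intro m l h l' c
      have : List.Forall₂ (Act φ m) (gs.map σ) (l'.map σ) := by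
        rw [← c, show gs.map σ = [1, 2, 3, 4, 5, 0x226].map (evw gs 16) by
          simp only [gs, List.map, s1, s2, s3, s4, s5, s6]; decide +kernel]
        exact List.forall₂_map_left_iff.2 (List.forall₂_map_right_iff.2 (List.forall₂_same.2
          fun c _ => act_evw h c))
      rw [List.forall₂_map_left_iff, List.forall₂_map_right_iff] at this
      exact this
    refine coreC (φ := φ.comp σ) (C := C) (n := n) (m := m) (x := x) (y := y) (by simpa only [MonoidHom.comp_apply, s1, s2, s3, s4] using F)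
      (by simpa only [MonoidHom.comp_apply, s1] using D) ii (cj_iff.1 iu) (tr hI ?_) (tr hU ?_)
      (List.mem_cons_of_mem _ List.mem_cons_self) (tr hX ?_) <;>
    simp only [lI, lU, List.map, map_mul, map_inv, s1, s2, s3, s4, s5, s6] <;> decide +kernel

end

variable {H : Type*} [Group H] [Finite H] {L : Subgroup H} {e a b s u x y g p q : H}
  {C : H → Prop} {n m : ℕ}

theorem not00C (F : Fr e a b s u x y) (P : PQ e a b s u x y p q 0 0) (D : FD e C n m) : False :=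
  not00C' F P D

end H30.CS
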