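import Mathlib
import Cfsg.Agent.Base
import Cfsg.Agent.Lib.Co3S.Defs
import Cfsg.Agent.Lib.Co3M.Kill
import Cfsg.Agent.Lib.Co3S.PQ3
import Cfsg.Agent.Lib.Co3S.WR
import Cfsg.Agent.Lib.Co3S.CA2

/-! The inner case: from the frame to the group of order 9216. -/

set_option autoImplicit false
set_option maxRecDepth 100000
set_option linter.unusedSectionVars false

namespace H30.CS

open Subgroup H69 Cfsg H70.TM H30.CM

variable {H : Type*} [Group H] [Finite H] {L : Subgroup H} {e a b s u x y g p q : H}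
  {C : H → Prop} {n m : ℕ}

theorem nsqC (F : Fr e a b s u x y) (D : FD e C n m) (c : H) : ¬ C (c * c) := fun h => by
  have hp : IsPGroup 2 (zpowers c) := isP_of_pow 2 (by
    rintro _ ⟨i, rfl⟩
    have : c ^ 2 ^ 2 = 1 := by rw [show 2 ^ 2 = 2 * 2 from rfl, pow_mul, pow_two, pow_two, (D.sq _ h).1]
    rw [← zpow_natCast, ← zpow_mul, mul_comm, zpow_mul, zpow_natCast, this, one_zpow])
  obtain ⟨f, -, k⟩ := D.tr _ h _ hp (mul_mem (mem_zpowers c) (mem_zpowers c)) (by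
    rintro _ ⟨i, rfl⟩
    exact (((Commute.refl c).mul_right (Commute.refl c)).zpow_left i).eq)
  exact F.nsq (f ⟨c, mem_zpowers c⟩) (by rw [← map_mul]; exact k)

theorem cetC (F : Fr e a b s u x y) (D : FD e C n m) : C (e * (a * a)) := by
  by_contra c
  have ns := nsqC F D
  obtain ⟨ψ, i, rfl, rfl, -, -, -, hS, h128⟩ := F.modT
  obtain ⟨k, ⟨k', hk⟩, h5⟩ := D.syl _ hS (by
    rintro _ ⟨w, rfl⟩ h1 h2
    rcases T.zen w (fun v => i (by rw [map_mul, map_mul, h1 _ ⟨v, rfl⟩])) with rfl | rfl | rfl | rfl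
    · exact absurd (map_one ψ) (D.sq _ h2).2
    · rfl
    · exact absurd (map_mul ψ _ _ ▸ h2) (ns _)
    · exact absurd (by simpa only [map_mul] using h2) c)
  have h3 : Nat.card (T.T0.map ψ) = 64 := by rw [card_map_of_injective i, T.card_T0]
  obtain ⟨f, j, h7, h1, h2⟩ := D.par (T.T0.map ψ) (IsPGroup.of_card (n := 6) h3)
  obtain ⟨r, h4⟩ : 2 ∣ Set.ncard {x | x ∈ T.T0.map ψ ∧ C x} :=
    even_ncard (t := ψ (T.a * T.a)) (by rw [map_mul]; exact F.ne)
      (by rw [← map_mul, show T.a * T.a * (T.a * T.a) = 1 by decide +kernel, map_one]) (by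
        rintro _ ⟨⟨w, hw, rfl⟩, k⟩
        rw [← map_mul]
        refine ⟨⟨_, (T.pair w hw).1, rfl⟩, ?_⟩
        rcases (T.pair w hw).2 (i (by rw [map_mul, (D.sq _ k).1, map_one])) with rfl | rfl | d
        · exact absurd (map_one ψ) (D.sq _ k).2
        · exact absurd (map_mul ψ _ _ ▸ k) (ns _)
        · obtain ⟨g, c⟩ := d.map ψ
          exact c ▸ D.cj _ g k)
  rw [h3, h4, F.c1, mul_right_comm, mul_assoc 2] at h1
  rw [h128] at h5
  rw [h3] at h7
  generalize r * m = z at h1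
  omega

theorem swapC (F : Fr e a b s u x y) (c0 : Cj e (e * (a * a))) :
    ∃ g, g * e * g⁻¹ = e * (a * a) ∧ g * (a * a) * g⁻¹ = a * a := by
  obtain ⟨h, hh⟩ := c0.symm
  obtain ⟨ψ, i, rfl, rfl, -, -, -, hS, -⟩ := F.modT
  obtain ⟨c, hc, l⟩ := hS.exists_cj_le (R := ψ.range ^ᶜ h) (hS.isP.map _) (by
    rw [cj_le_iff]
    rintro _ ⟨w, rfl⟩
    refine mem_cj.2 (mem_c.2 ?_)
    rw [← hh, inv_inv]
    refine cj_comm h ?_
    simp only [← map_mul]
    rw [comm_mul (T.cen w).1.symm (T.cen w).2.symm])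
  rw [cj_cj] at l
  have k := cj_trans hh (cj_iff.2 (mem_c.1 hc))
  have t := (norm_T i (fun _ => F.not_cj) (mem_normalizer_of_cj_le l)).2.eq
  rw [map_mul] at t
  refine ⟨c * h, ?_, t⟩
  rw [← conj_mul, t] at k
  rw [eq_mul_inv_of_mul_eq k, ← map_mul, ← map_inv, show (T.a * T.a)⁻¹ = T.a * T.a by decide +kernel]

theorem fr_ca (F : Fr e a b s u x y) (D : FD e C n m)
    (sw : C (e * (a * a)) → Cj e (e * (a * a))) :
    ∃ (φ : P.E →* H) (x y : H), CA φ x y ∧ φ P.e = e := by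
  obtain ⟨r, r1, r2⟩ := swapC F (sw (cetC F D))
  obtain ⟨φ, rfl, rfl, rfl, rfl, rfl, rfl, h⟩ := F.f2
  obtain ⟨p, q, μ, hμ, κ, hκ, hP⟩ := (f3_of_f2 h).exists_pq ⟨r, by simpa only [Act, map_mul] using r1,
    by simpa only [Act, map_mul] using r2⟩
  simp only [List.mem_cons, List.not_mem_nil, or_false] at hμ hκ
  rcases hμ with rfl | rfl <;> rcases hκ with rfl | rfl
  exacts [(not00C F hP D).elim, (not01 F hP).elim, (not10 F hP).elim, exists_ca2 F hP]

end H30.CS
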