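import Mathlib
import Cfsg.Agent.Base
import Cfsg.Agent.Lib.Co3S.Defs
import Cfsg.Agent.Lib.Co3S.O0
import Cfsg.Agent.Lib.Co3S.PQ3

/-!
# Standard subgroups of type `M₁₂`, the outer case: the fusion of `e` and `e t` (helper84)
-/

set_option autoImplicit false
set_option maxRecDepth 100000
set_option linter.unusedSectionVars false

namespace H30.CS

open Subgroup H69 Cfsg H70.TM H30.CM

variable {H : Type*} [Group H] [Finite H] {L : Subgroup H} {e a b s u x y g p q : H}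
  {C : H → Prop} {n m : ℕ}

namespace O1

theorem card_two {M P : Subgroup H} (hl : M ≤ P) (h : M.relIndex P = 2) :
    Nat.card P = 2 * Nat.card M := by
  have := (M.subgroupOf P).index_mul_card
  rw [Nat.card_congr (subgroupOfEquivOfLe hl).toEquiv] at this
  exact this.symm.trans (congrArg (· * Nat.card M) h)

theorem σt : TS.σ (T.a * T.a) = T.a * T.a := by decide +kernel

theorem tt : T.a * T.a * (T.a * T.a) = 1 := by decide +kernel

theorem einv : T.e⁻¹ = T.e := by decide +kernel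

variable {ψ : T.E →* H}

theorem gmul (hg : ∀ w, Act ψ g w (TS.σ w)) (w : T.E) : g * ψ w = ψ (TS.σ w) * g := by
  rw [← (hg w).eq, inv_mul_cancel_right]

theorem mul2 (hg : ∀ w, Act ψ g w (TS.σ w)) (r w : T.E) :
    ψ r * g * ψ w = ψ (r * TS.σ w) * g := by
  rw [mul_assoc, gmul hg, map_mul, mul_assoc]

theorem mul3 (hg : ∀ w, Act ψ g w (TS.σ w)) (r w : T.E) :
    ψ r * g * (ψ w * g) = ψ (r * TS.σ w) * (g * g) := by
  rw [← mul_assoc, mul2 hg, mul_assoc]

/-- the centre of the Sylow subgroup -/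
theorem zen (i : Function.Injective ψ) (hg : ∀ w, Act ψ g w (TS.σ w)) {S : Subgroup H}
    (hS : ∀ h, h ∈ S ↔ ∃ w, h = ψ w ∨ h = ψ w * g) {z : H} (hz : z ∈ S)
    (hc : ∀ k ∈ S, k * z = z * k) :
    z = 1 ∨ z = ψ T.e ∨ z = ψ T.a * ψ T.a ∨ z = ψ T.e * (ψ T.a * ψ T.a) := by
  obtain ⟨w, rfl | rfl⟩ := (hS z).1 hz
  · rcases T.zen w (fun k => i (by
      rw [map_mul, map_mul, hc _ ((hS _).2 ⟨k, Or.inl rfl⟩)])) with rfl | rfl | rfl | rfl
    · exact Or.inl (map_one ψ)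
    · exact Or.inr (Or.inl rfl)
    · exact Or.inr (Or.inr (Or.inl (map_mul ψ _ _)))
    · exact Or.inr (Or.inr (Or.inr (by simp only [map_mul])))
  · refine absurd (i ?_) (TS.nozen w)
    have := hc _ ((hS _).2 ⟨T.a, Or.inl rfl⟩)
    rw [mul2 hg, ← mul_assoc, mul_left_inj] at this
    rw [map_mul, ← this, map_inv, mul_inv_cancel_right]

/-- the subgroup of order 128 in the split case -/
def PP (ψ : T.E →* H) (g : H) (hg : ∀ w, Act ψ g w (TS.σ w)) (gg : g * g = 1) : Subgroup H where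
  carrier := {h | ∃ r ∈ T.T0, h = ψ r ∨ h = ψ r * g}
  one_mem' := ⟨1, one_mem _, Or.inl (map_one ψ).symm⟩
  mul_mem' := by
    rintro _ _ ⟨r, hr, rfl | rfl⟩ ⟨w, hw, rfl | rfl⟩
    · exact ⟨_, mul_mem hr hw, Or.inl (map_mul ψ _ _).symm⟩
    · exact ⟨_, mul_mem hr hw, Or.inr (by rw [map_mul, mul_assoc])⟩
    · exact ⟨_, mul_mem hr (TS.in0_σ w hw), Or.inr (mul2 hg r w)⟩
    · exact ⟨_, mul_mem hr (TS.in0_σ w hw), Or.inl (by rw [mul3 hg, gg, mul_one])⟩
  inv_mem' := by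
    rintro _ ⟨r, hr, rfl | rfl⟩
    · exact ⟨_, inv_mem hr, Or.inl (map_inv ψ _).symm⟩
    · exact ⟨_, TS.in0_σ _ (inv_mem hr), Or.inr (by
        rw [← gmul hg, mul_inv_rev, inv_eq_of_mul_eq_one_right gg, map_inv])⟩

end O1

open O1

theorem Fo.cet (F : Fo L e a b s u x y g) (D : FD e C n m) : C (e * (a * a)) := by
  by_contra c
  have nct := F.nct D
  obtain ⟨ψ, i, rfl, rfl, rfl, -, -, hg, ng, S, hS, h256, mS⟩ := F.modT
  obtain ⟨k, ko, hk⟩ := D.syl S hS fun w hw hc hC => by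
    rcases zen i hg mS hw hc with rfl | rfl | rfl | rfl
    · exact absurd rfl (D.sq _ hC).2
    · rfl
    · exact absurd hC nct
    · exact absurd hC c
  have cc : ∀ {r w : T.E}, Cj r w → C (ψ r) → C (ψ w) := by
    rintro r _ ⟨d, rfl⟩ h
    simpa only [map_mul, map_inv] using D.cj _ (ψ d) h
  rcases F.gg with gg | gg
  · have le : PP ψ g hg gg ≤ S := by
      rintro _ ⟨r, -, h⟩
      exact (mS _).2 ⟨r, h⟩
    have l0 : T.T0.map ψ ≤ PP ψ g hg gg := by
      rintro _ ⟨r, hr, rfl⟩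
      exact ⟨r, hr, Or.inl rfl⟩
    have ix : (T.T0.map ψ).relIndex (PP ψ g hg gg) = 2 :=
      relIndex_eq_two_iff_exists_notMem_and.2 ⟨g, ⟨1, one_mem _, Or.inr (by simp)⟩,
        fun ⟨w, _, h⟩ => ng w h, by
          rintro _ ⟨r, hr, rfl | rfl⟩
          · exact Or.inr ⟨r, hr, rfl⟩
          · exact Or.inl ⟨r, hr, by rw [mul_assoc, gg, mul_one]⟩⟩
    have h3 : Nat.card (PP ψ g hg gg) = 128 := by
      rw [card_two l0 ix, card_map_of_injective i, T.card_T0]
    obtain ⟨f, j, h1, h2, h4⟩ := D.par _ (hS.isP.to_le le)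
    obtain ⟨d, h5⟩ : 2 ∣ Set.ncard {w | w ∈ PP ψ g hg gg ∧ C w} :=
      even_ncard (t := ψ (T.a * T.a)) (by rw [map_mul]; exact F.ne)
        (by rw [← map_mul, tt, map_one]) (by
          rintro _ ⟨⟨w, hw, rfl | rfl⟩, hC⟩
          · rw [← map_mul]
            refine ⟨⟨_, (T.pair w hw).1, Or.inl rfl⟩, ?_⟩
            rcases (T.pair w hw).2 (i (by rw [map_mul, (D.sq _ hC).1, map_one])) with rfl | rfl | d
            · exact absurd (map_one ψ) (D.sq _ hC).2
            · exact absurd (map_mul ψ _ _ ▸ hC) nct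
            · exact cc d hC
          · rw [mul2 hg, σt]
            refine ⟨⟨_, (T.pair w hw).1, Or.inr rfl⟩, ?_⟩
            have h1 := (D.sq _ hC).1
            rw [mul3 hg, gg, mul_one] at h1
            obtain ⟨d, hd⟩ := TS.pair w hw (i (h1.trans (map_one ψ).symm))
            have := D.cj _ (ψ d) hC
            rwa [← mul_assoc, ← map_mul, ← map_inv, mul2 hg, show TS.σ d⁻¹ = (TS.σ d)⁻¹ from
              act_inj i (hg _) (hg _).inv, hd] at this)
    rw [h3, h5, F.c1, show 2 * d * 380160 * m = (4 * (1485 * (d * m))) * 128 by ring] at h2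
    rw [h3, ← hk, h256] at h1
    obtain ⟨k, rfl⟩ := ko
    omega
  · have l0 : ψ.range ≤ S := by
      rintro _ ⟨r, rfl⟩
      exact (mS _).2 ⟨r, Or.inl rfl⟩
    have ix : ψ.range.relIndex S = 2 :=
      relIndex_eq_two_iff_exists_notMem_and.2 ⟨g, (mS _).2 ⟨1, Or.inr (by simp)⟩,
        fun ⟨w, h⟩ => ng w h, fun h hh => by
          obtain ⟨r, rfl | rfl⟩ := (mS h).1 hh
          · exact Or.inr ⟨r, rfl⟩
          · exact Or.inl ⟨r * T.e, by rw [mul_assoc, gg, map_mul]⟩⟩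
    obtain ⟨_, ⟨r, rfl⟩, hC⟩ := D.tr4 S ψ.range hS.isP ⟨k, ko, hk⟩ l0 ix (fun w hw h => by
      obtain ⟨r, rfl | rfl⟩ := (mS w).1 hw
      · exact ⟨r, rfl⟩
      · rw [mul3 hg, gg, ← map_mul] at h
        have h1 := eq_inv_of_mul_eq_one_left (i (h.trans (map_one ψ).symm))
        rw [einv] at h1
        exact absurd (h1 ▸ (TS.in0_mul_σ r).1) (TS.in0_mul_σ r).2.1) g gg
    rw [← map_mul] at hC
    rcases TS.sqs r (i (by rw [map_mul, (D.sq _ hC).1, map_one])) with d | d | d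
    · rw [d] at hC
      exact (D.sq _ hC).2 (map_one ψ)
    · rw [d, map_mul] at hC
      exact nct hC
    · have h1 := D.cj _ x⁻¹ (cc d hC)
      rw [map_mul, ← conj_mul, cj_symm F.xa] at h1
      exact nct h1

theorem Fo.swap (F : Fo L e a b s u x y g) (D : FD e C n m) (h : Cj e (e * (a * a))) :
    ∃ r, r * e * r⁻¹ = e * (a * a) ∧ r * (a * a) * r⁻¹ = a * a := by
  have nct := F.nct D
  have cet := F.cet D
  obtain ⟨j, hh⟩ := h.symm
  obtain ⟨ψ, i, rfl, rfl, -, -, -, hg, -, S, hS, -, mS⟩ := F.modT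
  have ct : ∀ k ∈ S, k * (ψ T.a * ψ T.a) = ψ T.a * ψ T.a * k := fun k hk => by
    rw [← map_mul]
    obtain ⟨w, rfl | rfl⟩ := (mS k).1 hk
    · rw [← map_mul, ← map_mul, (T.cen w).2]
    · rw [mul2 hg, σt, ← (T.cen w).2, map_mul, mul_assoc]
  obtain ⟨c, hc, l⟩ := hS.exists_cj_le (R := S ^ᶜ j) (hS.isP.map _) (by
    rw [cj_le_iff]
    intro k hk
    refine mem_cj.2 (mem_c.2 ?_)
    rw [← hh, inv_inv]
    exact cj_comm j (comm_mul (mem_c.1 (hS.le hk)) (ct k hk)))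
  rw [cj_cj] at l
  have k := cj_trans hh (cj_iff.2 (mem_c.1 hc))
  have hN := mem_normalizer_of_cj_le l
  generalize c * j = r at k hN
  have tS : ψ T.a * ψ T.a ∈ S := (mS _).2 ⟨T.a * T.a, Or.inl (map_mul ψ _ _).symm⟩
  have t : r * (ψ T.a * ψ T.a) * r⁻¹ = ψ T.a * ψ T.a := by
    have back : ∀ {z}, r * (ψ T.a * ψ T.a) * r⁻¹ = z → ¬ C z := fun e1 hz => nct (by
      rw [← cj_symm e1]; exact D.cj _ _ hz)
    rcases zen i hg mS ((mem_normalizer_iff.1 hN _).1 tS) (fun k hk => by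
      have := cj_comm r (ct _ ((mem_normalizer_iff.1 (inv_mem hN) _).1 hk))
      rwa [show r * (r⁻¹ * k * r⁻¹⁻¹) * r⁻¹ = k by group] at this) with d | d | d | d
    · exact absurd (conj_eq_one_iff.1 d) F.ne
    · exact absurd D.self (back d)
    · exact d
    · exact absurd cet (back d)
  refine ⟨r, ?_, t⟩
  rw [← conj_mul, t] at k
  rw [eq_mul_inv_of_mul_eq k, ← map_mul, inv_eq_of_mul_eq_one_right (by rw [← map_mul, tt, map_one])]

theorem eqns_CSO1 : True := by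
  have := @O1.PP.eq_1.{0}
  trivial

end H30.CS
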