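import Mathlib
import Cfsg.Agent.Base
import Cfsg.Agent.Lib.Co3S.Defs
import Cfsg.Agent.Lib.Co3S.O0
import Cfsg.Agent.Lib.Co3S.PQ3

/-! The outer case: the two new generators commute with the outer element. -/

set_option autoImplicit false
set_option maxRecDepth 100000
set_option linter.unusedSectionVars false

namespace H30.CS

open Subgroup H69 Cfsg H70.TM H30.CM

open E2 in
theorem O2.zw : ∀ μ ∈ [0, 1], ∀ w : E,
    w * ES.σ (a * (a * a) ^ μ) * w⁻¹ =
      a * (a * a) ^ μ * (b * (a * a * (b * b)) ^ μ * (b * (a * a * (b * b)) ^ μ)) →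
    w * ES.σ (b * (a * a * (b * b)) ^ μ) * w⁻¹ = b * (a * a * (b * b)) ^ μ *
      (a * (a * a) ^ μ * (a * (a * a) ^ μ) * (b * (a * a * (b * b)) ^ μ * (b * (a * a * (b * b)) ^ μ))) →
    w * ES.σ s * w⁻¹ = s → w * ES.σ u * w⁻¹ = u * s →
    w = 1 ∨ w = e ∨ w = a * a ∨ w = e * (a * a) := by decide +kernel

open E2 in
theorem O2.tt : ∀ μ ∈ [0, 1], a * (a * a) ^ μ * (a * (a * a) ^ μ) = a * a := by decide +kernel

variable {H : Type*} [Group H] [Finite H] {L : Subgroup H} {e a b s u x y g p q : H}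
  {C : H → Prop} {n m : ℕ}

theorem Fo.mul_e (F : Fo L e a b s u x y g) : Fo L e a b s u x y (g * e) := by
  have k : ∀ l ∈ L, g * e * l * (g * e)⁻¹ = g * l * g⁻¹ := fun l hl =>
    cj_trans (cj_iff.2 (F.Le l hl).symm) rfl
  have ee : g * e * e = g := by rw [mul_assoc, F.ee, mul_one]
  exact { toXR := F.toXR
          gs := (k _ (F.mem _ (by simp))).trans F.gs
          gx := (k _ (F.mem _ (by simp))).trans F.gx
          ga := (k _ (F.mem _ (by simp))).trans F.ga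
          gb := (k _ (F.mem _ (by simp))).trans F.gb
          gu := (k _ (F.mem _ (by simp))).trans F.gu
          gy := (k _ (F.mem _ (by simp))).trans F.gy
          r2 := F.r2, ne := F.ne, mem := F.mem, eL := F.eL, Le := F.Le
          ge := mul_comm' F.ge rfl
          gL := fun l hl => (k l hl).symm ▸ F.gL l hl
          gn := ⟨F.gn.2, ee.symm ▸ F.gn.1⟩
          gg := by rw [← mul_assoc, mul_assoc g e g, ← F.ge, ← mul_assoc, mul_assoc _ e e, F.ee, mul_one]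
                   exact F.gg
          ce := fun h hh => (F.ce h hh).imp fun l => And.imp_right (Or.imp_right (Or.imp_right fun c =>
            c.symm.imp (fun c => c.trans (mul_assoc _ _ _)) fun c => by rw [c, mul_assoc, ee]))
          cL := F.cL, ct := F.ct }

namespace O2

/-- the model of the centraliser of the four-group -/
structure Md (φ : E2.E →* H) (g : H) : Prop where
  inj : Function.Injective φ
  act : ∀ w, Act φ g w (ES.σ w)
  gg : g * g = 1 ∨ g * g = φ E2.e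
  ce : ∀ h, Act φ h E2.e E2.e → Act φ h (E2.a * E2.a) (E2.a * E2.a) → ∃ w, h = φ w ∨ h = φ w * g

namespace Md

open E2

variable {φ : E →* H} {g : H} (M : Md φ g)
include M

theorem out {w z z' : E} (h : Act φ (φ w * g) z z') : w * ES.σ z * w⁻¹ = z' :=
  act_inj M.inj ((M.act z).trans (Act.self φ w _)) h

theorem cjc {r c : H} (g1 : Act φ r E2.e (E2.e * (E2.a * E2.a)))
    (g2 : Act φ r (E2.a * E2.a) (E2.a * E2.a)) (c1 : Act φ c E2.e E2.e)
    (c2 : Act φ c (E2.a * E2.a) (E2.a * E2.a)) : ∃ w, r * c * r⁻¹ = φ w ∨ r * c * r⁻¹ = φ w * g :=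
  have g3 : Act φ r (E2.e * (E2.a * E2.a)) E2.e := (g1.mul g2).to (by decide +kernel)
  M.ce _ (by rw [mul_assoc]; exact (g3.symm.trans (c1.mul c2)).trans g3)
    (by rw [mul_assoc]; exact (g2.symm.trans c2).trans g2)

theorem nm {r : H} (g1 : Act φ r E2.e (E2.e * (E2.a * E2.a)))
    (g2 : Act φ r (E2.a * E2.a) (E2.a * E2.a)) (w : E) : ∃ w', Act φ r w w' := by
  have k := fun w : E => M.cjc g1 g2 (Act.of_cj φ (cj_iff.2 (cen w).1.symm))
    (Act.of_cj φ (cj_iff.2 (cen w).2.symm))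
  let K : Subgroup E := φ.range.comap ((MulAut.conj r).toMonoidHom.comp φ)
  have mK : ∀ {w}, w ∈ K ↔ ∃ w', Act φ r w w' := exists_congr fun _ => eq_comm
  have k2 : ∀ w, w * w ∈ K := fun w => by
    obtain ⟨w', c | c⟩ := k w
    · exact mul_mem (mK.2 ⟨w', c⟩) (mK.2 ⟨w', c⟩)
    · have : r * φ (w * w) * r⁻¹ = φ (w' * ES.σ w') * (g * g) := by
        rw [map_mul, ← conj_mul, c, map_mul, ← (M.act w').eq]; group
      rcases M.gg with d | d
      · exact mK.2 ⟨_, by rw [Act, this, d, mul_one]⟩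
      · exact mK.2 ⟨_, by rw [Act, this, d, ← map_mul]⟩
  have k3 : ∀ w, w * w * w = 1 → w ∈ K := fun w h => by
    have := k2 (w * w)
    rwa [← mul_assoc, h, one_mul] at this
  have hy := k3 _ ES.prod3.1
  have k4 : ∀ z ∈ [E2.a, E2.s, E2.u], z ∈ K := fun z hz =>
    (mul_mem_cancel_left (mul_mem hy hy)).1 (k3 _ (ES.prod3.2.1 z hz))
  have hb : E2.b ∈ K := by
    obtain ⟨A, hA⟩ := mK.1 (k4 E2.a (by simp))
    obtain ⟨B, c | c⟩ := k E2.b
    · exact mK.2 ⟨B, c⟩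
    · refine absurd (M.out (act_of_comm ?_)) (ES.noout A (act_inj M.inj (hA.mul hA) g2) B)
      rw [← c, ← hA.eq]
      exact cj_comm r (by rw [← map_mul, ← map_mul, show E2.b * E2.a = E2.a * E2.b by decide +kernel])
  exact mK.1 ((eq_top (mK.2 ⟨_, g1⟩) (k4 _ (by simp)) hb (k4 _ (by simp)) (k4 _ (by simp)) hy).ge
    (mem_top w))

theorem f3 {x : H} (X : XR (φ E2.a) (φ E2.b) (φ E2.s) (φ E2.u) x) (xe : x * φ E2.e = φ E2.e * x)
    (nc : ¬ Cj (φ E2.e) (φ (E2.a * E2.a))) : F3 φ x where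
  toXR := X
  xe := xe
  inj := M.inj
  nct := nc
  nm _ := M.nm
  ran r h1 h2 := by
    obtain ⟨w, rfl | rfl⟩ := M.ce r h1 (h2.mul h2)
    exacts [⟨w, rfl⟩, absurd (M.out h2) (ES.noout _ rfl w)]
  third r B hB h := by
    obtain ⟨h1, h⟩ := List.forall₂_cons.1 h
    obtain ⟨h2, h⟩ := List.forall₂_cons.1 h
    obtain ⟨h3, -⟩ := List.forall₂_cons.1 h
    have h4 : Act φ r (E2.b * E2.b) (E2.b * E2.b) :=
      (h3.mul h3).to (by rcases hB with rfl | rfl <;> decide +kernel)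
    exact ⟨r * g, ((M.act _).to ES.σ_gen.1).trans h1,
      (((M.act _).to ES.σ_gen.2.1).trans (h2.mul h4)).to (by decide +kernel),
      ((M.act _).to (by decide +kernel)).trans h4⟩

theorem comm (hg : ∀ w, φ w ≠ g) {x p q : H} {μ κ : ℕ} (hμ : μ ∈ [0, 1])
    (P : PQ (φ E2.e) (φ E2.a) (φ E2.b) (φ E2.s) (φ E2.u) x (φ E2.y) p q μ κ) :
    g * g = 1 ∧ (g * p = p * g ∨ g * φ E2.e * p = p * (g * φ E2.e)) := by
  have pe : Act φ p E2.e (E2.e * (E2.a * E2.a)) := by simpa only [Act, map_mul] using P.pe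
  have pa : Act φ p E2.a (E2.a * (E2.a * E2.a) ^ μ) := by simpa only [Act, map_mul, map_pow] using P.pa
  have pb : Act φ p E2.b (E2.b * (E2.a * E2.a * (E2.b * E2.b)) ^ μ) := by
    simpa only [Act, map_mul, map_pow] using P.pb
  have ps : Act φ p E2.s E2.s := act_of_comm P.ps
  have uu : φ E2.u * φ E2.u = 1 := by rw [← map_mul, show E2.u * E2.u = 1 by decide +kernel, map_one]
  have pu : Act φ p E2.u E2.u := act_of_comm (by
    nth_rewrite 1 [← P.up]
    rw [mul_assoc, uu, mul_one])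
  have pt : Act φ p (E2.a * E2.a) (E2.a * E2.a) := (pa.mul pa).to (tt μ hμ)
  have p3 : Act φ p (E2.e * (E2.a * E2.a)) E2.e := (pe.mul pt).to (by decide +kernel)
  have ge : Act φ g E2.e E2.e := (M.act _).to ES.σ_gen.1
  have gt : Act φ g (E2.a * E2.a) (E2.a * E2.a) := (M.act _).to (by decide +kernel)
  obtain ⟨w, c | c⟩ := M.cjc pe pt ge gt
  · obtain ⟨w', d⟩ := M.nm p3.symm pt.symm w
    exact absurd (d.eq.symm.trans (cj_symm c)) (hg w')
  have k : ∀ {z z' v v'}, Act φ p z z' → ES.σ z = v → Act φ p v v' → w * ES.σ z' * w⁻¹ = v' :=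
    fun {z z' v v'} h1 h2 h3 => M.out (by
      have := ((h1.symm.trans ((M.act z).to h2)).trans h3).eq
      rw [Act, ← c, ← this]; simp only [mul_assoc])
  have hw := zw μ hμ w (k pa ES.σ_gen.2.1 (pa.mul (pb.mul pb)))
    (k pb ES.σ_gen.2.2.1 (pb.mul ((pa.mul pa).mul (pb.mul pb)))) (k ps ES.σ_gen.2.2.2.1 ps)
    (k pu ES.σ_gen.2.2.2.2.1 (pu.mul ps))
  have t1 : ∀ {z : E}, φ z = 1 → z = 1 := fun h => M.inj (h.trans (map_one φ).symm)
  have w2 : p * (g * g) * p⁻¹ = g * g := by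
    rw [← conj_mul, c, mul_assoc, ← mul_assoc g, ← inv_mul_cancel_right (g * φ w) g, (M.act w).eq,
      ← mul_assoc, ← mul_assoc, ← map_mul, show w * ES.σ w = 1 by
        rcases hw with rfl | rfl | rfl | rfl <;> decide +kernel, map_one, one_mul]
  have w3 : ∀ w', Act φ p w w' → w' * w = 1 := fun w' h => t1 (by
    have h1 : p * p * g * (p * p)⁻¹ = g := by
      rw [P.pp, ← map_mul]
      exact cj_iff.2 (Commute.pow_left (show Commute (φ (E2.a * E2.a)) g from gt.fix.symm) κ).eq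
    rw [cj_trans (k := p) c rfl, ← conj_mul, h.eq, c, ← mul_assoc, mul_eq_right] at h1
    rw [map_mul, h1])
  refine ⟨M.gg.resolve_right fun d => ?_, ?_⟩
  · rw [d, pe.eq] at w2
    exact absurd (M.inj w2) (by decide +kernel)
  · rcases hw with rfl | rfl | rfl | rfl
    · exact Or.inl (cj_iff.1 (by rw [c, map_one, one_mul])).symm
    · exact absurd (w3 _ pe) (by decide +kernel)
    · refine Or.inr (cj_iff.1 ?_).symm
      rw [← conj_mul, c, pe.eq, ← gt.fix, mul_assoc, ← map_mul]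
      exact congrArg (g * φ ·) (by decide +kernel)
    · exact absurd (w3 _ p3) (by decide +kernel)

end Md

end O2

theorem Fo.oq (F : Fo L e a b s u x y g) (nc : ¬ Cj e (a * a))
    (h : ∃ r, r * e * r⁻¹ = e * (a * a) ∧ r * (a * a) * r⁻¹ = a * a) :
    ∃ g p q, ∃ μ ∈ [0, 1], ∃ κ ∈ [0, 1], OQ L e a b s u x y g p q μ κ := by
  obtain ⟨φ, i, rfl, rfl, rfl, rfl, rfl, rfl, h1, h2, h3⟩ := F.mod2
  have M : O2.Md φ g := ⟨i, h1, F.gg, fun h c1 c2 => h3 h c1.fix (map_mul φ _ _ ▸ c2.fix)⟩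
  obtain ⟨p, q, μ, hμ, κ, hκ, P⟩ := (M.f3 F.toXR (F.Le x (F.mem x (by simp)))
    (by rwa [map_mul])).exists_pq (by simpa only [Act, map_mul] using h)
  have key : ∀ g, Fo L (φ E2.e) (φ E2.a) (φ E2.b) (φ E2.s) (φ E2.u) x (φ E2.y) g → g * g = 1 →
      g * p = p * g → OQ L (φ E2.e) (φ E2.a) (φ E2.b) (φ E2.s) (φ E2.u) x (φ E2.y) g p q μ κ :=
    fun g F gg gp => ⟨F, P, gg, gp, by
      rw [← P.xp]
      exact comm_mul (comm_mul (cj_iff.1 F.gx) gp) (inv_comm (cj_iff.1 F.gx).symm).symm⟩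
  obtain ⟨gg, c | c⟩ := M.comm h2 hμ P
  · exact ⟨g, p, q, μ, hμ, κ, hκ, key g F gg c⟩
  · exact ⟨_, p, q, μ, hμ, κ, hκ, key _ F.mul_e (by
      rw [← mul_assoc, mul_assoc g _ g, ← F.ge, ← mul_assoc, gg, one_mul, F.ee]) c⟩

end H30.CS
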