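import Mathlib
import Cfsg.Agent.Base
import Cfsg.Agent.Lib.Co3S.FE

/-!
# Three conjugate involutions permuted by an element of order 3 (helper30)
-/

set_option autoImplicit false
set_option linter.unusedSectionVars false

namespace H30.CS

open Subgroup H69 Cfsg H70.TM H30.CM

variable {G : Type*} [Group G]

theorem ugu {g u s : G} (uu : u * u = 1) (gu : g * u * g⁻¹ = u * s) (gs : g * s * g⁻¹ = s) :
    u * g * u = g * s := by
  rw [cj_iff.1 gs, mul_assoc, eq_mul_of_mul_inv_eq gu, mul_assoc, ← mul_assoc u, uu, one_mul]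

theorem fa {E : Type*} [Group E] {ψ : E →* G} {m : G} {f : E → E} (h : ∀ r, Act ψ m r (f r))
    {l l' : List E} (c : l.map f = l') : List.Forall₂ (Act ψ m) l l' :=
  c ▸ List.forall₂_map_right_iff.2 (List.forall₂_same.2 fun r _ => h r)

/-- the relations -/
structure IX (i u x : G) : Prop where
  ii : i * i = 1
  uu : u * u = 1
  iu : i * u = u * i
  x3 : x * x * x = 1
  ux : u * x * u = x⁻¹

namespace IX
variable {i u x : G} (h : IX i u x)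
include h

theorem ui : u⁻¹ = u := inv_eq_of_mul_eq_one_right h.uu
theorem i1 : i⁻¹ = i := inv_eq_of_mul_eq_one_right h.ii
theorem x2 : x * x = x⁻¹ := eq_inv_of_mul_eq_one_left h.x3
theorem jj : x * (i * x⁻¹) * (x * (i * x⁻¹)) = 1 := by rw [← mul_assoc x]; exact cj_sq x h.ii
theorem j1 : (x * (i * x⁻¹))⁻¹ = x * (i * x⁻¹) := inv_eq_of_mul_eq_one_right h.jj

theorem uj : u * (x * (i * x⁻¹)) * u⁻¹ = x⁻¹ * (i * x) := by
  rw [← conj_mul, ← conj_mul, ← conj_inv, cj_iff.2 h.iu.symm, h.ui, h.ux, inv_inv]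

theorem xj : x * (x * (i * x⁻¹)) * x⁻¹ = x⁻¹ * (i * x) := by
  rw [← mul_assoc x, h.x2, mul_assoc, mul_assoc, ← mul_inv_rev, h.x2, inv_inv]

theorem xw : x * (i * (x * (i * x⁻¹))) * x⁻¹ = x * (i * x⁻¹) * (x⁻¹ * (i * x)) := by
  rw [← conj_mul, h.xj, mul_assoc x]

theorem uw : u * (x * (i * (x * (i * x⁻¹))) * x⁻¹) * u⁻¹ = (x * (i * (x * (i * x⁻¹))) * x⁻¹)⁻¹ := by
  rw [h.xw, ← h.uj, ← conj_mul, mul_inv_rev, conj_inv, h.j1, h.ui]
  simp only [← mul_assoc, h.uu, one_mul]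
  rw [mul_assoc _ u u, h.uu, mul_one]

theorem un (n : ℕ) : u * (x * (i * (x * (i * x⁻¹))) ^ n * x⁻¹) * u⁻¹ =
    (x * (i * (x * (i * x⁻¹))) ^ n * x⁻¹)⁻¹ := by
  rw [← conj_pow, ← conj_pow, h.uw, inv_pow]

theorem r0 : (x * (i * x⁻¹))⁻¹ * u * (x * (i * x⁻¹)) * u = x * (i * (x * (i * x⁻¹))) * x⁻¹ := by
  rw [h.xw, ← h.uj, h.j1, h.ui]
  simp only [mul_assoc]

theorem r1 (n : ℕ) : i * (i * (x * (i * x⁻¹))) ^ n * (i * (i * (x * (i * x⁻¹))) ^ n) = 1 := by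
  have : i * (i * (x * (i * x⁻¹))) * i⁻¹ = (i * (x * (i * x⁻¹)))⁻¹ := by
    rw [mul_inv_rev, h.j1, ← mul_assoc i, h.ii, one_mul]
  have k := conj_pow (i := n) (a := i) (b := i * (x * (i * x⁻¹)))
  rw [this, inv_pow, h.i1] at k
  rw [← mul_assoc, ← k, inv_mul_cancel]

theorem r2 (n : ℕ) : x⁻¹ * ((i * (x * (i * x⁻¹))) ^ n * x) = (u * (i * (x * (i * x⁻¹))) ^ n * u)⁻¹ := by
  have k := congrArg (fun z => x * z * x⁻¹) (h.un n)
  have xu : x * u = u * x⁻¹ := by rw [← h.ux, ← mul_assoc, ← mul_assoc, h.uu, one_mul]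
  have e1 : ∀ z, x * (x * z * x⁻¹) * x⁻¹ = x⁻¹ * (z * x) := fun z => by
    rw [show x * (x * z * x⁻¹) * x⁻¹ = x * x * (z * (x * x)⁻¹) by group, h.x2, inv_inv]
  have e2 : ∀ z, x * (u * (x * z * x⁻¹) * u⁻¹) * x⁻¹ = u * z * u := fun z => by
    rw [show x * (u * (x * z * x⁻¹) * u⁻¹) * x⁻¹ = x * u * x * z * (x * u * x)⁻¹ by group, xu,
      inv_mul_cancel_right, h.ui]
  rw [e2, conj_inv, e1] at k
  rw [k]
  group

end IX

end H30.CS
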