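import Mathlib
import Cfsg.Agent.Base
import Cfsg.Agent.Lib.Co3S.Defs
import Cfsg.Agent.Lib.Leech.Export
import Cfsg.Agent.S2045

/-!
# A section of the quotient map (helper22, for helper30's project)
-/

set_option autoImplicit false
set_option maxRecDepth 100000
set_option linter.unusedSectionVars false

namespace H30.CS

open Subgroup H69 Cfsg H70.TM H30.CM
open scoped commutatorElement

theorem sec_inj {Γ H : Type*} [Group Γ] [Finite Γ] [Group H] (hH : Spor.IsoCo3 H) (f : Γ →* H)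
    (h : IsStemExtension f) : Function.Injective f := by
  obtain ⟨E⟩ := hH
  let D : Shrink.{0} Γ ≃* Γ := Shrink.mulEquiv
  have : Finite (Shrink.{0} Γ) := Finite.of_equiv _ D.symm.toEquiv
  let σ : Shrink.{0} Γ →* Spor.Co3 := E.toMonoidHom.comp (f.comp D.toMonoidHom)
  have k : ∀ z, z ∈ σ.ker ↔ D z ∈ f.ker := fun z => by
    rw [MonoidHom.mem_ker, MonoidHom.mem_ker]
    exact E.map_eq_one_iff
  obtain ⟨ρ, hρ⟩ := Cfsg.Agent.S2045.result.2 _ σ ⟨E.surjective.comp (h.1.comp D.surjective),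
    fun z hz => mem_center_iff.2 fun w => D.injective (by
      rw [map_mul, map_mul]; exact mem_center_iff.1 (h.2.1 ((k z).1 hz)) _), fun z hz => by
      have h1 := mem_map_of_mem D.symm.toMonoidHom (h.2.2 ((k z).1 hz))
      rw [_root_.commutator_def, map_commutator] at h1
      have h2 := commutator_mono le_top le_top h1
      rw [_root_.commutator_def]
      simpa using h2⟩
  rw [injective_iff_map_eq_one]
  intro z hz
  obtain ⟨c, hc⟩ := hρ ⟨D.symm z, (k _).2 (by rw [D.apply_symm_apply]; exact hz)⟩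
  rw [Subsingleton.elim c 1, map_one] at hc
  exact D.symm.map_eq_one_iff.1 (congrArg Subtype.val hc).symm

theorem GQ.sec {G H : Type*} [Group G] [Finite G] [Group H] [Finite H] {e : G} {O N : Subgroup G}
    {π : N →* H} {e' : H} (Q : GQ e O N π e') (hH : Spor.IsoCo3 H) :
    ∃ σ : H →* N, (∀ h, π (σ h) = h) ∧ ∀ h, ∀ o ∈ O, o * (σ h : G) = σ h * o := by
  have := H16.simple_sCo3
  have sH : IsSimpleGroup H := hH.some.isSimpleGroup
  have pH : ⁅(⊤ : Subgroup H), (⊤ : Subgroup H)⁆ = ⊤ := by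
    refine (commutator_normal (⊤ : Subgroup H) ⊤).eq_bot_or_eq_top.resolve_left fun h => ?_
    rw [commutator_eq_bot_iff_le_centralizer] at h
    letI : CommGroup H := { ‹Group H› with mul_comm := fun a b => h (mem_top b) a (mem_top a) }
    have := IsSimpleGroup.prime_card (α := H)
    rw [Nat.card_congr hH.some.toEquiv, H16.card_sCo3] at this
    exact absurd this (by norm_num)
  let C0 : Subgroup N := (centralizer (O : Set G)).subgroupOf N
  have m0 : ∀ n : N, n ∈ C0 ↔ ∀ o ∈ O, o * (n : G) = n * o := fun n => Iff.rfl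
  have n0 : C0.Normal := ⟨fun c hc n => (m0 _).2 fun o ho => by
    have hn : (n : G)⁻¹ ∈ normalizer (O : Set G) := Q.hN ▸ inv_mem n.2
    have h1 := cj_comm (n : G) ((m0 c).1 hc _ ((mem_normalizer_iff.1 hn o).1 ho))
    simpa [mul_assoc] using h1⟩
  have eN := Q.eN e rfl
  have t0 : C0.map π = ⊤ := by
    refine (n0.map π Q.sur).eq_bot_or_eq_top.resolve_left fun h => ?_
    have h1 : π ⟨e, eN⟩ ∈ C0.map π := mem_map_of_mem π ((m0 _).2 Q.Oe)
    rw [h, mem_bot, Q.ker] at h1
    have h2 := Q.odd e h1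
    rw [orderOf_eq_prime (p := 2) (by rw [pow_two, Q.ee]) Q.ne] at h2
    exact absurd h2 (by norm_num)
  have l1 : ⁅C0, C0⁆ ≤ C0 := commutator_le_left _ _
  have t1 : ⁅C0, C0⁆.map π = ⊤ := by rw [map_commutator, t0, pH]
  have dec : ∀ a ∈ C0, ∃ b ∈ ⁅C0, C0⁆, ∃ z : N, (∀ c ∈ C0, z * c = c * z) ∧ a = b * z := by
    intro a _
    obtain ⟨b, hb, c⟩ := t1.ge (mem_top (π a))
    refine ⟨b, hb, b⁻¹ * a, fun d hd => Subtype.ext ((m0 d).1 hd _ ((Q.ker _).1 ?_)), by group⟩
    rw [map_mul, map_inv, c, inv_mul_cancel]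
  have p1 : ⁅C0, C0⁆ ≤ ⁅⁅C0, C0⁆, ⁅C0, C0⁆⁆ := by
    refine commutator_le.2 fun a ha a' ha' => ?_
    obtain ⟨b, hb, z, hz, rfl⟩ := dec a ha
    obtain ⟨b', hb', z', hz', e2⟩ := dec a' ha'
    have h1 : ⁅b * z, a'⁆ = ⁅b, a'⁆ := by
      rw [commutatorElement_def, commutatorElement_def, mul_assoc b z, hz _ ha']
      group
    have h2 : ⁅b, b' * z'⁆ = ⁅b, b'⁆ := by
      have := hz' _ (inv_mem (l1 hb))
      rw [commutatorElement_def, commutatorElement_def, ← mul_assoc, mul_assoc _ z', this]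
      group
    rw [h1, e2, h2]
    exact commutator_mem_commutator hb hb'
  let f : ↥⁅C0, C0⁆ →* H := π.comp (Subgroup.subtype _)
  have fs : Function.Surjective f := fun h => by
    obtain ⟨b, hb, c⟩ := t1.ge (mem_top h)
    exact ⟨⟨b, hb⟩, c⟩
  have fi := sec_inj hH f ⟨fs, fun z hz => mem_center_iff.2 fun w => Subtype.ext (Subtype.ext
    ((m0 _).1 (l1 w.2) _ ((Q.ker _).1 hz)).symm), fun z _ => by
      have h1 := p1 z.2
      rw [← map_subtype_commutator] at h1
      obtain ⟨w, hw, c⟩ := h1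
      rwa [← show w = z from Subtype.ext c]⟩
  let E := MulEquiv.ofBijective f ⟨fi, fs⟩
  exact ⟨(Subgroup.subtype _).comp E.symm.toMonoidHom, fun h => E.apply_symm_apply h,
    fun h => (m0 _).1 (l1 (E.symm h).2)⟩

end H30.CS
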