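import Mathlib
import Cfsg.Agent.Base
import Cfsg.Agent.Lib.M12C.Tab

/-! a group of order 16 (helper30; generated) -/

set_option autoImplicit false
set_option maxRecDepth 100000

namespace H30.CM.K16E
open H54 (Tr force band)
open H18.TC
noncomputable def T_0 : Tr := (.node (nat_lit 0) (.leaf (nat_lit 0xc0008948546155d553c57c01800039d2fd35c2bc65567503c0003be3fe4574b77166d60000004974f721e17e1dd13d03c00023f27f2d93395985580240003193790bf0ff15b1bb00c00041a3da19b1fb03f07f00000029c25c11d0dd09e05e)) (.leaf (nat_lit 0x3c0009b39f3ad2b72a91a310180009958f59548b4a50a70018000c16b36b90ab0af4bd4024000a109d07367768177b703c0008388788d1931bb2b120240009119715b85f869963900c000b52bf27937536ba6fa01800051b47b4da43a7d37f3)))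
noncomputable def J_0 : Tr := (.node (nat_lit 0) (.leaf (nat_lit 0x4004002000000000400100100000080010010010000002000000000000000100000080010010004004004000000800000000000000060020010000004000000000000000500100080000000000000000000000)) (.leaf (nat_lit 0x40040040000008000006000000000400100100000040000000008002002001000000000000080080040000020004004004000000800400000000000060020010000008000000000800000100100080000000010004004000002)))
noncomputable def F_0 : Tr := (.node (nat_lit 2) (.node (nat_lit 0) (.leaf (nat_lit 0xefb8d65c3a927401)) (.node (nat_lit 1) (.leaf (nat_lit 0xefb8d65c3a927401)) (.leaf (nat_lit 0xdbf9e7c5a3816042)))) (.node (nat_lit 3) (.leaf (nat_lit 0xdbf9e7c5a3816042)) (.node (nat_lit 4) (.leaf (nat_lit 0xca9f7ed4b2180653)) (.leaf (nat_lit 0xca9f7ed4b2180653)))))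
noncomputable def T : Tr := T_0
noncomputable def J : Tr := J_0
noncomputable def F : Tr := F_0
noncomputable def row (u : ℕ) : ℕ := Nat.land (Nat.shiftRight (force (Nat.shiftRight u (nat_lit 3)) T.get) (Nat.mul (Nat.land u (nat_lit 7)) (nat_lit 96))) (nat_lit 0xffffffffffffffffffffffff)
noncomputable def jrow (u : ℕ) : ℕ := Nat.land (Nat.shiftRight (force (Nat.shiftRight u (nat_lit 3)) J.get) (Nat.mul (Nat.land u (nat_lit 7)) (nat_lit 91))) (nat_lit 0x7ffffffffffffffffffffff)
noncomputable def fget (k fx : ℕ) : ℕ := F.get (Nat.add k fx)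
noncomputable def wt0 : LT := (.node (nat_lit 0) (.leaf 1 0 [nat_lit 12])
(.node (nat_lit 1) (.leaf 7 1 [nat_lit 36, nat_lit 0, nat_lit 24])
(.node (nat_lit 2) (.leaf 11 7 [nat_lit 60, nat_lit 12, nat_lit 60, nat_lit 12, nat_lit 60, nat_lit 12, nat_lit 60])
(.leaf 0 0 []))))
noncomputable def wt1 : LT := (.node (nat_lit 0) (.leaf 7 3 [nat_lit 24, nat_lit 12, nat_lit 36])
(.leaf 0 0 []))
noncomputable def wt2 : LT := (.node (nat_lit 0) (.leaf 3 0 [nat_lit 36])
(.node (nat_lit 1) (.leaf 7 2 [nat_lit 0, nat_lit 24, nat_lit 12])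
(.leaf 0 0 [])))
noncomputable def wt3 : LT := (.leaf 0 0 [])
noncomputable def wt4 : LT := (.node (nat_lit 0) (.leaf 9 2 [nat_lit 24, nat_lit 48, nat_lit 36])
(.node (nat_lit 1) (.leaf 5 0 [nat_lit 60])
(.leaf 0 0 [])))
noncomputable def wt5 : LT := (.leaf 0 0 [])
noncomputable def wt6 : LT := (.leaf 0 0 [])
noncomputable def sl : List (ℕ × ℕ × List ℕ × List ℕ) := []
/-- the inverse column -/
noncomputable def icol (x : ℕ) : ℕ := List.getD [nat_lit 1, nat_lit 0, nat_lit 3, nat_lit 2, nat_lit 5, nat_lit 4] x x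
noncomputable def inv (x : ℕ) : ℕ := Nat.mul (icol (Nat.div x (nat_lit 12))) (nat_lit 12)
def cols : List ℕ := [nat_lit 72, nat_lit 0, nat_lit 12, nat_lit 24, nat_lit 36, nat_lit 48, nat_lit 60]
noncomputable def cl : CL := (.cons (nat_lit 0) (nat_lit 12) (nat_lit 0) (nat_lit 0) wt0
(.cons (nat_lit 12) (nat_lit 0) (nat_lit 13) (nat_lit 1) wt1
(.cons (nat_lit 24) (nat_lit 36) (nat_lit 26) (nat_lit 2) wt2
(.cons (nat_lit 36) (nat_lit 24) (nat_lit 39) (nat_lit 3) wt3
(.cons (nat_lit 48) (nat_lit 60) (nat_lit 52) (nat_lit 4) wt4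
(.cons (nat_lit 60) (nat_lit 48) (nat_lit 65) (nat_lit 5) wt5
.nil))))))
def rels : List (List ℕ) := [[0, 0],
[2, 2],
[4, 4],
[3, 1, 2, 0],
[5, 3, 4, 2],
[4, 0, 4, 0, 4, 0, 4, 0]]
def subs : List (List ℕ) := []
noncomputable def chk : ℕ → Bool := rowChk row jrow fget sl cols (nat_lit 16) (nat_lit 16) (nat_lit 4095) (nat_lit 31) (nat_lit 4096) (nat_lit 72) (nat_lit 84) (nat_lit 8191) (nat_lit 6) (nat_lit 63) (nat_lit 4) (nat_lit 15) cl (nat_lit 78) wt6
theorem p0 : allB chk 4 0 = true := by decide +kernel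
theorem all_chk : AllLt chk 16 := by
  have h := AllLt.zero chk
  have h := h.step 16 p0 (by decide +kernel)
  exact h
/-- column `x` of the final table -/
noncomputable def tab (x u : ℕ) : ℕ := ft fget (nat_lit 6) (nat_lit 63) (nat_lit 4) (nat_lit 15) (Nat.mul x (nat_lit 1)) u
theorem enum {G Ω : Type*} [Group G] [MulAction G Ω] (g : ℕ → G) (ω : Ω)
    (hinv : ∀ x, g (icol x) = (g x)⁻¹) (h1 : g 6 = 1)
    (hrels : ∀ R ∈ rels, ev g R = 1) (hsubs : ∀ S ∈ subs, ev g S • ω = ω) :
    ∃ pt : ℕ → Ω, pt 0 = ω ∧ (∀ K : Subgroup G, (∀ x, g x ∈ K) → ∀ v, ∃ k ∈ K, pt v = k • ω) ∧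
      ∀ x, x < 6 → ∀ u, u < 16 → tab x u < 16 ∧ g x • pt u = pt (tab x u) :=
  sound_scaled g ω row jrow fget sl inv icol cols (nat_lit 16) (nat_lit 16) (nat_lit 4095) (nat_lit 31) (nat_lit 4096) (nat_lit 72) (nat_lit 84) (nat_lit 8191) (nat_lit 6) (nat_lit 63) (nat_lit 4) (nat_lit 15) 5 cl (nat_lit 78) wt6 rels subs 12 (nat_lit 1) 6
    (fun _ => Nat.mul_div_cancel _ (by decide)) hinv h1 hrels hsubs
    (by decide +kernel) (by decide +kernel) all_chk
end H30.CM.K16E

namespace H30.CM.K16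
open H70.TM H18.TC Subgroup

noncomputable def rt : RT := ⟨nat_lit 16, nat_lit 4, nat_lit 15,
  (.node (nat_lit 7) (.node (nat_lit 3) (.node (nat_lit 1) (.node (nat_lit 0) (.leaf (nat_lit 0xfedcba9876543210))
(.leaf (nat_lit 0xefb8d65c3a927401)))
(.node (nat_lit 2) (.leaf (nat_lit 0xdbf9e7c5a3816042))
(.leaf (nat_lit 0xca9f7ed4b2180653))))
(.node (nat_lit 5) (.node (nat_lit 4) (.leaf (nat_lit 0xbde5f38967c0a124))
(.leaf (nat_lit 0xac74921f0ed6b835)))
(.node (nat_lit 6) (.leaf (nat_lit 0x97cdabf1e0452386))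
(.leaf (nat_lit 0x865e3fb2d40c1a97)))))
(.node (nat_lit 11) (.node (nat_lit 9) (.node (nat_lit 8) (.leaf (nat_lit 0x79a1c04d2bf3e568))
(.leaf (nat_lit 0x6832540e1fbadc79)))
(.node (nat_lit 10) (.leaf (nat_lit 0x538b6de0f12947ca))
(.leaf (nat_lit 0x421a0c76983f5edb))))
(.node (nat_lit 13) (.node (nat_lit 12) (.leaf (nat_lit 0x3560812b4de7f9ac))
(.leaf (nat_lit 0x2406183a5c7e9fbd)))
(.node (nat_lit 14) (.leaf (nat_lit 0x104729a3c56d8bfe))
(.leaf (nat_lit 0x123456789abcdef)))))),
  (nat_lit 0xfedcb89a56743210),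
  (nat_lit 0xca98765432110000),
  (nat_lit 0x3331311313323211),
  [nat_lit 1, nat_lit 2, nat_lit 3]⟩

theorem okA0 : rt.chkA 1 = true := by decide +kernel
theorem okA1 : rt.chkA 2 = true := by decide +kernel
theorem okA2 : rt.chkA 3 = true := by decide +kernel
theorem okB : rt.chkB = true := by decide +kernel
noncomputable def tb : GT := ⟨rt, List.forall_mem_cons.2 ⟨okA0, List.forall_mem_cons.2 ⟨okA1, List.forall_mem_cons.2 ⟨okA2, fun _ h => absurd h List.not_mem_nil⟩⟩⟩, okB⟩

theorem hom_chk : homChk tb (nat_lit 0xfedcba9876543210) 16 K16E.tab = true := by decide +kernel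

/-- the group -/
abbrev E : Type := El tb

noncomputable def u : E := El.of tb 1
noncomputable def i : E := El.of tb 2
noncomputable def z : E := El.of tb 3

theorem card : Nat.card E = 16 := El.card tb

theorem eq_top {K : Subgroup E} (h0 : u ∈ K) (h1 : i ∈ K) (h2 : z ∈ K) : K = ⊤ :=
  El.eq_top (List.forall_mem_cons.2 ⟨h0, List.forall_mem_cons.2 ⟨h1, List.forall_mem_cons.2 ⟨h2, fun _ h => absurd h List.not_mem_nil⟩⟩⟩)

/-- the relations -/
def Rel {G : Type*} [Group G] (u i z : G) : Prop :=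
  u * u = 1 ∧
  i * i = 1 ∧
  z * z = 1 ∧
  u * i = i * u ∧
  i * z = z * i ∧
  u * z * (u * z) * (u * z * (u * z)) = 1

instance {G : Type*} [Group G] [DecidableEq G] (u i z : G) : Decidable (Rel u i z) := by
  unfold Rel; infer_instance

theorem Rel.map {G G' : Type*} [Group G] [Group G'] (f : G →* G') {u i z : G}
    (h : Rel u i z) : Rel (f u) (f i) (f z) := by
  obtain ⟨h0, h1, h2, h3, h4, h5⟩ := h
  exact ⟨by simpa only [map_mul, map_inv, map_one] using congrArg f h0,
    by simpa only [map_mul, map_inv, map_one] using congrArg f h1,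
    by simpa only [map_mul, map_inv, map_one] using congrArg f h2,
    by simpa only [map_mul, map_inv, map_one] using congrArg f h3,
    by simpa only [map_mul, map_inv, map_one] using congrArg f h4,
    by simpa only [map_mul, map_inv, map_one] using congrArg f h5⟩

theorem Rel.of_map {G G' : Type*} [Group G] [Group G'] {f : G →* G'} (hf : Function.Injective f)
    {u i z : G} (h : Rel (f u) (f i) (f z)) : Rel u i z := by
  obtain ⟨h0, h1, h2, h3, h4, h5⟩ := h
  exact ⟨hf (by simpa only [map_mul, map_inv, map_one] using h0),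
    hf (by simpa only [map_mul, map_inv, map_one] using h1),
    hf (by simpa only [map_mul, map_inv, map_one] using h2),
    hf (by simpa only [map_mul, map_inv, map_one] using h3),
    hf (by simpa only [map_mul, map_inv, map_one] using h4),
    hf (by simpa only [map_mul, map_inv, map_one] using h5)⟩

theorem Rel.prod {G G' : Type*} [Group G] [Group G'] {u i z : G} {u' i' z' : G'}
    (h : Rel u i z) (k : Rel u' i' z') :
    Rel (u, u') (i, i') (z, z') := by
  obtain ⟨h0, h1, h2, h3, h4, h5⟩ := h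
  obtain ⟨k0, k1, k2, k3, k4, k5⟩ := k
  exact ⟨Prod.ext h0 k0, Prod.ext h1 k1, Prod.ext h2 k2, Prod.ext h3 k3, Prod.ext h4 k4, Prod.ext h5 k5⟩

theorem Rel.sat {G : Type*} [Group G] {u i z : G} (h : Rel u i z) :
    ∀ R ∈ K16E.rels, ev (lt [u, i, z]) R = 1 := by
  obtain ⟨h0, h1, h2, h3, h4, h5⟩ := h
  exact List.forall_mem_cons.2 ⟨show u * (u * 1) = 1 by
      simpa only [mul_assoc, mul_inv_rev, inv_inv, inv_one, mul_one, one_mul] using mul_inv_eq_one.2 h0,
    List.forall_mem_cons.2 ⟨show i * (i * 1) = 1 by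
      simpa only [mul_assoc, mul_inv_rev, inv_inv, inv_one, mul_one, one_mul] using mul_inv_eq_one.2 h1,
    List.forall_mem_cons.2 ⟨show z * (z * 1) = 1 by
      simpa only [mul_assoc, mul_inv_rev, inv_inv, inv_one, mul_one, one_mul] using mul_inv_eq_one.2 h2,
    List.forall_mem_cons.2 ⟨show u * (i * (u⁻¹ * (i⁻¹ * 1))) = 1 by
      simpa only [mul_assoc, mul_inv_rev, inv_inv, inv_one, mul_one, one_mul] using mul_inv_eq_one.2 h3,
    List.forall_mem_cons.2 ⟨show i * (z * (i⁻¹ * (z⁻¹ * 1))) = 1 by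
      simpa only [mul_assoc, mul_inv_rev, inv_inv, inv_one, mul_one, one_mul] using mul_inv_eq_one.2 h4,
    List.forall_mem_cons.2 ⟨show u * (z * (u * (z * (u * (z * (u * (z * 1))))))) = 1 by
      simpa only [mul_assoc, mul_inv_rev, inv_inv, inv_one, mul_one, one_mul] using mul_inv_eq_one.2 h5,
    fun _ h => absurd h List.not_mem_nil⟩⟩⟩⟩⟩⟩

theorem Rel.of_sat {G : Type*} [Group G] {u i z : G}
    (h : ∀ R ∈ K16E.rels, ev (lt [u, i, z]) R = 1) : Rel u i z := by
  obtain ⟨h0, h⟩ := List.forall_mem_cons.1 h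
  obtain ⟨h1, h⟩ := List.forall_mem_cons.1 h
  obtain ⟨h2, h⟩ := List.forall_mem_cons.1 h
  obtain ⟨h3, h⟩ := List.forall_mem_cons.1 h
  obtain ⟨h4, h⟩ := List.forall_mem_cons.1 h
  obtain ⟨h5, h⟩ := List.forall_mem_cons.1 h
  exact ⟨mul_inv_eq_one.1 (by simpa only [mul_assoc, mul_inv_rev, inv_inv, inv_one, mul_one, one_mul] using (show u * (u * 1) = 1 from h0)),
    mul_inv_eq_one.1 (by simpa only [mul_assoc, mul_inv_rev, inv_inv, inv_one, mul_one, one_mul] using (show i * (i * 1) = 1 from h1)),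
    mul_inv_eq_one.1 (by simpa only [mul_assoc, mul_inv_rev, inv_inv, inv_one, mul_one, one_mul] using (show z * (z * 1) = 1 from h2)),
    mul_inv_eq_one.1 (by simpa only [mul_assoc, mul_inv_rev, inv_inv, inv_one, mul_one, one_mul] using (show u * (i * (u⁻¹ * (i⁻¹ * 1))) = 1 from h3)),
    mul_inv_eq_one.1 (by simpa only [mul_assoc, mul_inv_rev, inv_inv, inv_one, mul_one, one_mul] using (show i * (z * (i⁻¹ * (z⁻¹ * 1))) = 1 from h4)),
    mul_inv_eq_one.1 (by simpa only [mul_assoc, mul_inv_rev, inv_inv, inv_one, mul_one, one_mul] using (show u * (z * (u * (z * (u * (z * (u * (z * 1))))))) = 1 from h5))⟩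

theorem rel : Rel u i z := by decide +kernel

theorem model {G : Type*} [Group G] {u' i' z' : G} (h : Rel u' i' z') :
    ∃ φ : E →* G, φ u = u' ∧ φ i = i' ∧ φ z = z' := by
  obtain ⟨pt, h0, -, hT⟩ := K16E.enum (lt [u', i', z']) (1 : G)
    (lt_icol _ _ (k := 3) rfl (by decide +kernel)) (lt_ge le_rfl) h.sat
    (fun _ h => absurd h List.not_mem_nil)
  obtain ⟨φ, hφ⟩ := exists_hom tb (l := [u', i', z']) rfl h0 hT hom_chk
  exact ⟨φ, by simpa only [List.cons.injEq, and_true] using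
    (show [φ u, φ i, φ z] = [u', i', z'] from hφ)⟩

end H30.CM.K16
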