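import Mathlib
import Cfsg.Agent.Base
import Cfsg.Agent.Lib.M12C.Tab

/-! the group of order 2 (helper30; generated) -/

set_option autoImplicit false
set_option maxRecDepth 100000

namespace H30.CM.K2E
open H54 (Tr force band)
open H18.TC
noncomputable def F_0 : Tr := (.node (nat_lit 0) (.leaf (nat_lit 0x1)) (.leaf (nat_lit 0x1)))
noncomputable def T : Tr := (.leaf (nat_lit 0xc00000700f00000001200a))
noncomputable def J : Tr := (.leaf (nat_lit 0x10010008000000000))
noncomputable def F : Tr := F_0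
noncomputable def row (u : ℕ) : ℕ := Nat.land (Nat.shiftRight (force (Nat.shiftRight u (nat_lit 3)) T.get) (Nat.mul (Nat.land u (nat_lit 7)) (nat_lit 48))) (nat_lit 0xffffffffffff)
noncomputable def jrow (u : ℕ) : ℕ := Nat.land (Nat.shiftRight (force (Nat.shiftRight u (nat_lit 3)) J.get) (Nat.mul (Nat.land u (nat_lit 7)) (nat_lit 39))) (nat_lit 0x7fffffffff)
noncomputable def fget (k fx : ℕ) : ℕ := F.get (Nat.add k fx)
noncomputable def wt0 : LT := (.node (nat_lit 0) (.leaf 1 0 [nat_lit 12])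
(.leaf 0 0 []))
noncomputable def wt1 : LT := (.leaf 0 0 [])
noncomputable def wt2 : LT := (.leaf 0 0 [])
noncomputable def sl : List (ℕ × ℕ × List ℕ × List ℕ) := []
/-- the inverse column -/
noncomputable def icol (x : ℕ) : ℕ := List.getD [nat_lit 1, nat_lit 0] x x
noncomputable def inv (x : ℕ) : ℕ := Nat.mul (icol (Nat.div x (nat_lit 12))) (nat_lit 12)
def cols : List ℕ := [nat_lit 24, nat_lit 0, nat_lit 12]
noncomputable def cl : CL := (.cons (nat_lit 0) (nat_lit 12) (nat_lit 0) (nat_lit 0) wt0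
(.cons (nat_lit 12) (nat_lit 0) (nat_lit 13) (nat_lit 1) wt1
.nil))
def rels : List (List ℕ) := [[0, 0],
[0, 0, 0, 0]]
def subs : List (List ℕ) := []
noncomputable def chk : ℕ → Bool := rowChk row jrow fget sl cols (nat_lit 2) (nat_lit 2) (nat_lit 4095) (nat_lit 3) (nat_lit 4096) (nat_lit 24) (nat_lit 36) (nat_lit 8191) (nat_lit 6) (nat_lit 63) (nat_lit 1) (nat_lit 1) cl (nat_lit 26) wt2
theorem p0 : allB chk 4 0 = true := by decide +kernel
theorem all_chk : AllLt chk 2 := by
  have h := AllLt.zero chk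
  have h := h.step 2 p0 (by decide +kernel)
  exact h
/-- column `x` of the final table -/
noncomputable def tab (x u : ℕ) : ℕ := ft fget (nat_lit 6) (nat_lit 63) (nat_lit 1) (nat_lit 1) (Nat.mul x (nat_lit 1)) u
theorem enum {G Ω : Type*} [Group G] [MulAction G Ω] (g : ℕ → G) (ω : Ω)
    (hinv : ∀ x, g (icol x) = (g x)⁻¹) (h1 : g 2 = 1)
    (hrels : ∀ R ∈ rels, ev g R = 1) (hsubs : ∀ S ∈ subs, ev g S • ω = ω) :
    ∃ pt : ℕ → Ω, pt 0 = ω ∧ (∀ K : Subgroup G, (∀ x, g x ∈ K) → ∀ v, ∃ k ∈ K, pt v = k • ω) ∧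
      ∀ x, x < 2 → ∀ u, u < 2 → tab x u < 2 ∧ g x • pt u = pt (tab x u) :=
  sound_scaled g ω row jrow fget sl inv icol cols (nat_lit 2) (nat_lit 2) (nat_lit 4095) (nat_lit 3) (nat_lit 4096) (nat_lit 24) (nat_lit 36) (nat_lit 8191) (nat_lit 6) (nat_lit 63) (nat_lit 1) (nat_lit 1) 2 cl (nat_lit 26) wt2 rels subs 12 (nat_lit 1) 2
    (fun _ => Nat.mul_div_cancel _ (by decide)) hinv h1 hrels hsubs
    (by decide +kernel) (by decide +kernel) all_chk
end H30.CM.K2E

namespace H30.CM.K2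
open H70.TM H18.TC Subgroup

noncomputable def rt : RT := ⟨nat_lit 2, nat_lit 1, nat_lit 1,
  (.node (nat_lit 0) (.leaf (nat_lit 0x2))
(.leaf (nat_lit 0x1))),
  (nat_lit 0x2),
  (nat_lit 0x0),
  (nat_lit 0x3),
  [nat_lit 1]⟩

theorem okA0 : rt.chkA 1 = true := by decide +kernel
theorem okB : rt.chkB = true := by decide +kernel
noncomputable def tb : GT := ⟨rt, List.forall_mem_cons.2 ⟨okA0, fun _ h => absurd h List.not_mem_nil⟩, okB⟩

theorem hom_chk : homChk tb (nat_lit 0x2) 2 K2E.tab = true := by decide +kernel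

/-- the group -/
abbrev E : Type := El tb

noncomputable def w : E := El.of tb 1

theorem card : Nat.card E = 2 := El.card tb

theorem eq_top {K : Subgroup E} (h0 : w ∈ K) : K = ⊤ :=
  El.eq_top (List.forall_mem_cons.2 ⟨h0, fun _ h => absurd h List.not_mem_nil⟩)

/-- the relations -/
def Rel {G : Type*} [Group G] (w : G) : Prop :=
  w * w = 1 ∧
  w * w * (w * w) = 1

instance {G : Type*} [Group G] [DecidableEq G] (w : G) : Decidable (Rel w) := by
  unfold Rel; infer_instance

theorem Rel.map {G G' : Type*} [Group G] [Group G'] (f : G →* G') {w : G}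
    (h : Rel w) : Rel (f w) := by
  obtain ⟨h0, h1⟩ := h
  exact ⟨by simpa only [map_mul, map_inv, map_one] using congrArg f h0,
    by simpa only [map_mul, map_inv, map_one] using congrArg f h1⟩

theorem Rel.of_map {G G' : Type*} [Group G] [Group G'] {f : G →* G'} (hf : Function.Injective f)
    {w : G} (h : Rel (f w)) : Rel w := by
  obtain ⟨h0, h1⟩ := h
  exact ⟨hf (by simpa only [map_mul, map_inv, map_one] using h0),
    hf (by simpa only [map_mul, map_inv, map_one] using h1)⟩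

theorem Rel.prod {G G' : Type*} [Group G] [Group G'] {w : G} {w' : G'}
    (h : Rel w) (k : Rel w') :
    Rel (w, w') := by
  obtain ⟨h0, h1⟩ := h
  obtain ⟨k0, k1⟩ := k
  exact ⟨Prod.ext h0 k0, Prod.ext h1 k1⟩

theorem Rel.sat {G : Type*} [Group G] {w : G} (h : Rel w) :
    ∀ R ∈ K2E.rels, ev (lt [w]) R = 1 := by
  obtain ⟨h0, h1⟩ := h
  exact List.forall_mem_cons.2 ⟨show w * (w * 1) = 1 by
      simpa only [mul_assoc, mul_inv_rev, inv_inv, inv_one, mul_one, one_mul] using mul_inv_eq_one.2 h0,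
    List.forall_mem_cons.2 ⟨show w * (w * (w * (w * 1))) = 1 by
      simpa only [mul_assoc, mul_inv_rev, inv_inv, inv_one, mul_one, one_mul] using mul_inv_eq_one.2 h1,
    fun _ h => absurd h List.not_mem_nil⟩⟩

theorem Rel.of_sat {G : Type*} [Group G] {w : G}
    (h : ∀ R ∈ K2E.rels, ev (lt [w]) R = 1) : Rel w := by
  obtain ⟨h0, h⟩ := List.forall_mem_cons.1 h
  obtain ⟨h1, h⟩ := List.forall_mem_cons.1 h
  exact ⟨mul_inv_eq_one.1 (by simpa only [mul_assoc, mul_inv_rev, inv_inv, inv_one, mul_one, one_mul] using (show w * (w * 1) = 1 from h0)),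
    mul_inv_eq_one.1 (by simpa only [mul_assoc, mul_inv_rev, inv_inv, inv_one, mul_one, one_mul] using (show w * (w * (w * (w * 1))) = 1 from h1))⟩

theorem rel : Rel w := by decide +kernel

theorem model {G : Type*} [Group G] {w' : G} (h : Rel w') :
    ∃ φ : E →* G, φ w = w' := by
  obtain ⟨pt, h0, -, hT⟩ := K2E.enum (lt [w']) (1 : G)
    (lt_icol _ _ (k := 1) rfl (by decide +kernel)) (lt_ge le_rfl) h.sat
    (fun _ h => absurd h List.not_mem_nil)
  obtain ⟨φ, hφ⟩ := exists_hom tb (l := [w']) rfl h0 hT hom_chk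
  exact ⟨φ, by simpa only [List.cons.injEq, and_true] using
    (show [φ w] = [w'] from hφ)⟩

end H30.CM.K2
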